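import Cfsg.Agent.R23.Defs
import Cfsg.Agent.H15.Trans

set_option autoImplicit false

namespace Cfsg.Agent.R23

open Matrix Cfsg.Agent.H15

variable {G : Type*} [Group G]

theorem LX_nf {a b : Cfsg.GolayPt → ℤ} (ha : a ∈ Cfsg.leechLattice) (hb : b ∈ Cfsg.leechLattice)
    (haa : Cfsg.sqNorm a = 32) (hbb : Cfsg.sqNorm b = 48) (hab : Cfsg.dotInt a b = 8) :
    ∃ a' : Cfsg.GolayPt → ℤ, a' none = -3 ∧ (∀ t, t ≠ none → a' t ^ 2 = 1) ∧
      ∀ x ∈ Cfsg.leechLattice, ∃ y ∈ Cfsg.leechLattice, Cfsg.sqNorm y = Cfsg.sqNorm x ∧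
        Cfsg.dotInt y a = Cfsg.dotInt x a' ∧ Cfsg.dotInt y b = Cfsg.dotInt x a' + 8 * x none := by
  classical
  let A : leechLattice := ⟨a, ha⟩
  let B : leechLattice := ⟨b, hb⟩
  obtain ⟨g, hg⟩ := conj64 (B - A) (by
    change sqNorm (b - a) = 64
    rw [sqNorm_sub, dot_comm, haa, hbb, hab]; rfl)
  have h0 : ((g • A : leechLattice) : Vec) none = -3 := by
    have h := co0_dot g A (B - A)
    rw [hg, e8_val, dot_single_right] at h
    change _ = dotInt a (b - a) at h
    rw [dot_sub_right, dot_self, haa, hab] at h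
    omega
  have hn : sqNorm ((g • A : leechLattice) : Vec) = 32 := (co0_norm g A).trans haa
  refine ⟨(g • A : leechLattice), h0, ?_, fun x hx => ?_⟩
  · have hodd : ∀ i, ((g • A : leechLattice) : Vec) i % 2 = 1 := by
      rcases parity_cases (g • A).2 with h | h
      · have := h.1 none; omega
      · exact h.1
    generalize ((g • A : leechLattice) : Vec) = v at h0 hn hodd
    have h1 : ∀ i, 0 ≤ v i ^ 2 - 1 := fun i => by
      have := hodd i
      have : v i ≠ 0 := by omega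
      have := sq_pos_of_ne_zero this
      omega
    have h2 : ∑ i, (v i ^ 2 - 1) = 8 := by
      rw [Finset.sum_sub_distrib, ← sqNorm, hn, Finset.sum_const, Finset.card_univ, card_pt]; rfl
    intro t ht
    have h3 := Finset.sum_le_sum_of_subset_of_nonneg (f := fun i => v i ^ 2 - 1)
      (Finset.subset_univ {t, none}) fun i _ _ => h1 i
    rw [h2, Finset.sum_pair ht, h0] at h3
    have := h1 t
    omega
  · let X : leechLattice := ⟨x, hx⟩
    refine ⟨(g⁻¹ • X : leechLattice), Subtype.prop _, co0_norm _ _, ?_, ?_⟩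
    · have h := co0_dot g (g⁻¹ • X) A
      rw [smul_inv_smul] at h
      exact h.symm
    · have h := co0_dot g (g⁻¹ • X) B
      rw [smul_inv_smul, show g • B = g • A + e8 none by rw [← hg, co0_smul_sub, add_sub_cancel],
        AddSubgroup.coe_add, dot_add_right, e8_val, dot_single_right] at h
      exact h.symm

theorem LX_two {i j : Cfsg.GolayPt} (hij : i ≠ j) {s t : ℤ} (hs : s ^ 2 = 1) (ht : t ^ 2 = 1) :
    (Pi.single i (4 * s) + Pi.single j (4 * t) : Vec) ∈ Cfsg.leechLattice ∧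
      Cfsg.sqNorm (Pi.single i (4 * s) + Pi.single j (4 * t) : Vec) = 32 := by
  classical
  refine ⟨mem_leech_of_four_dvd (fun k => ?_) ?_, ?_⟩
  · simp only [Pi.add_apply, Pi.single_apply]
    split_ifs <;> omega
  · simp only [Pi.add_apply, Finset.sum_add_distrib, Finset.sum_pi_single', Finset.mem_univ, if_true]
    rcases sq_eq_one_iff.mp hs with rfl | rfl <;>
      rcases sq_eq_one_iff.mp ht with rfl | rfl <;> rfl
  · rw [sqNorm_add, sqNorm_single, sqNorm_single, dot_single_left, Pi.single_eq_of_ne hij, mul_pow,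
      mul_pow, hs, ht]
    simp

theorem lx1 {a b : Cfsg.GolayPt → ℤ} (ha : a ∈ Cfsg.leechLattice) (hb : b ∈ Cfsg.leechLattice)
    (haa : Cfsg.sqNorm a = 32) (hbb : Cfsg.sqNorm b = 48) (hab : Cfsg.dotInt a b = 8) :
    ∃ x ∈ Cfsg.leechLattice, Cfsg.sqNorm x = 32 ∧ Cfsg.dotInt x a = 0 ∧ Cfsg.dotInt x b = 0 := by
  obtain ⟨v, -, h1, h2⟩ := LX_nf ha hb haa hbb hab
  have e0 := h1 (some 0) (by simp)
  have e1 := h1 (some 1) (by simp)
  obtain ⟨h3, h4⟩ := LX_two (i := some 0) (j := some 1) (by decide) e0 ((neg_sq _).trans e1)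
  obtain ⟨y, hy, h5, h6, h7⟩ := h2 _ h3
  rw [dot_add_left, dot_single_left, dot_single_left] at h6 h7
  rw [Pi.add_apply, Pi.single_eq_of_ne (by simp), Pi.single_eq_of_ne (by simp)] at h7
  exact ⟨y, hy, h5.trans h4, by linear_combination h6 + 4 * e0 - 4 * e1,
    by linear_combination h7 + 4 * e0 - 4 * e1⟩

theorem lx2 {a b : Cfsg.GolayPt → ℤ} (ha : a ∈ Cfsg.leechLattice) (hb : b ∈ Cfsg.leechLattice)
    (haa : Cfsg.sqNorm a = 32) (hbb : Cfsg.sqNorm b = 48) (hab : Cfsg.dotInt a b = 8) :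
    ∃ x ∈ Cfsg.leechLattice, Cfsg.sqNorm x = 32 ∧ Cfsg.dotInt x a = -8 ∧ Cfsg.dotInt x b = 24 := by
  obtain ⟨v, h0, h1, h2⟩ := LX_nf ha hb haa hbb hab
  have e0 := h1 (some 0) (by simp)
  obtain ⟨h3, h4⟩ := LX_two (i := none) (j := some 0) (by simp) (one_pow 2) e0
  obtain ⟨y, hy, h5, h6, h7⟩ := h2 _ h3
  rw [dot_add_left, dot_single_left, dot_single_left, h0] at h6 h7
  rw [Pi.add_apply, Pi.single_eq_same, Pi.single_eq_of_ne (by simp)] at h7
  exact ⟨y, hy, h5.trans h4, by linear_combination h6 + 4 * e0,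
    by linear_combination h7 + 4 * e0⟩

end Cfsg.Agent.R23
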