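import Cfsg.Agent.R23.Defs

set_option autoImplicit false

namespace Cfsg.Agent.R23

open Matrix

variable {G : Type*} [Group G]

/-- a subspace containing an orbit of a nonzero vector is everything -/
theorem orb_top (C : Core G) {x : V} (hx : x ≠ 0) {W : Submodule ℚ V} (h : ∀ g, C.r g x ∈ W) :
    W = ⊤ := by
  have hS : ∀ g, ∀ y ∈ Submodule.span ℚ (Set.range fun g => C.r g x),
      C.r g y ∈ Submodule.span ℚ (Set.range fun g => C.r g x) := by
    intro g y hy
    have : (Submodule.span ℚ (Set.range fun g => C.r g x)).map (C.r g) ≤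
        Submodule.span ℚ (Set.range fun g => C.r g x) := by
      rw [Submodule.map_span, Submodule.span_le]
      rintro _ ⟨_, ⟨g', rfl⟩, rfl⟩
      exact Submodule.subset_span ⟨g * g', by simp⟩
    exact this ⟨y, hy, rfl⟩
  rcases C.irr _ hS with e | e
  · exfalso
    have : x ∈ Submodule.span ℚ (Set.range fun g => C.r g x) := Submodule.subset_span ⟨1, by simp⟩
    rw [e] at this
    exact hx this
  · rw [eq_top_iff, ← e, Submodule.span_le]
    rintro _ ⟨g, rfl⟩
    exact h g

/-- the stabiliser of `± x` -/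
def orbH (C : Core G) (x : V) : Subgroup G where
  carrier := {g | C.r g x = x ∨ C.r g x = -x}
  one_mem' := Or.inl (by simp)
  mul_mem' := by
    rintro a b (ha | ha) (hb | hb) <;>
      simp [Set.mem_setOf_eq, map_mul, Module.End.mul_apply, ha, hb]
  inv_mem' := by
    intro a ha
    have e : C.r a⁻¹ (C.r a x) = x := by
      rw [← Module.End.mul_apply, ← map_mul, inv_mul_cancel, map_one, Module.End.one_apply]
    rcases ha with ha | ha
    · left; rwa [ha] at e
    · right; rw [ha, map_neg] at e; exact neg_eq_iff_eq_neg.1 e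

theorem orb [Finite G] (C : Core G) {x : V} (hx : x ≠ 0) {ι : Type} [Fintype ι]
    (hι : Fintype.card ι ≤ 24) (s : ι → V) (h : ∀ g, ∃ i, C.r g x = s i ∨ C.r g x = -s i) :
    False := by
  classical
  choose f hf using h
  have hinj : Function.Injective fun q : G ⧸ orbH C x => f q.out := by
    intro q q' e
    have e' : f q.out = f q'.out := e
    rw [← q.out_eq', ← q'.out_eq', QuotientGroup.eq]
    have e1 : ∀ a b : G, C.r (a⁻¹ * b) x = C.r a⁻¹ (C.r b x) := fun a b => by
      rw [map_mul, Module.End.mul_apply]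
    have e2 : C.r q.out⁻¹ (C.r q.out x) = x := by
      rw [← e1, inv_mul_cancel, map_one, Module.End.one_apply]
    change C.r _ x = x ∨ C.r _ x = -x
    rw [e1]
    rcases hf q.out with h1 | h1 <;> rcases hf q'.out with h2 | h2 <;> rw [h1, e'] at e2 <;>
      rw [h2]
    · exact Or.inl e2
    · right; rw [map_neg, e2]
    · right; rw [map_neg] at e2; exact neg_eq_iff_eq_neg.1 e2
    · exact Or.inl e2
  have hle : (orbH C x).index ≤ 22 := by
    have h1 := Nat.card_le_card_of_injective _ hinj
    rw [Nat.card_eq_fintype_card (α := ι)] at h1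
    have h2 := C.idx (orbH C x)
    rw [Subgroup.index] at h2 ⊢
    omega
  have hσ : ∀ g : G, g⁻¹ * C.σ * g ∈ orbH C x := by
    intro g
    have h1 : MulAction.toPermHom G (G ⧸ orbH C x) C.σ = 1 := by
      have a1 : orderOf (MulAction.toPermHom G (G ⧸ orbH C x) C.σ) ∣ 23 := by
        rw [← C.ord]; exact orderOf_map_dvd _ _
      rcases (Nat.dvd_prime (by norm_num)).1 a1 with e | e
      · exact orderOf_eq_one_iff.1 e
      · exfalso
        have a2 := orderOf_dvd_natCard (MulAction.toPermHom G (G ⧸ orbH C x) C.σ)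
        rw [e, Nat.card_perm, Nat.Prime.dvd_factorial (by norm_num)] at a2
        rw [Subgroup.index] at hle
        omega
    have h2 : C.σ • ((g : G) : G ⧸ orbH C x) = g := by
      have := congrArg (fun p : Equiv.Perm (G ⧸ orbH C x) => p (g : G ⧸ orbH C x)) h1
      simpa using this
    rw [MulAction.Quotient.smul_mk, eq_comm, QuotientGroup.eq, smul_eq_mul, ← mul_assoc] at h2
    exact h2
  have hW : ∀ g, C.r g x ∈ Submodule.span ℚ {C.w} := by
    intro g
    have e1 : C.r C.σ (C.r g x) = C.r g (C.r (g⁻¹ * C.σ * g) x) := by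
      rw [← Module.End.mul_apply, ← Module.End.mul_apply, ← map_mul, ← map_mul]
      congr 2
      group
    obtain ⟨t, ht⟩ := C.fix_pow (i := 2) (by norm_num) (by norm_num) (x := C.r g x) (by
      rw [pow_two, map_mul, Module.End.mul_apply]
      rcases hσ g with e | e <;> rw [e] at e1
      · rw [e1, e1]
      · rw [e1, map_neg, map_neg, e1, map_neg, neg_neg])
    exact Submodule.mem_span_singleton.2 ⟨t, ht.symm⟩
  have h1 := finrank_span_singleton (K := ℚ) C.w_ne
  rw [orb_top C hx hW, finrank_top] at h1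
  simp at h1

theorem exists_ne (C : Core G) {x : V} (hx : x ≠ 0) : ∃ g, C.B (C.r g x) C.w ≠ 0 := by
  by_contra hn
  push Not at hn
  have h1 : LinearMap.ker (C.B.flip C.w) = ⊤ := orb_top C hx fun g => hn g
  have h2 : C.w ∈ LinearMap.ker (C.B.flip C.w) := h1 ▸ Submodule.mem_top
  exact (C.pos _ C.w_ne).ne' h2

end Cfsg.Agent.R23
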