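import Cfsg.Agent.R23.SD
import Cfsg.Agent.R23.LX
import Cfsg.Agent.R23.Orb
import Cfsg.Agent.S0391

/-! Project R23: the possible values of `d`. -/

set_option autoImplicit false

namespace Cfsg.Agent.R23

open Matrix

variable {G : Type*} [Group G]

namespace BND

theorem tf2 (s s' : Fin 2 → ℚ) : tf T2 s s' = s 0 * (4 * s' 0 + s' 1) + s 1 * (s' 0 + 6 * s' 1) := by
  simp [tf, T2, dotProduct, mulVec, Fin.sum_univ_two]

theorem mv0 (s : Fin 2 → ℚ) : (T2.map (Int.cast : ℤ → ℚ) *ᵥ s) 0 = 4 * s 0 + s 1 := by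
  simp [T2, dotProduct, mulVec, Fin.sum_univ_two]

theorem mv1 (s : Fin 2 → ℚ) : (T2.map (Int.cast : ℤ → ℚ) *ᵥ s) 1 = s 0 + 6 * s 1 := by
  simp [T2, dotProduct, mulVec, Fin.sum_univ_two]

theorem tf_eq {s : Fin 2 → ℚ} {a b : ℚ} (ha : 4 * s 0 + s 1 = a) (hb : s 0 + 6 * s 1 = b) :
    23 * tf T2 s s = 6 * a ^ 2 - 2 * a * b + 4 * b ^ 2 := by
  rw [tf2, ← ha, ← hb]
  ring

theorem shift0 : ∀ k : Fin 23, ∃ p : Fin 2, ∃ q : Fin 5,
    6 * (4 * (p : ℤ) - q) ^ 2 - 2 * (4 * (p : ℤ) - q) * ((k : ℤ) + p - 6 * q) + 4 * ((k : ℤ) + p - 6 * q) ^ 2 ≤ 48 := by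
  decide +kernel

theorem shift (a b : ℤ) : ∃ p q : ℤ,
    6 * (a - 4 * p - q) ^ 2 - 2 * (a - 4 * p - q) * (b - p - 6 * q) + 4 * (b - p - 6 * q) ^ 2 ≤ 48 := by
  obtain ⟨p, q, h⟩ := shift0 ⟨((b - 6 * a) % 23).toNat, by omega⟩
  refine ⟨-((b - 6 * a) / 23) - p, a + 4 * ((b - 6 * a) / 23) + q, ?_⟩
  have e : ((((b - 6 * a) % 23).toNat : ℕ) : ℤ) = b - 6 * a - 23 * ((b - 6 * a) / 23) := by omega
  simp only [e] at h
  convert h using 2 <;> ring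

theorem res : ∀ d : ℕ, d < 49 → ∀ r : ZMod 23, (d : ZMod 23) = 4 * r ^ 2 → 2 ∣ d → ¬ 23 ∣ d → ¬ 16 ∣ d → d ≠ 2 →
    d ∈ ({4, 6, 8, 12, 18, 24, 26, 36} : Finset ℕ) := by
  intro d hd
  interval_cases d <;> decide +kernel

variable {C : Core G} {P : Pt 2 C.d}

theorem β2 (I : C.Iso P) (u u' : V × (Fin 2 → ℚ)) : C.β P u u' = C.B u.1 u'.1 + tf T2 u.2 u'.2 := by
  rw [Core.β, I.hT]

theorem dot (I : C.Iso P) (u u' : C.N P) :
    ((Cfsg.dotInt ((I.φ u : Cfsg.leechLattice) : Cfsg.GolayPt → ℤ) (I.φ u' : Cfsg.leechLattice) : ℤ) : ℚ) =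
      8 * C.β P u u' := by
  have h1 := I.nrm (u + u')
  have h2 : ∀ x y : Cfsg.GolayPt → ℤ, Cfsg.sqNorm (x + y) = Cfsg.sqNorm x + 2 * Cfsg.dotInt x y + Cfsg.sqNorm y :=
    fun x y => by
      simp only [Cfsg.sqNorm, Cfsg.dotInt, Pi.add_apply, Finset.mul_sum, ← Finset.sum_add_distrib]
      exact Finset.sum_congr rfl fun i _ => by ring
  rw [map_add, AddSubgroup.coe_add, h2] at h1
  push_cast at h1
  rw [I.nrm, I.nrm] at h1
  simp only [β2 I, tf2, Prod.fst_add, Prod.snd_add, Pi.add_apply, map_add, LinearMap.add_apply,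
    C.symm (u' : V × (Fin 2 → ℚ)).1 (u : V × (Fin 2 → ℚ)).1] at h1 ⊢
  linarith

theorem min4 (I : C.Iso P) {u : V × (Fin 2 → ℚ)} (hu : u ∈ C.N P) (h0 : u ≠ 0) : 4 ≤ C.β P u u := by
  have h1 := I.nrm ⟨u, hu⟩
  have h2 := Cfsg.Agent.S0391.result _ (I.φ ⟨u, hu⟩).2 fun h =>
    h0 (congrArg Subtype.val ((map_eq_zero_iff I.φ I.φ.injective).1 (Subtype.ext h)))
  have h3 : ((32 : ℤ) : ℚ) ≤ _ := Int.cast_le.2 h2
  rw [h1] at h3
  push_cast at h3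
  linarith

theorem pull (I : C.Iso P) {α β : ℤ}
    (h : ∀ {a b : Cfsg.GolayPt → ℤ}, a ∈ Cfsg.leechLattice → b ∈ Cfsg.leechLattice → Cfsg.sqNorm a = 32 →
      Cfsg.sqNorm b = 48 → Cfsg.dotInt a b = 8 →
      ∃ x ∈ Cfsg.leechLattice, Cfsg.sqNorm x = 32 ∧ Cfsg.dotInt x a = α ∧ Cfsg.dotInt x b = β) :
    ∃ u ∈ C.N P, C.β P u u = 4 ∧ 8 * (4 * u.2 0 + u.2 1) = α ∧ 8 * (u.2 0 + 6 * u.2 1) = β := by
  let a : C.N P := ⟨(0, ![1, 0]), (N_inr C P).2 (Fin.forall_fin_two.2 ⟨isI_int 1, isI_zero⟩)⟩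
  let b : C.N P := ⟨(0, ![0, 1]), (N_inr C P).2 (Fin.forall_fin_two.2 ⟨isI_zero, isI_int 1⟩)⟩
  obtain ⟨x, hx, h1, h2, h3⟩ := h (I.φ a).2 (I.φ b).2
    (Int.cast_injective (α := ℚ) (by rw [I.nrm, β2 I, tf2]; norm_num [a]))
    (Int.cast_injective (α := ℚ) (by rw [I.nrm, β2 I, tf2]; norm_num [b]))
    (Int.cast_injective (α := ℚ) (by rw [dot, β2 I, tf2]; norm_num [a, b]))
  obtain ⟨u, hu⟩ := I.φ.surjective ⟨x, hx⟩
  have e : x = (I.φ u : Cfsg.leechLattice) := by rw [hu]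
  subst e
  have k1 := I.nrm u
  have k2 := dot I u a
  have k3 := dot I u b
  rw [h1] at k1
  rw [h2, β2 I, tf2] at k2
  rw [h3, β2 I, tf2] at k3
  norm_num [a, b] at k1 k2 k3
  exact ⟨u, u.2, by linarith, by linarith, by linarith⟩

theorem le48 (I : C.Iso P) : C.d ≤ 48 := by
  obtain ⟨⟨l, s⟩, hu, h1, h2, h3⟩ := pull I lx1
  obtain rfl : s = 0 := by
    ext i
    fin_cases i <;> simp at h2 h3 ⊢ <;> linarith
  obtain ⟨hl, -⟩ := (N_inl C P).1 hu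
  have h4 : C.B l l = 4 := by simpa [β2 I, tf2] using h1
  obtain ⟨g, hg⟩ := exists_ne C (x := l) (by rintro rfl; simp at h4)
  have hx := C.Linv g l hl
  have h5 : C.B (C.r g l) (C.r g l) = 4 := by rw [C.inv, h4]
  generalize C.r g l = x at hg hx h5
  obtain ⟨j, hj⟩ := C.dec x hx
  have j0 : j ≠ 0 := by rintro rfl; simp [hj] at hg
  obtain ⟨a, ha⟩ := P.dualm 0
  obtain ⟨b, hb⟩ := P.dualm 1
  rw [I.hT, mv0] at ha
  rw [I.hT, mv1] at hb
  obtain ⟨p, q, hpq⟩ := shift (j * a) (j * b)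
  let u : V × (Fin 2 → ℚ) := (x - ((j : ℚ) / 23) • C.w, ![j * P.t 0 - p, j * P.t 1 - q])
  have hu : u ∈ C.N P := by
    refine ⟨?_, j, ?_, Fin.forall_fin_two.2 ⟨⟨-p, by simp [u]⟩, ⟨-q, by simp [u]⟩⟩⟩
    · simp only [u, map_sub, map_smul, LinearMap.sub_apply, LinearMap.smul_apply, C.Bww, hj, smul_eq_mul]
      ring
    · convert C.L.sub_mem hx (zsm j C.x_mem) using 1
      simp only [u, Core.y₁]
      module
  have h6 : C.B u.1 u.1 = 4 - j ^ 2 * C.d / 23 := by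
    simp only [u, map_sub, map_smul, LinearMap.sub_apply, LinearMap.smul_apply, C.Bww, hj, h5, C.symm C.w x,
      smul_eq_mul]
    ring
  have h7 := tf_eq (s := u.2) (a := ((j * a - 4 * p - q : ℤ) : ℚ)) (b := ((j * b - p - 6 * q : ℤ) : ℚ))
    (by simp only [u, cons_val_zero, cons_val_one]; push_cast; rw [← ha]; ring)
    (by simp only [u, cons_val_zero, cons_val_one]; push_cast; rw [← hb]; ring)
  have h8 : 23 * tf T2 u.2 u.2 ≤ 48 := by rw [h7]; exact_mod_cast hpq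
  have j1 : 1 ≤ j ^ 2 := by have := sq_pos_of_ne_zero j0; omega
  by_cases h0 : u = 0
  · rw [h0, Prod.fst_zero, map_zero] at h6
    have h9 : j ^ 2 * C.d = 92 := by
      have : (j : ℚ) ^ 2 * C.d = 92 := by linarith
      exact_mod_cast this
    by_contra h
    have h10 : j ^ 2 = 1 := by nlinarith
    rw [h10] at h9
    exact C.d23 (by omega)
  · have h9 := min4 I hu h0
    rw [β2 I, h6] at h9
    have h10 : j ^ 2 * C.d ≤ 48 := by
      have : (j : ℚ) ^ 2 * C.d ≤ 48 := by linarith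
      exact_mod_cast this
    nlinarith

theorem ne2 (I : C.Iso P) (h : C.NoRoot) : C.d ≠ 2 := fun hd => by
  obtain ⟨⟨y, s⟩, ⟨h0, m, hm, -⟩, h1, h2, h3⟩ := pull I lx2
  have h4 := tf_eq (s := s) (a := -1) (b := 3) (by push_cast at h2; linarith) (by push_cast at h3; linarith)
  have h5 : C.B y y = 44 / 23 := by
    rw [β2 I] at h1
    linarith
  have key : ∀ c : ℚ, C.B (y + (c / 23) • C.w) (y + (c / 23) • C.w) = (44 + 2 * c ^ 2) / 23 := fun c => by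
    have h0' : C.B y C.w = 0 := h0
    simp only [map_add, map_smul, LinearMap.add_apply, LinearMap.smul_apply, C.Bww, h5, C.symm C.w y, h0', hd,
      smul_eq_mul]
    push_cast
    ring
  have h6 : ∀ c : ℤ, y + (((m - 23 * c : ℤ) : ℚ) / 23) • C.w ∈ C.L := fun c => by
    convert C.L.sub_mem (C.L.add_mem hm (zsm m C.x_mem)) (zsm c C.w_mem) using 1
    simp only [Core.y₁]
    push_cast
    module
  obtain ⟨k, hk⟩ := C.even _ (h6 0)
  rw [key] at hk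
  have h7 : (m - 1) * (m + 1) = 23 * (k - 1) := by
    have : ((m : ℚ) - 1) * (m + 1) = 23 * (k - 1) := by
      push_cast at hk
      linarith
    exact_mod_cast this
  rcases (Int.prime_iff_natAbs_prime.2 (by norm_num) : Prime (23 : ℤ)).dvd_or_dvd ⟨_, h7⟩ with ⟨c, hc⟩ | ⟨c, hc⟩
  · refine h _ (h6 c) ?_
    rw [key, show m - 23 * c = 1 by omega]
    norm_num
  · refine h _ (h6 c) ?_
    rw [key, show m - 23 * c = -1 by omega]
    norm_num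

end BND

open BND in
theorem bnd (C : Core G) {P : Pt 2 C.d} (I : C.Iso P) (h : C.NoRoot) :
    C.d ∈ ({4, 6, 8, 12, 18, 24, 26, 36} : Finset ℕ) := by
  obtain ⟨a, ha⟩ := P.dualm 0
  obtain ⟨b, hb⟩ := P.dualm 1
  obtain ⟨k, hk⟩ := P.nrm
  rw [I.hT, mv0] at ha
  rw [I.hT, mv1] at hb
  rw [I.hT] at hk
  have h1 := tf_eq ha hb
  have h2 : (C.d : ℤ) = 4 * (b - 6 * a) ^ 2 + 23 * (2 * a * b - 6 * a ^ 2 - 2 * k) := by
    have : (C.d : ℚ) = 4 * (b - 6 * a) ^ 2 + 23 * (2 * a * b - 6 * a ^ 2 - 2 * k) := by linarith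
    exact_mod_cast this
  refine res _ (Nat.lt_succ_of_le (le48 I)) ((b - 6 * a : ℤ) : ZMod 23) ?_ C.d2 C.d23 C.d16 (ne2 I h)
  have h3 := congrArg (Int.cast : ℤ → ZMod 23) h2
  rw [Int.cast_add, Int.cast_mul 23, show ((23 : ℤ) : ZMod 23) = 0 from rfl, zero_mul, add_zero] at h3
  exact_mod_cast h3

end Cfsg.Agent.R23
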