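import Cfsg.Agent.R23.Defs

set_option autoImplicit false

namespace Cfsg.Agent.R23

open Matrix

variable {G : Type*} [Group G]

namespace Cyc

open Polynomial

theorem aeval_res {A : Module.End ℚ V} {W : Submodule ℚ V} (h : ∀ x ∈ W, A x ∈ W) (p : ℚ[X]) (x : W) :
    ((aeval (A.restrict h : Module.End ℚ W) p x : W) : V) = aeval A p x := by
  have hp : ∀ (n : ℕ) (y : W), (((A.restrict h : Module.End ℚ W) ^ n) y : V) = (A ^ n) y := by
    intro n
    induction n with
    | zero => intro y; rfl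
    | succ n ih =>
      intro y
      rw [pow_succ, pow_succ, Module.End.mul_apply, Module.End.mul_apply, ih]
      rfl
  induction p using Polynomial.induction_on' with
  | add p q hp hq => rw [map_add, map_add, LinearMap.add_apply, LinearMap.add_apply, Submodule.coe_add, hp, hq]
  | monomial n c =>
    rw [aeval_monomial, aeval_monomial, Module.End.mul_apply, Module.End.mul_apply, Module.algebraMap_end_apply,
      Module.algebraMap_end_apply, Submodule.coe_smul, hp]

theorem deg_le {W : Type*} [AddCommGroup W] [Module ℚ W] [FiniteDimensional ℚ W] [Nontrivial W]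
    {B : Module.End ℚ W} {p : ℚ[X]} (hi : Irreducible p) (hm : p.Monic) (h : aeval B p = 0) :
    p.natDegree ≤ Module.finrank ℚ W := by
  rw [minpoly.eq_of_irreducible_of_monic hi h hm, ← B.charpoly_natDegree]
  exact natDegree_le_of_dvd B.minpoly_dvd_charpoly B.charpoly_monic.ne_zero

theorem deg_ne {W : Type*} [AddCommGroup W] [Module ℚ W] [FiniteDimensional ℚ W] [Nontrivial W]
    {B : Module.End ℚ W} {p : ℚ[X]} (hi : Irreducible p) (hm : p.Monic) (h : aeval B p = 0)
    (h1 : p.natDegree ≠ 1) : p.natDegree + 1 ≠ Module.finrank ℚ W := fun e => by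
  have e1 := minpoly.eq_of_irreducible_of_monic hi h hm
  obtain ⟨f, hf⟩ := B.minpoly_dvd_charpoly
  rw [← e1] at hf
  have f0 : f ≠ 0 := fun e0 => B.charpoly_monic.ne_zero (by rw [hf, e0, mul_zero])
  have hd : f.natDegree = 1 := by
    have := B.charpoly_natDegree
    rw [hf, natDegree_mul hm.ne_zero f0] at this
    omega
  obtain ⟨c, hc⟩ := exists_root_of_degree_eq_one ((degree_eq_iff_natDegree_eq f0).2 hd)
  have h2 : B.charpoly.IsRoot c := by rw [hf]; exact hc.dvd (dvd_mul_left _ _)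
  have h3 := Module.End.hasEigenvalue_iff_isRoot.1 ((Module.End.hasEigenvalue_iff_isRoot_charpoly B c).2 h2)
  rw [← e1] at h3
  exact hi.not_isRoot_of_natDegree_ne_one h1 h3

theorem cop {q : ℕ} (hq : q.Prime) : IsCoprime (cyclotomic q ℚ) (X - 1) := by
  haveI := Fact.mk hq
  have : Irreducible (X - C 1 : ℚ[X]) := irreducible_X_sub_C 1
  rw [C_1] at this
  refine (this.coprime_iff_not_dvd.2 fun h => ?_).symm
  rw [← C_1, dvd_iff_isRoot, IsRoot.def, eval_one_cyclotomic_prime] at h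
  exact hq.ne_zero (by exact_mod_cast h)

theorem dims {q : ℕ} (hq : q.Prime) {A : Module.End ℚ V} (h : A ^ q = 1) :
    Module.finrank ℚ (LinearMap.ker (aeval A (cyclotomic q ℚ))) +
      Module.finrank ℚ (LinearMap.ker (aeval A (X - 1 : ℚ[X]))) = 23 := by
  haveI := Fact.mk hq
  have h1 := sup_ker_aeval_eq_ker_aeval_mul_of_coprime A (cop hq)
  have h0 : aeval A (X ^ q - 1 : ℚ[X]) = 0 := by rw [map_sub, map_pow, aeval_X, map_one, h, sub_self]
  rw [cyclotomic_prime_mul_X_sub_one, h0, LinearMap.ker_zero] at h1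
  have h2 := Submodule.finrank_sup_add_finrank_inf_eq (LinearMap.ker (aeval A (cyclotomic q ℚ)))
    (LinearMap.ker (aeval A (X - 1 : ℚ[X])))
  rw [h1, (disjoint_ker_aeval_of_isCoprime A (cop hq)).eq_bot, finrank_bot, finrank_top] at h2
  rw [← h2]
  simp

theorem mem_fix {A : Module.End ℚ V} {x : V} : x ∈ LinearMap.ker (aeval A (X - 1 : ℚ[X])) ↔ A x = x := by
  rw [LinearMap.mem_ker, map_sub, aeval_X, map_one, LinearMap.sub_apply, Module.End.one_apply, sub_eq_zero]

theorem inv {A : Module.End ℚ V} (p : ℚ[X]) : ∀ x ∈ LinearMap.ker (aeval A p), A x ∈ LinearMap.ker (aeval A p) := by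
  intro x hx
  rw [LinearMap.mem_ker] at hx ⊢
  have e : aeval A p * A = A * aeval A p := by
    have : aeval A (p * X) = aeval A (X * p) := by rw [mul_comm]
    rwa [map_mul, map_mul, aeval_X] at this
  rw [← Module.End.mul_apply, e, Module.End.mul_apply, hx, map_zero]

theorem res_zero {A : Module.End ℚ V} (p : ℚ[X]) :
    aeval (A.restrict (inv p) : Module.End ℚ (LinearMap.ker (aeval A p))) p = 0 :=
  LinearMap.ext fun x => Subtype.ext ((aeval_res (inv p) p x).trans x.2)

theorem nontriv {q : ℕ} (hq : q.Prime) {A : Module.End ℚ V} (h : A ^ q = 1) (h1 : A ≠ 1) :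
    Nontrivial (LinearMap.ker (aeval A (cyclotomic q ℚ))) := by
  rw [← Module.finrank_pos_iff (R := ℚ)]
  by_contra h0
  have h2 := dims hq h
  have h3 : LinearMap.ker (aeval A (X - 1 : ℚ[X])) = ⊤ :=
    Submodule.eq_top_of_finrank_eq (by rw [Module.finrank_fin_fun]; omega)
  exact h1 (LinearMap.ext fun x => mem_fix.1 (h3 ▸ Submodule.mem_top))

theorem pw (R : Rp G) {g : G} {q : ℕ} (hq : q.Prime) (h : orderOf g = q) : R.r g ^ q = 1 ∧ R.r g ≠ 1 := by
  refine ⟨by rw [← map_pow, ← h, pow_orderOf_eq_one, map_one], fun e => ?_⟩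
  rw [R.inj (e.trans (map_one _).symm), orderOf_one] at h
  exact hq.one_lt.ne h

end Cyc

open Polynomial in
theorem prime_le [Finite G] (R : Rp G) {q : ℕ} (hq : q.Prime) (h : q ∣ Nat.card G) : q ≤ 23 := by
  haveI := Fact.mk hq
  obtain ⟨g, hg⟩ := exists_prime_orderOf_dvd_card' q h
  obtain ⟨h1, h2⟩ := Cyc.pw R hq hg
  haveI := Cyc.nontriv hq h1 h2
  have h3 := Cyc.deg_le (cyclotomic.irreducible_rat hq.pos) (cyclotomic.monic q ℚ) (Cyc.res_zero (A := R.r g) _)
  rw [natDegree_cyclotomic, Nat.totient_prime hq] at h3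
  have h4 := Cyc.dims hq h1
  have h5 : q ≠ 24 := fun e => by rw [e] at hq; exact absurd hq (by norm_num)
  omega

open Polynomial in
theorem exists_fix (R : Rp G) {σ : G} (h : orderOf σ = 23) :
    ∃ w : V, w ≠ 0 ∧ ∀ x, R.r σ x = x ↔ ∃ t : ℚ, x = t • w := by
  have hq : Nat.Prime 23 := by norm_num
  obtain ⟨h1, h2⟩ := Cyc.pw R hq h
  haveI := Cyc.nontriv hq h1 h2
  have hd : (cyclotomic 23 ℚ).natDegree = 22 := by rw [natDegree_cyclotomic, Nat.totient_prime hq]
  have h3 := Cyc.deg_le (cyclotomic.irreducible_rat hq.pos) (cyclotomic.monic 23 ℚ) (Cyc.res_zero (A := R.r σ) _)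
  have h3' := Cyc.deg_ne (cyclotomic.irreducible_rat hq.pos) (cyclotomic.monic 23 ℚ) (Cyc.res_zero (A := R.r σ) _)
    (by rw [hd]; norm_num)
  have h4 := Cyc.dims hq h1
  rw [hd] at h3 h3'
  have h5 : Module.finrank ℚ (LinearMap.ker (aeval (R.r σ) (X - 1 : ℚ[X]))) = 1 := by omega
  obtain ⟨w, w0, hw⟩ := finrank_eq_one_iff'.1 h5
  refine ⟨w, fun e => w0 (Subtype.ext e), fun x => ⟨fun hx => ?_, ?_⟩⟩
  · obtain ⟨c, hc⟩ := hw ⟨x, Cyc.mem_fix.2 hx⟩
    exact ⟨c, (congrArg Subtype.val hc).symm⟩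
  · rintro ⟨t, rfl⟩
    rw [map_smul, Cyc.mem_fix.1 w.2]

end Cfsg.Agent.R23
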