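import Cfsg.Agent.R23.Defs

set_option autoImplicit false

namespace Cfsg.Agent.R23

open Matrix

variable {G : Type*} [Group G]

namespace DualA

theorem isL {L : Submodule ℤ V} (h : IsLat L) : Submodule.IsLattice ℚ L := ⟨h.fg, h.span⟩

theorem fr {L : Submodule ℤ V} (h : IsLat L) : Module.finrank ℤ L = 23 := by
  have := isL h
  exact Submodule.IsLattice.finrank_of_pi ℚ L

theorem dl_eq (B : LinearMap.BilinForm ℚ V) (L : Submodule ℤ V) : dl B L = B.dualSubmodule L := by
  ext x
  simp only [mem_dl, LinearMap.BilinForm.mem_dualSubmodule, Submodule.mem_one, IsI, eq_comm, eq_intCast]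

theorem nd (F : Fm G) : F.B.Nondegenerate :=
  ⟨fun x h => F.eq_zero (h x), fun x h => F.eq_zero (h x)⟩

theorem lat_span (b : Module.Basis (Fin 23) ℚ V) : IsLat (Submodule.span ℤ (Set.range b)) :=
  ⟨Submodule.fg_span (Set.finite_range b), by rw [Submodule.span_span_of_tower, b.span_eq]⟩

theorem ix_sm' {M : Submodule ℤ V} (hM : M.FG) (q : ℕ) : ix (sm q M) M = q ^ Module.finrank ℤ M := by
  have h1 : Module.Finite ℤ M := Module.Finite.iff_fg.2 hM
  have h2 : Module.Free ℤ M := inferInstance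
  have := @AddSubgroup.relIndex_map_nsmul V _ q M.toAddSubgroup h2 h1
  refine Eq.trans ?_ this
  have e : (sm q M).toAddSubgroup = M.toAddSubgroup.map (nsmulAddMonoidHom (α := V) q) := by
    ext x
    simp [mem_sm, Nat.cast_smul_eq_nsmul]
  rw [ix, e]

end DualA

open DualA

theorem exists_basis {L : Submodule ℤ V} (h : IsLat L) :
    ∃ b : Module.Basis (Fin 23) ℚ V, L = Submodule.span ℤ (Set.range b) := by
  have := isL h
  let c := Module.finBasisOfFinrankEq ℤ L (fr h)
  refine ⟨c.extendOfIsLattice ℚ, ?_⟩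
  have e : Set.range (c.extendOfIsLattice ℚ) = L.subtype '' Set.range c := by
    rw [← Set.range_comp]
    exact congrArg _ (funext fun i => Module.Basis.extendOfIsLattice_apply ℚ c i)
  rw [e, ← Submodule.map_span, c.span_eq, Submodule.map_subtype_top]

theorem dl_lat (F : Fm G) {L : Submodule ℤ V} (h : IsLat L) : IsLat (dl F.B L) := by
  obtain ⟨b, rfl⟩ := exists_basis h
  rw [dl_eq, LinearMap.BilinForm.dualSubmodule_span_of_basis _ (nd F)]
  exact lat_span _

theorem dd (F : Fm G) {L : Submodule ℤ V} (h : IsLat L) : dl F.B (dl F.B L) = L := by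
  obtain ⟨b, rfl⟩ := exists_basis h
  rw [dl_eq, dl_eq, LinearMap.BilinForm.dualSubmodule_dualSubmodule_of_basis _ (nd F) ⟨F.symm⟩]

theorem exists_exp {L M : Submodule ℤ V} (hL : IsLat L) (hM : M.FG) :
    ∃ e : ℕ, 0 < e ∧ ∀ x ∈ M, (e : ℚ) • x ∈ L := by
  have one : ∀ x : V, ∃ e : ℕ, 0 < e ∧ (e : ℚ) • x ∈ L := fun x => by
    have hx : x ∈ Submodule.span ℚ (L : Set V) := hL.span ▸ Submodule.mem_top
    induction hx using Submodule.span_induction with
    | mem x h => exact ⟨1, one_pos, by simpa using h⟩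
    | zero => exact ⟨1, one_pos, by simp⟩
    | add x y _ _ a b =>
      obtain ⟨e, e0, a⟩ := a
      obtain ⟨f, f0, b⟩ := b
      refine ⟨e * f, mul_pos e0 f0, ?_⟩
      convert L.add_mem (nsm f a) (nsm e b) using 1
      rw [smul_add, smul_smul, smul_smul, Nat.cast_mul, mul_comm (f : ℚ)]
    | smul c x _ a =>
      obtain ⟨e, e0, a⟩ := a
      refine ⟨e * c.den, mul_pos e0 c.den_pos, ?_⟩
      convert zsm c.num a using 1
      rw [smul_smul, smul_smul, Nat.cast_mul, mul_assoc, Rat.den_mul_eq_num, mul_comm]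
  choose e e0 he using one
  obtain ⟨s, rfl⟩ := hM
  refine ⟨∏ x ∈ s, e x, Finset.prod_pos fun x _ => e0 x, fun x hx => ?_⟩
  induction hx using Submodule.span_induction with
  | mem x h =>
    obtain ⟨k, hk⟩ := Finset.dvd_prod_of_mem e h
    rw [hk, mul_comm, Nat.cast_mul, mul_smul]
    exact nsm k (he x)
  | zero => simp
  | add x y _ _ a b => rw [smul_add]; exact L.add_mem a b
  | smul c x _ a => rw [smul_comm]; exact L.smul_mem c a

theorem ix_ne {L M : Submodule ℤ V} (hL : IsLat L) (hM : M.FG) : ix L M ≠ 0 := by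
  obtain ⟨e, e0, he⟩ := exists_exp hL hM
  intro h
  have h1 : (sm e M).toAddSubgroup ≤ L.toAddSubgroup := fun x hx => by
    obtain ⟨y, hy, rfl⟩ := mem_sm.1 hx
    exact he y hy
  have h2 : ix (sm e M) M = 0 := AddSubgroup.relIndex_eq_zero_of_le_left h1 h
  rw [ix_sm' hM] at h2
  exact pow_ne_zero _ e0.ne' h2

theorem ix_sm {M : Submodule ℤ V} (hM : IsLat M) {q : ℕ} (hq : 0 < q) : ix (sm q M) M = q ^ 23 := by
  have _ := hq
  rw [ix_sm' hM.fg, fr hM]

theorem exists_pair (F : Fm G) {L : Submodule ℤ V} (h : IsLat L) :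
    ∃ m ∈ L, ∃ y ∈ dl F.B L, F.B y m = 1 := by
  obtain ⟨b, rfl⟩ := exists_basis h
  rw [dl_eq, LinearMap.BilinForm.dualSubmodule_span_of_basis _ (nd F)]
  exact ⟨b 0, Submodule.subset_span ⟨0, rfl⟩, _, Submodule.subset_span ⟨0, rfl⟩, by
    rw [LinearMap.BilinForm.apply_dualBasis_left, if_pos rfl]⟩

end Cfsg.Agent.R23
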