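import Cfsg.Agent.R23.Dual

set_option autoImplicit false

namespace Cfsg.Agent.R23

open Matrix

variable {G : Type*} [Group G]

theorem P23_int (Λ : Lat G) :
    ∃ m : G →* Matrix (Fin 23) (Fin 23) ℤ, Function.Injective m := by
  obtain ⟨b, hb⟩ := exists_basis Λ.lat
  let t : G → Matrix (Fin 23) (Fin 23) ℚ := fun g => LinearMap.toMatrixAlgEquiv b (Λ.r g)
  have t1 : t 1 = 1 := by simp [t]
  have tm : ∀ g h, t (g * h) = t g * t h := fun g h => by simp [t]
  have ti : Function.Injective t := (LinearMap.toMatrixAlgEquiv b).injective.comp Λ.inj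
  have hint : ∀ g i j, ∃ k : ℤ, t g i j = k := by
    intro g i j
    have h0 : b j ∈ Λ.L := by rw [hb]; exact Submodule.subset_span ⟨j, rfl⟩
    have h1 : Λ.r g (b j) ∈ Submodule.span ℤ (Set.range b) := by
      rw [← hb]; exact Λ.Linv g _ h0
    rw [Module.Basis.mem_span_iff_repr_mem] at h1
    obtain ⟨k, hk⟩ := h1 i
    exact ⟨k, by simp [t, LinearMap.toMatrixAlgEquiv_apply, ← hk]⟩
  choose m hm using hint
  have hmap : ∀ g, (Int.castRingHom ℚ).mapMatrix (Matrix.of (m g)) = t g := fun g => by
    ext i j; simp [hm]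
  have hinj : Function.Injective
      ((Int.castRingHom ℚ).mapMatrix : Matrix (Fin 23) (Fin 23) ℤ → Matrix (Fin 23) (Fin 23) ℚ) :=
    Matrix.map_injective (Int.cast_injective (α := ℚ))
  refine ⟨{ toFun := fun g => Matrix.of (m g)
            map_one' := hinj (by rw [hmap, t1, map_one])
            map_mul' := fun g h => hinj (by rw [map_mul, hmap, hmap, hmap, tm]) }, ?_⟩
  intro g h e
  apply ti
  rw [← hmap, ← hmap]
  exact congrArg _ e

theorem P23_red (A : Matrix (Fin 23) (Fin 23) ℤ) (h : A ^ 23 = 1)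
    (h5 : (Int.castRingHom (ZMod 5)).mapMatrix A = 1) : A = 1 := by
  set n := ∑ i ∈ Finset.range 23, A ^ i with hn
  have h1 : n * (A - 1) = 0 := by rw [hn, geom_sum_mul, h, sub_self]
  have h2 : (Int.castRingHom (ZMod 5)).mapMatrix n = (3 : ZMod 5) • (1 : Matrix _ _ _) := by
    rw [hn, map_sum]
    simp only [map_pow, h5, one_pow, Finset.sum_const, Finset.card_range]
    rw [← Nat.cast_smul_eq_nsmul (ZMod 5)]
    congr 1
  have h3 : n.det ≠ 0 := by
    intro h0
    have := RingHom.map_det (Int.castRingHom (ZMod 5)) n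
    rw [h0, h2, map_zero, Matrix.det_smul, Matrix.det_one, Fintype.card_fin] at this
    revert this
    decide
  have h4 : n.det • (A - 1) = 0 := by
    have := congrArg (fun X => n.adjugate * X) h1
    simp only [← mul_assoc, Matrix.adjugate_mul, mul_zero] at this
    rwa [smul_mul_assoc, one_mul] at this
  rcases smul_eq_zero.1 h4 with h5 | h5
  · exact absurd h5 h3
  · exact sub_eq_zero.1 h5

theorem not_529 [Finite G] (Λ : Lat G) : ¬ 529 ∣ Nat.card G := by
  intro hd
  obtain ⟨m, hm⟩ := P23_int Λ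
  haveI : Fact (Nat.Prime 23) := ⟨by norm_num⟩
  haveI : Fact (Nat.Prime 5) := ⟨by norm_num⟩
  obtain ⟨P, hP⟩ := Sylow.exists_subgroup_card_pow_prime (G := G) 23 (n := 2) (by simpa using hd)
  let f : G →* GL (Fin 23) (ZMod 5) :=
    (((Int.castRingHom (ZMod 5)).mapMatrix.toMonoidHom).comp m).toHomUnits
  have hf : Function.Injective (f.comp P.subtype) := by
    rw [← MonoidHom.ker_eq_bot_iff]
    by_contra hk
    have h1 : Nat.card (f.comp P.subtype).ker ∣ 23 ^ 2 := hP ▸ Subgroup.card_subgroup_dvd_card _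
    have h2 : 23 ∣ Nat.card (f.comp P.subtype).ker := by
      obtain ⟨k, -, hk'⟩ := (Nat.dvd_prime_pow (by norm_num)).1 h1
      rcases k with _ | k
      · exact absurd (Subgroup.card_eq_one.1 (by simpa using hk')) hk
      · rw [hk']; exact dvd_pow_self _ k.succ_ne_zero
    obtain ⟨x, hx⟩ := exists_prime_orderOf_dvd_card' 23 h2
    have hx1 : ((x : P) : G) ^ 23 = 1 := by
      have := pow_orderOf_eq_one x
      rw [hx] at this
      exact congrArg (fun y : (f.comp P.subtype).ker => ((y : P) : G)) this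
    have hx2 : f ((x : P) : G) = 1 := x.2
    have hx3 : m ((x : P) : G) = 1 := by
      refine P23_red _ (by rw [← map_pow, hx1, map_one]) ?_
      exact congrArg Units.val hx2
    have hx4 : x = 1 := by
      ext
      exact hm (hx3.trans (map_one m).symm)
    rw [hx4, orderOf_one] at hx
    norm_num at hx
  have h1 := Subgroup.card_dvd_of_injective _ hf
  rw [hP, Matrix.card_GL_field, ZMod.card] at h1
  revert h1
  decide +kernel

end Cfsg.Agent.R23
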