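import Cfsg.Agent.R23.Schur
import Cfsg.Agent.R23.Dual
import Cfsg.Agent.R23.Cyc
import Cfsg.Agent.R23.P23

/-! Project R23: the fixed vector and the glue vector. -/

set_option autoImplicit false

namespace Cfsg.Agent.R23

open Matrix

variable {G : Type*} [Group G]

namespace Cor

/-- a primitive lattice vector on a line -/
theorem prim (Λ : Lat G) {w₀ : V} (h0 : w₀ ≠ 0) :
    ∃ c : ℚ, c ≠ 0 ∧ c • w₀ ∈ Λ.L ∧ ∀ t : ℚ, t • c • w₀ ∈ Λ.L → IsI t := by
  classical
  have nat : ∀ x ∈ Λ.L, ∃ n : ℕ, Λ.B x x = n := fun x hx => by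
    obtain ⟨k, hk⟩ := Λ.int x hx x hx
    have : 0 ≤ k := by exact_mod_cast hk ▸ Λ.toFm.nonneg x
    exact ⟨k.toNat, by rw [hk, ← Int.cast_natCast, Int.toNat_of_nonneg this]⟩
  have ex : ∃ n : ℕ, ∃ c : ℚ, c ≠ 0 ∧ c • w₀ ∈ Λ.L ∧ Λ.B (c • w₀) (c • w₀) = n := by
    obtain ⟨e, e0, he⟩ := exists_exp Λ.lat (Submodule.fg_span_singleton (R := ℤ) w₀)
    have := he _ (Submodule.mem_span_singleton_self _)
    obtain ⟨n, hn⟩ := nat _ this
    exact ⟨n, e, by exact_mod_cast e0.ne', this, hn⟩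
  obtain ⟨c, c0, hc, hn⟩ := Nat.find_spec ex
  refine ⟨c, c0, hc, fun t ht => ⟨⌊t⌋, by_contra fun ne => ?_⟩⟩
  have f0 : 0 < Int.fract t := Int.fract_pos.2 ne
  have f1 := Int.fract_lt_one t
  have m : (Int.fract t * c) • w₀ ∈ Λ.L := by
    rw [mul_smul, Int.fract, sub_smul]
    exact sub_mem ht (zsm _ hc)
  obtain ⟨n, e⟩ := nat _ m
  have le : (Nat.find ex : ℚ) ≤ n := by
    exact_mod_cast Nat.find_min' ex ⟨_, mul_ne_zero f0.ne' c0, m, e⟩
  have p := Λ.pos _ (smul_ne_zero c0 h0)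
  rw [← hn, ← e, mul_smul, map_smul _ (Int.fract t), map_smul _ (Int.fract t), LinearMap.smul_apply,
    smul_eq_mul, smul_eq_mul] at le
  nlinarith [mul_pos p f0, mul_pos p (sub_pos.2 f1), mul_pos (mul_pos p f0) (sub_pos.2 f1)]

theorem dvd_sum [Fintype G] {σ : G} (h : orderOf σ = 23) (f : G → ℤ) (hf : ∀ g, f (σ * g) = f g) :
    (23 : ℤ) ∣ ∑ g, f g := by
  classical
  have : Fact (Nat.Prime 23) := ⟨by norm_num⟩
  rw [← Finset.sum_fiberwise_of_maps_to (t := Finset.univ.image f) (g := f)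
    fun g _ => Finset.mem_image_of_mem f (Finset.mem_univ g)]
  refine Finset.dvd_sum fun k _ => ?_
  rw [Finset.sum_congr rfl fun g hg => (Finset.mem_filter.1 hg).2, Finset.sum_const, nsmul_eq_mul]
  refine Dvd.dvd.mul_right ?_ k
  let φ : Function.End {g // f g = k} := fun x => ⟨σ * x.1, (hf _).trans x.2⟩
  have p : ∀ n x, ((φ ^ n) x).1 = σ ^ n * x.1 := fun n x => by
    induction n with
    | zero => rw [pow_zero, pow_zero, one_mul]; rfl
    | succ n ih => rw [pow_succ', pow_succ', mul_assoc, ← ih]; rfl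
  have m := Equiv.Perm.card_fixedPoints_modEq (f := φ) (p := 23) (n := 1) (funext fun x => Subtype.ext (by
    rw [p, pow_one, ← h, pow_orderOf_eq_one, one_mul]; rfl))
  have : IsEmpty (Function.fixedPoints φ) := ⟨fun x => by
    have := congrArg Subtype.val x.2
    rw [mul_eq_right.1 this, orderOf_one] at h
    omega⟩
  rw [Fintype.card_eq_zero (α := Function.fixedPoints φ), Fintype.card_subtype] at m
  exact_mod_cast (Nat.modEq_zero_iff_dvd.1 m)

variable (F : Fm G) {σ : G} {w : V}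

theorem B_pow (h : F.r σ w = w) (i : ℕ) : F.r (σ ^ i) w = w := by
  induction i with
  | zero => simp
  | succ i ih => rw [pow_succ, map_mul, Module.End.mul_apply, h, ih]

theorem nsum (ho : orderOf σ = 23) (w0 : w ≠ 0) (fix : ∀ x, F.r σ x = x ↔ ∃ t : ℚ, x = t • w) (x : V) :
    ∑ i ∈ Finset.range 23, F.r (σ ^ i) x = (23 * F.B x w / F.B w w) • w := by
  have h1 : F.r σ (∑ i ∈ Finset.range 23, F.r (σ ^ i) x) = ∑ i ∈ Finset.range 23, F.r (σ ^ i) x := by
    rw [map_sum]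
    have h2 : ∀ i, F.r σ (F.r (σ ^ i) x) = F.r (σ ^ (i + 1)) x := fun i => by
      rw [pow_succ', map_mul, Module.End.mul_apply]
    simp only [h2]
    have h3 := Finset.sum_range_succ' (fun i => F.r (σ ^ i) x) 23
    rw [Finset.sum_range_succ, show σ ^ 23 = 1 from ho ▸ pow_orderOf_eq_one σ, pow_zero] at h3
    exact (add_right_cancel h3).symm
  obtain ⟨t, ht⟩ := (fix _).1 h1
  have h4 : F.B (∑ i ∈ Finset.range 23, F.r (σ ^ i) x) w = 23 * F.B x w := by
    have : ∀ i, F.B (F.r (σ ^ i) x) w = F.B x w := fun i => by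
      conv_lhs => rw [← B_pow F ((fix w).2 ⟨1, (one_smul _ _).symm⟩) i]
      exact F.inv _ _ _
    rw [map_sum, LinearMap.sum_apply]
    simp only [this]
    simp
  rw [ht, map_smul, LinearMap.smul_apply, smul_eq_mul] at h4
  rw [ht, ← h4, mul_div_cancel_right₀ _ (F.pos w w0).ne']

theorem not_dl [Finite G] (Λ : Lat G) (ho : orderOf σ = 23) (hw : w ∈ Λ.L) (w0 : w ≠ 0)
    (fix : Λ.r σ w = w) : ¬ ∀ x ∈ Λ.L, IsI (Λ.B x w / Λ.B w w) := fun h => by
  have := Fintype.ofFinite G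
  obtain ⟨m, hm, y, hy, e⟩ := exists_pair Λ.toFm Λ.lat
  have s := congrArg (fun x => Λ.B x w / Λ.B w w) (schur Λ.toFm w y m)
  simp only [e, map_sum, map_smul, LinearMap.sum_apply, LinearMap.smul_apply, smul_eq_mul,
    Finset.sum_div, mul_div_assoc, div_self (Λ.pos w w0).ne', mul_one] at s
  choose f hf using fun g => (Λ.dl_inv g hy w hw).mul (h _ (Λ.Linv g m hm))
  have b : ∀ x, Λ.B (Λ.r σ x) w = Λ.B x w := fun x => by
    conv_lhs => rw [← fix]
    exact Λ.inv _ _ _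
  obtain ⟨k, hk⟩ := dvd_sum ho f fun g => Int.cast_injective (α := ℚ) (by
    rw [← hf, ← hf, map_mul, Module.End.mul_apply, Module.End.mul_apply, b, b])
  simp only [hf] at s
  rw [← Int.cast_sum, hk, eq_div_iff (by norm_num)] at s
  refine not_529 Λ (Int.natCast_dvd_natCast.1 ⟨k, ?_⟩)
  rw [Nat.card_eq_fintype_card]
  exact_mod_cast (show (Fintype.card G : ℚ) = 529 * k by rw [← s]; push_cast; ring)

theorem mem_of_cop {L : Submodule ℤ V} {e : ℕ} (h : ¬ 23 ∣ e) {x : V} (h1 : (e : ℚ) • x ∈ L)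
    (h2 : (23 : ℚ) • x ∈ L) : x ∈ L := by
  obtain ⟨u, v, huv⟩ : IsCoprime ((23 : ℕ) : ℤ) (e : ℤ) := Nat.isCoprime_iff_coprime.2
    ((Nat.Prime.coprime_iff_not_dvd (by norm_num)).2 h)
  have : (u : ℚ) * 23 + v * e = 1 := by exact_mod_cast huv
  rw [← one_smul ℚ x, ← this, add_smul, mul_smul, mul_smul]
  exact add_mem (zsm u h2) (zsm v h1)

end Cor

open Cor

theorem exists_core [Finite G] (E : Ev G) : Nonempty (Core G) := by
  obtain ⟨w₀, h0, fix₀⟩ := exists_fix E.toRp E.ord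
  obtain ⟨c, c0, hw, pr⟩ := prim E.toLat h0
  have w0 := smul_ne_zero c0 h0
  have fix : ∀ x, E.r E.σ x = x ↔ ∃ t : ℚ, x = t • c • w₀ := fun x => (fix₀ x).trans
    ⟨fun ⟨t, h⟩ => ⟨t / c, by rw [smul_smul, div_mul_cancel₀ _ c0, h]⟩, fun ⟨t, h⟩ => ⟨_, h.trans (smul_smul ..)⟩⟩
  generalize c • w₀ = w at hw pr w0 fix
  have σw := (fix w).2 ⟨1, (one_smul _ _).symm⟩
  have ww := E.pos w w0
  have N := nsum E.toFm E.ord w0 fix
  have jI : ∀ x ∈ E.L, IsI (23 * E.B x w / E.B w w) := fun x hx =>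
    pr _ (N x ▸ sum_mem fun i _ => E.Linv _ x hx)
  obtain ⟨x₁, hx, e1⟩ : ∃ x₁ ∈ E.L, E.B w w = 23 * E.B x₁ w := by
    have := not_dl E.toLat E.ord hw w0 σw
    push Not at this
    obtain ⟨x, hx, n⟩ := this
    obtain ⟨k, hk⟩ := jI x hx
    obtain ⟨u, v, huv⟩ : IsCoprime (23 : ℤ) k := (Int.prime_iff_natAbs_prime.2 (by norm_num)).coprime_iff_not_dvd.2
      fun ⟨l, hl⟩ => n ⟨l, by rw [hl, mul_div_assoc] at hk; push_cast at hk; linarith⟩
    have : (u : ℚ) * 23 + v * k = 1 := by exact_mod_cast huv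
    refine ⟨(u : ℚ) • w + (v : ℚ) • x, add_mem (zsm u hw) (zsm v hx), ?_⟩
    rw [div_eq_iff ww.ne'] at hk
    simp only [map_add, map_smul, LinearMap.add_apply, LinearMap.smul_apply, smul_eq_mul]
    linear_combination -E.B w w * this - v * hk
  obtain ⟨d, hd⟩ : ∃ d : ℕ, E.B x₁ w = d := by
    obtain ⟨k, hk⟩ := E.int _ hx _ hw
    have : 0 ≤ k := by exact_mod_cast (by linarith : (0 : ℚ) ≤ k)
    exact ⟨k.toNat, by rw [hk, ← Int.cast_natCast, Int.toNat_of_nonneg this]⟩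
  rw [hd] at e1
  have d0 : (0 : ℚ) < d := by linarith
  have dec : ∀ x ∈ E.L, ∃ j : ℤ, E.B x w = j * d := fun x hx => (jI x hx).imp fun j hj => by
    rw [div_eq_iff ww.ne', e1] at hj; linarith
  have de : d ∣ E.e := by
    obtain ⟨k, hk⟩ := pr ((E.e : ℚ) * (d : ℚ)⁻¹) (mul_smul (E.e : ℚ) _ w ▸ E.eL _ fun x hx => by
      obtain ⟨j, hj⟩ := dec x hx
      exact ⟨j, by rw [map_smul, LinearMap.smul_apply, E.symm, hj, smul_eq_mul]; field_simp⟩)
    refine Int.natCast_dvd_natCast.1 ⟨k, ?_⟩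
    exact_mod_cast (show (E.e : ℚ) = d * k by rw [← hk]; field_simp)
  have d23 : ¬ 23 ∣ d := fun h => E.e23 (h.trans de)
  have K : ∀ z, (∀ l ∈ E.L, E.B l w = 0 → IsI (E.B z l)) → IsI (E.B z x₁) → z ∈ dl E.B E.L :=
    fun z h1 h2 x hx' => by
      obtain ⟨j, hj⟩ := dec x hx'
      have := (h1 _ (sub_mem hx' (zsm j hx)) (by
        rw [map_sub, map_smul, LinearMap.sub_apply, LinearMap.smul_apply, hj, hd, smul_eq_mul, sub_self])).add
        ((isI_int j).mul h2)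
      rwa [map_sub, map_smul, smul_eq_mul, sub_add_cancel] at this
  refine ⟨{ E.toLat with
    even := E.even, σ := E.σ, ord := E.ord, w := w, d := d, x₁ := x₁, w_mem := hw, x_mem := hx, fix := fix
    Bww := e1, Bxw := hd, dpos := by exact_mod_cast d0, d2 := ?_, d23 := d23
    d16 := fun h => E.e16 (h.trans de), dec := dec, dual := fun y yw hy => ?_ }⟩
  · obtain ⟨k, hk⟩ := E.even w hw
    have : (23 * d : ℤ) = 2 * k := by exact_mod_cast e1.symm.trans hk
    omega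
  have hz := K (y - (E.B y x₁ / d) • w) (fun l hl lw => by
    rw [map_sub, map_smul, LinearMap.sub_apply, LinearMap.smul_apply, E.symm w, lw, smul_zero, sub_zero]
    exact hy l hl lw) (by
    rw [map_sub, map_smul, LinearMap.sub_apply, LinearMap.smul_apply, E.symm w, hd, smul_eq_mul,
      div_mul_cancel₀ _ d0.ne', sub_self]
    exact isI_zero)
  have s1 : E.r E.σ y - y ∈ E.L := by
    have := E.σL _ hz
    rwa [map_sub, map_smul, σw, sub_sub_sub_cancel_right] at this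
  have si : ∀ i : ℕ, E.r (E.σ ^ i) y - y ∈ E.L := fun i => by
    induction i with
    | zero => simp
    | succ i ih =>
      have := add_mem (E.Linv E.σ _ ih) s1
      rwa [map_sub, sub_add_sub_cancel, ← Module.End.mul_apply, ← map_mul, ← pow_succ'] at this
  have y23 : (23 : ℚ) • y ∈ E.L := by
    have := sum_mem (t := Finset.range 23) fun i _ => si i
    rw [Finset.sum_sub_distrib, N, yw, mul_zero, zero_div, zero_smul, zero_sub, neg_mem_iff,
      Finset.sum_const, Finset.card_range, ← Nat.cast_smul_eq_nsmul ℚ] at this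
    exact_mod_cast this
  have l1 : (23 : ℚ) • x₁ - w ∈ E.L := sub_mem (by exact_mod_cast nsm 23 hx) hw
  obtain ⟨a, ha⟩ := hy _ l1 (by
    rw [map_sub, map_smul, LinearMap.sub_apply, LinearMap.smul_apply, hd, e1, smul_eq_mul, sub_self])
  rw [map_sub, map_smul, yw, smul_eq_mul, sub_zero] at ha
  obtain ⟨b, hb⟩ := E.int _ hx _ hx
  obtain ⟨u, v, huv⟩ : IsCoprime (23 : ℤ) (23 * b - d) :=
    (Int.prime_iff_natAbs_prime.2 (by norm_num)).coprime_iff_not_dvd.2 (by omega)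
  have huv' : (u : ℚ) * 23 + v * (23 * b - d) = 1 := by exact_mod_cast huv
  refine ⟨a * v, mem_of_cop E.e23 (E.eL _ (K _ (fun l hl lw => ?_) ⟨a * u, ?_⟩)) ?_⟩
  · simp only [map_sub, map_smul, LinearMap.sub_apply, LinearMap.smul_apply, smul_eq_mul, E.symm w, lw,
      mul_zero, sub_zero]
    exact (hy l hl lw).sub ((isI_int _).mul (E.int _ hx _ hl))
  · simp only [map_sub, map_smul, LinearMap.sub_apply, LinearMap.smul_apply, smul_eq_mul, E.symm w, hd, hb]
    push_cast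
    linear_combination (1 / 23 : ℚ) * ha - (a / 23 : ℚ) * huv'
  · rw [smul_sub, smul_comm, smul_sub, smul_smul, show (23 : ℚ) * (1 / 23) = 1 by norm_num, one_smul]
    exact sub_mem y23 (zsm _ l1)

end Cfsg.Agent.R23
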