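import Mathlib
import Cfsg.Prelude.Def_Spor_Conway

/-! Project R23: finite irreducible subgroups of `GL 23 ℚ`. Definitions and basic lemmas. -/

set_option autoImplicit false

namespace Cfsg.Agent.R23

open Matrix

abbrev V : Type := Fin 23 → ℚ

/-- the rational number is an integer -/
def IsI (a : ℚ) : Prop := ∃ k : ℤ, a = k

/-- the rational number is an even integer -/
def IsE (a : ℚ) : Prop := ∃ k : ℤ, a = 2 * k

theorem IsI.add {a b : ℚ} (h : IsI a) (h' : IsI b) : IsI (a + b) := by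
  obtain ⟨k, rfl⟩ := h; obtain ⟨l, rfl⟩ := h'; exact ⟨k + l, by push_cast; rfl⟩

theorem IsI.mul {a b : ℚ} (h : IsI a) (h' : IsI b) : IsI (a * b) := by
  obtain ⟨k, rfl⟩ := h; obtain ⟨l, rfl⟩ := h'; exact ⟨k * l, by push_cast; rfl⟩

theorem IsI.neg {a : ℚ} (h : IsI a) : IsI (-a) := by
  obtain ⟨k, rfl⟩ := h; exact ⟨-k, by push_cast; rfl⟩

theorem IsI.sub {a b : ℚ} (h : IsI a) (h' : IsI b) : IsI (a - b) := by
  rw [sub_eq_add_neg]; exact h.add h'.neg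

theorem isI_int (k : ℤ) : IsI k := ⟨k, rfl⟩

theorem isI_nat (k : ℕ) : IsI k := ⟨k, by simp⟩

theorem isI_zero : IsI 0 := ⟨0, by simp⟩

theorem IsE.isI {a : ℚ} (h : IsE a) : IsI a := by
  obtain ⟨k, rfl⟩ := h; exact ⟨2 * k, by push_cast; rfl⟩

theorem zsm {L : Submodule ℤ V} {x : V} (k : ℤ) (h : x ∈ L) : (k : ℚ) • x ∈ L := by
  rw [Int.cast_smul_eq_zsmul]; exact L.smul_mem k h

theorem nsm {L : Submodule ℤ V} {x : V} (k : ℕ) (h : x ∈ L) : (k : ℚ) • x ∈ L := by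
  have := zsm (k : ℤ) h
  rwa [Int.cast_natCast] at this

/-- the conclusion of the row -/
def Concl (G : Type*) [Group G] : Prop :=
  (∃ f : G →* Multiplicative (ZMod 2) × Cfsg.Spor.Co2, Function.Injective f) ∨
    (∃ f : G →* Multiplicative (ZMod 2) × Cfsg.Spor.Co3, Function.Injective f)

/-- the hypotheses of the row -/
structure Rp (G : Type*) [Group G] where
  r : G →* Module.End ℚ V
  inj : Function.Injective r
  irr : ∀ W : Submodule ℚ V, (∀ g, ∀ x ∈ W, r g x ∈ W) → W = ⊥ ∨ W = ⊤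
  idx : ∀ H : Subgroup G, H.index ≠ 23 ∧ H.index ≠ 24

/-- with an invariant positive definite form -/
structure Fm (G : Type*) [Group G] extends Rp G where
  B : LinearMap.BilinForm ℚ V
  symm : ∀ x y, B x y = B y x
  pos : ∀ x, x ≠ 0 → 0 < B x x
  inv : ∀ g x y, B (r g x) (r g y) = B x y

/-- a full lattice -/
structure IsLat (L : Submodule ℤ V) : Prop where
  fg : L.FG
  span : Submodule.span ℚ (L : Set V) = ⊤

/-- the dual lattice -/
def dl (B : LinearMap.BilinForm ℚ V) (L : Submodule ℤ V) : Submodule ℤ V where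
  carrier := {x | ∀ y ∈ L, IsI (B x y)}
  add_mem' := fun ha hb y hy => by
    rw [map_add, LinearMap.add_apply]; exact (ha y hy).add (hb y hy)
  zero_mem' := fun y _ => by simpa using isI_zero
  smul_mem' := fun k x hx y hy => by
    rw [← Int.cast_smul_eq_zsmul ℚ, map_smul, LinearMap.smul_apply, smul_eq_mul]
    exact (isI_int k).mul (hx y hy)

theorem mem_dl {B : LinearMap.BilinForm ℚ V} {L : Submodule ℤ V} {x : V} :
    x ∈ dl B L ↔ ∀ y ∈ L, IsI (B x y) := Iff.rfl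

/-- the lattice `c • M` -/
def sm (c : ℚ) (M : Submodule ℤ V) : Submodule ℤ V :=
  M.map ((c • LinearMap.id : V →ₗ[ℚ] V).restrictScalars ℤ)

theorem mem_sm {c : ℚ} {M : Submodule ℤ V} {x : V} : x ∈ sm c M ↔ ∃ y ∈ M, c • y = x := by
  simp [sm]

/-- the index of `L` in `M` -/
noncomputable def ix (L M : Submodule ℤ V) : ℕ := L.toAddSubgroup.relIndex M.toAddSubgroup

/-- with an invariant integral lattice -/
structure Lat (G : Type*) [Group G] extends Fm G where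
  L : Submodule ℤ V
  lat : IsLat L
  Linv : ∀ g, ∀ x ∈ L, r g x ∈ L
  int : ∀ x ∈ L, ∀ y ∈ L, IsI (B x y)

/-- the lattice `L + n L^#` -/
def Lat.M {G : Type*} [Group G] (Λ : Lat G) (n : ℕ) : Submodule ℤ V := Λ.L ⊔ sm n (dl Λ.B Λ.L)

/-- a reduced lattice: squarefree exponent, `σ` trivial on the discriminant group -/
structure Red (G : Type*) [Group G] extends Lat G where
  σ : G
  ord : orderOf σ = 23
  e : ℕ
  sq : Squarefree e
  e23 : ¬ 23 ∣ e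
  eL : ∀ x ∈ dl B L, (e : ℚ) • x ∈ L
  σL : ∀ x ∈ dl B L, r σ x - x ∈ L

/-- an even reduced lattice -/
structure Ev (G : Type*) [Group G] extends Lat G where
  σ : G
  ord : orderOf σ = 23
  e : ℕ
  e16 : ¬ 16 ∣ e
  e23 : ¬ 23 ∣ e
  eL : ∀ x ∈ dl B L, (e : ℚ) • x ∈ L
  σL : ∀ x ∈ dl B L, r σ x - x ∈ L
  even : ∀ x ∈ L, IsE (B x x)

/-- the data used in the second half of the proof -/
structure Core (G : Type*) [Group G] extends Lat G where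
  even : ∀ x ∈ L, IsE (B x x)
  σ : G
  ord : orderOf σ = 23
  w : V
  d : ℕ
  x₁ : V
  w_mem : w ∈ L
  x_mem : x₁ ∈ L
  fix : ∀ x, r σ x = x ↔ ∃ t : ℚ, x = t • w
  Bww : B w w = 23 * d
  Bxw : B x₁ w = d
  dpos : 0 < d
  d2 : 2 ∣ d
  d23 : ¬ 23 ∣ d
  d16 : ¬ 16 ∣ d
  dec : ∀ x ∈ L, ∃ j : ℤ, B x w = j * d
  dual : ∀ y, B y w = 0 → (∀ l ∈ L, B l w = 0 → IsI (B y l)) →
    ∃ m : ℤ, y - (m : ℚ) • (x₁ - (1 / 23 : ℚ) • w) ∈ L

variable {G : Type*} [Group G]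

theorem Fm.inv' (F : Fm G) (g : G) (x y : V) : F.B (F.r g x) y = F.B x (F.r g⁻¹ y) := by
  rw [← F.inv g x (F.r g⁻¹ y), ← Module.End.mul_apply, ← map_mul, mul_inv_cancel, map_one,
    Module.End.one_apply]

theorem Fm.nonneg (F : Fm G) (x : V) : 0 ≤ F.B x x := by
  by_cases h : x = 0
  · simp [h]
  · exact (F.pos x h).le

theorem Fm.eq_zero (F : Fm G) {x : V} (h : F.B x x = 0) : x = 0 := by
  by_contra h0
  exact (F.pos x h0).ne' h

theorem Lat.dl_inv (Λ : Lat G) (g : G) {x : V} (h : x ∈ dl Λ.B Λ.L) : Λ.r g x ∈ dl Λ.B Λ.L :=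
  fun y hy => by rw [Λ.toFm.inv']; exact h _ (Λ.Linv _ _ hy)

namespace Core

variable (C : Core G)

/-- the glue vector -/
def y₁ : V := C.x₁ - (1 / 23 : ℚ) • C.w

theorem d_ne : (C.d : ℚ) ≠ 0 := Nat.cast_ne_zero.2 C.dpos.ne'

theorem w_ne : C.w ≠ 0 := fun h => by
  have := C.Bww
  rw [h, map_zero] at this
  exact C.d_ne (by linarith)

theorem σw : C.r C.σ C.w = C.w := (C.fix _).2 ⟨1, (one_smul _ _).symm⟩

theorem σw_pow (i : ℕ) : C.r (C.σ ^ i) C.w = C.w := by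
  induction i with
  | zero => simp
  | succ i ih => rw [pow_succ, map_mul, Module.End.mul_apply, C.σw, ih]

theorem B_σ (i : ℕ) (x : V) : C.B (C.r (C.σ ^ i) x) C.w = C.B x C.w := by
  conv_lhs => rw [← C.σw_pow i]
  exact C.inv _ _ _

theorem σ23 : C.σ ^ 23 = 1 := by rw [← C.ord]; exact pow_orderOf_eq_one _

/-- the norm map -/
theorem nsum (x : V) :
    ∑ i ∈ Finset.range 23, C.r (C.σ ^ i) x = (C.B x C.w / C.d) • C.w := by
  have h1 : C.r C.σ (∑ i ∈ Finset.range 23, C.r (C.σ ^ i) x) =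
      ∑ i ∈ Finset.range 23, C.r (C.σ ^ i) x := by
    rw [map_sum]
    have h2 : ∀ i, C.r C.σ (C.r (C.σ ^ i) x) = C.r (C.σ ^ (i + 1)) x := fun i => by
      rw [pow_succ', map_mul, Module.End.mul_apply]
    simp only [h2]
    have h3 := Finset.sum_range_succ' (fun i => C.r (C.σ ^ i) x) 23
    rw [Finset.sum_range_succ, C.σ23, pow_zero] at h3
    exact (add_right_cancel h3).symm
  obtain ⟨t, ht⟩ := (C.fix _).1 h1
  have h4 : C.B (∑ i ∈ Finset.range 23, C.r (C.σ ^ i) x) C.w = 23 * C.B x C.w := by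
    rw [map_sum, LinearMap.sum_apply]
    simp only [C.B_σ]
    simp
  rw [ht, map_smul, LinearMap.smul_apply, C.Bww, smul_eq_mul] at h4
  rw [ht]
  congr 1
  have := C.d_ne
  field_simp
  linarith

/-- a power `σ ^ i`, `0 < i < 23`, fixes only multiples of `w` -/
theorem fix_pow {i : ℕ} (h0 : 0 < i) (h : i < 23) {x : V} (hx : C.r (C.σ ^ i) x = x) :
    ∃ t : ℚ, x = t • C.w := by
  have hc : Nat.Coprime i 23 :=
    ((Nat.Prime.coprime_iff_not_dvd (by norm_num)).2 (Nat.not_dvd_of_pos_of_lt h0 h)).symm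
  obtain ⟨m, hm⟩ := exists_pow_eq_self_of_coprime (x := C.σ) (n := i) (by rwa [C.ord])
  have h2 : ∀ k : ℕ, C.r ((C.σ ^ i) ^ k) x = x := fun k => by
    induction k with
    | zero => simp
    | succ k ih => rw [pow_succ, map_mul, Module.End.mul_apply, hx, ih]
  refine (C.fix _).1 ?_
  have := h2 m
  rwa [hm] at this

theorem By : C.B C.y₁ C.w = 0 := by
  rw [y₁, map_sub, map_smul, LinearMap.sub_apply, LinearMap.smul_apply, C.Bww, C.Bxw, smul_eq_mul]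
  ring

theorem y23 : (23 : ℚ) • C.y₁ ∈ C.L := by
  have : (23 : ℚ) • C.y₁ = ((23 : ℕ) : ℚ) • C.x₁ - C.w := by
    rw [y₁, smul_sub, smul_smul]; norm_num
  rw [this]
  exact C.L.sub_mem (nsm 23 C.x_mem) C.w_mem

theorem σy (i : ℕ) : C.r (C.σ ^ i) C.y₁ - C.y₁ ∈ C.L := by
  have : C.r (C.σ ^ i) C.y₁ - C.y₁ = C.r (C.σ ^ i) C.x₁ - C.x₁ := by
    rw [y₁, map_sub, map_smul, C.σw_pow]; abel
  rw [this]
  exact C.L.sub_mem (C.Linv _ _ C.x_mem) C.x_mem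

theorem By_int {l : V} (hl : l ∈ C.L) (h : C.B l C.w = 0) : IsI (C.B C.y₁ l) := by
  rw [y₁, map_sub, map_smul, LinearMap.sub_apply, LinearMap.smul_apply, C.symm C.w, h, smul_zero,
    sub_zero]
  exact C.int _ C.x_mem _ hl

theorem Byy : IsE (C.B C.y₁ C.y₁ + C.d / 23) := by
  have : C.B C.y₁ C.y₁ + C.d / 23 = C.B C.x₁ C.x₁ := by
    simp only [y₁, map_sub, map_smul, LinearMap.sub_apply, LinearMap.smul_apply, C.Bww, C.Bxw,
      C.symm C.w C.x₁, smul_eq_mul]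
    ring
  rw [this]
  exact C.even _ C.x_mem

/-- no roots orthogonal to `w` -/
def NoRoot0 : Prop := ∀ x ∈ C.L, C.B x C.w = 0 → C.B x x ≠ 2

/-- no roots -/
def NoRoot : Prop := ∀ x ∈ C.L, C.B x x ≠ 2

/-- the projections of an orthonormal frame, when `w^⊥ ∩ L` contains `A₂₂` -/
structure Fr where
  z : Fin 23 → V
  zw : ∀ i, C.B (z i) C.w = 0
  zz : ∀ i k, C.B (z i) (z k) = (if i = k then 1 else 0) - 1 / 23
  zL : ∀ i k, z i - z k ∈ C.L

end Core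

/-- the form with Gram matrix `T` -/
def tf {k : ℕ} (T : Matrix (Fin k) (Fin k) ℤ) (s s' : Fin k → ℚ) : ℚ :=
  s ⬝ᵥ (T.map (Int.cast : ℤ → ℚ) *ᵥ s')

/-- a partner lattice of determinant 23 with a glue vector of norm `d / 23` modulo 2 -/
structure Pt (k d : ℕ) where
  T : Matrix (Fin k) (Fin k) ℤ
  t : Fin k → ℚ
  symm : T.IsSymm
  pos : ∀ s : Fin k → ℚ, s ≠ 0 → 0 < tf T s s
  even : ∀ s : Fin k → ℚ, (∀ i, IsI (s i)) → IsE (tf T s s)
  dualm : ∀ i, IsI ((T.map (Int.cast : ℤ → ℚ) *ᵥ t) i)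
  t23 : ∀ i, IsI (23 * t i)
  gen : ∀ s : Fin k → ℚ, (∀ i, IsI ((T.map (Int.cast : ℤ → ℚ) *ᵥ s) i)) →
    ∃ m : ℤ, ∀ i, IsI (s i - m * t i)
  nrm : IsE (tf T t t - d / 23)

/-- the binary partner -/
def T2 : Matrix (Fin 2) (Fin 2) ℤ := !![4, 1; 1, 6]

namespace Core

variable (C : Core G) {k : ℕ}

/-- the glued lattice -/
def N (P : Pt k C.d) : AddSubgroup (V × (Fin k → ℚ)) where
  carrier := {u | C.B u.1 C.w = 0 ∧
    ∃ m : ℤ, u.1 - (m : ℚ) • C.y₁ ∈ C.L ∧ ∀ i, IsI (u.2 i - m * P.t i)}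
  zero_mem' := ⟨by simp, 0, by simp, fun i => by simpa using isI_zero⟩
  add_mem' := by
    rintro a b ⟨ha, m, hm, hm'⟩ ⟨hb, n, hn, hn'⟩
    refine ⟨by simp [ha, hb], m + n, ?_, fun i => ?_⟩
    · convert C.L.add_mem hm hn using 1
      rw [Prod.fst_add, Int.cast_add, add_smul]; abel
    · convert (hm' i).add (hn' i) using 1
      rw [Prod.snd_add, Pi.add_apply, Int.cast_add]; ring
  neg_mem' := by
    rintro a ⟨ha, m, hm, hm'⟩
    refine ⟨by simp [ha], -m, ?_, fun i => ?_⟩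
    · convert C.L.neg_mem hm using 1
      rw [Prod.fst_neg, Int.cast_neg, neg_smul]; abel
    · convert (hm' i).neg using 1
      rw [Prod.snd_neg, Pi.neg_apply, Int.cast_neg]; ring

theorem mem_N {P : Pt k C.d} {u : V × (Fin k → ℚ)} : u ∈ C.N P ↔ C.B u.1 C.w = 0 ∧
    ∃ m : ℤ, u.1 - (m : ℚ) • C.y₁ ∈ C.L ∧ ∀ i, IsI (u.2 i - m * P.t i) := Iff.rfl

/-- the form on the glued lattice -/
def β (P : Pt k C.d) (u u' : V × (Fin k → ℚ)) : ℚ := C.B u.1 u'.1 + tf P.T u.2 u'.2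

/-- the glued lattice is the Leech lattice -/
structure Iso (P : Pt 2 C.d) where
  hT : P.T = T2
  φ : C.N P ≃+ Cfsg.leechLattice
  nrm : ∀ u : C.N P, ((Cfsg.sqNorm ((φ u : Cfsg.leechLattice) : Cfsg.GolayPt → ℤ) : ℤ) : ℚ) =
    8 * C.β P u u

/-- a primitive vector `v` of norm `d` in the binary partner, with the data around it -/
structure Tab (P : Pt 2 C.d) where
  v : Fin 2 → ℚ
  t₁ : Fin 2 → ℚ
  n₀ : Fin 2 → ℚ
  s₀ : Fin 2 → ℚ
  k₀ : ℤ
  vI : ∀ i, IsI (v i)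
  nI : ∀ i, IsI (n₀ i)
  sI : ∀ i, IsI (s₀ i)
  vv : tf T2 v v = C.d
  tt : tf T2 t₁ t₁ = C.d / 23
  tv : tf T2 t₁ v = 0
  tP : ∀ i, IsI (t₁ i - P.t i)
  gen : ∀ s : Fin 2 → ℚ, (∀ i, IsI ((T2.map (Int.cast : ℤ → ℚ) *ᵥ s) i)) → tf T2 s v = 0 →
    ∃ j : ℤ, s = (j : ℚ) • t₁
  dec : ∀ s : Fin 2 → ℚ, s = (23 * tf T2 s t₁ / C.d) • t₁ + (tf T2 s v / C.d) • v
  prim : ∀ c : ℚ, (∀ i, IsI (c * v i)) → IsI c
  nv : tf T2 n₀ v = k₀
  nn : C.d * tf T2 n₀ n₀ - k₀ ^ 2 = 23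
  cop : IsCoprime k₀ (C.d : ℤ)
  d3 : 2 < C.d
  uniq : ∀ k : ℤ, 2 * |k| ≤ C.d → (2 * C.d : ℤ) ∣ 23 + k ^ 2 → (4 * C.d : ℤ) ≤ 23 + k ^ 2 →
    k = k₀ ∨ k = -k₀
  ss : tf T2 s₀ s₀ = 4 ∨ tf T2 s₀ s₀ = 6 ∨ tf T2 s₀ s₀ = 8
  vs : ∀ i, IsE (v i - s₀ i)

variable {C} {P : Pt 2 C.d}

/-- the isometry of `V` onto the orthogonal complement of `(0, v)` -/
def Tab.ι (T : C.Tab P) (x : V) : V × (Fin 2 → ℚ) :=
  (x - (C.B x C.w / (23 * C.d)) • C.w, (C.B x C.w / C.d) • T.t₁)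

/-- its left inverse, killing `(0, v)` -/
def Tab.κ (T : C.Tab P) (u : V × (Fin 2 → ℚ)) : V := u.1 + (tf T2 u.2 T.t₁ / C.d) • C.w

/-- the extension of `g` sending `(0, v)` to `ε • (0, v)` -/
def Tab.hat (T : C.Tab P) (g : G) (ε : ℚ) (u : V × (Fin 2 → ℚ)) : V × (Fin 2 → ℚ) :=
  T.ι (C.r g (T.κ u)) + (0, (ε * tf T2 u.2 T.v / C.d) • T.v)

end Core

end Cfsg.Agent.R23
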