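import Cfsg.Agent.R23.SD
import Cfsg.Agent.S0391

set_option autoImplicit false

namespace Cfsg.Agent.R23

open Matrix

variable {G : Type*} [Group G]

theorem tf2 (s s' : Fin 2 → ℚ) :
    tf T2 s s' = 4 * s 0 * s' 0 + s 0 * s' 1 + s 1 * s' 0 + 6 * s 1 * s' 1 := by
  simp [tf, T2, Matrix.mulVec, dotProduct, Fin.sum_univ_two]
  ring

theorem tf2_int {s s' : Fin 2 → ℚ} (h : ∀ i, IsI (s i)) (h' : ∀ i, IsI (s' i)) :
    IsI (tf T2 s s') := by
  obtain ⟨a, ha⟩ := h 0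
  obtain ⟨b, hb⟩ := h 1
  obtain ⟨c, hc⟩ := h' 0
  obtain ⟨d, hd⟩ := h' 1
  exact ⟨4 * a * c + a * d + b * c + 6 * b * d, by rw [tf2, ha, hb, hc, hd]; push_cast; ring⟩

namespace Core

variable {C : Core G} {P : Pt 2 C.d}

theorem Iso.β_eq (I : C.Iso P) (u u' : V × (Fin 2 → ℚ)) :
    C.β P u u' = C.B u.1 u'.1 + tf T2 u.2 u'.2 := by rw [β, I.hT]

theorem Iso.four (I : C.Iso P) {u : V × (Fin 2 → ℚ)} (hu : u ∈ C.N P) (h : u ≠ 0) :
    4 ≤ C.β P u u := by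
  have h1 := I.nrm ⟨u, hu⟩
  have h2 : ((I.φ ⟨u, hu⟩ : Cfsg.leechLattice) : Cfsg.GolayPt → ℤ) ≠ 0 := fun h0 => by
    have h3 : I.φ ⟨u, hu⟩ = 0 := Subtype.ext h0
    rw [map_eq_zero_iff _ I.φ.injective] at h3
    exact h (congrArg Subtype.val h3)
  have h4 := Cfsg.Agent.S0391.result _ (I.φ ⟨u, hu⟩).2 h2
  have h5 : ((32 : ℤ) : ℚ) ≤ _ := Int.cast_le.2 h4
  rw [h1] at h5
  push_cast at h5
  linarith

/-- the vector with components `x` and `a • v` -/
def Tab.pt (T : C.Tab P) (x : V) (a : ℚ) : V × (Fin 2 → ℚ) := T.ι x + (0, a • T.v)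

namespace Tab

variable (T : C.Tab P)

theorem pt_fst (x : V) (a : ℚ) : (T.pt x a).1 = x - (C.B x C.w / (23 * C.d)) • C.w := by
  simp [pt, ι]

theorem pt_snd (x : V) (a : ℚ) : (T.pt x a).2 = (C.B x C.w / C.d) • T.t₁ + a • T.v := by
  simp [pt, ι]

theorem pt_add (x y : V) (a b : ℚ) : T.pt (x + y) (a + b) = T.pt x a + T.pt y b := by
  refine Prod.ext ?_ ?_
  · simp only [pt_fst, Prod.fst_add, map_add, LinearMap.add_apply, add_div, add_smul]; abel
  · simp only [pt_snd, Prod.snd_add, map_add, LinearMap.add_apply, add_div, add_smul]; abel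

theorem pt_smul (c : ℚ) (x : V) (a : ℚ) : T.pt (c • x) (c * a) = c • T.pt x a := by
  refine Prod.ext ?_ ?_
  · simp only [pt_fst, Prod.smul_fst, map_smul, LinearMap.smul_apply, smul_eq_mul, smul_sub,
      smul_smul, mul_div_assoc]
  · simp only [pt_snd, Prod.smul_snd, map_smul, LinearMap.smul_apply, smul_eq_mul, smul_add,
      smul_smul, mul_div_assoc]

theorem pt_zero (a : ℚ) : T.pt 0 a = (0, a • T.v) := by
  refine Prod.ext ?_ ?_
  · simp [pt_fst]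
  · simp [pt_snd]

theorem pt_w (x : V) (a : ℚ) : C.B (T.pt x a).1 C.w = 0 := by
  have := C.d_ne
  rw [pt_fst, map_sub, map_smul, LinearMap.sub_apply, LinearMap.smul_apply, C.Bww, smul_eq_mul]
  field_simp
  ring

theorem pt_t (x : V) (a : ℚ) : tf T2 (T.pt x a).2 T.t₁ = C.B x C.w / 23 := by
  have h0 := C.d_ne
  have h1 := T.tt
  have h2 := T.tv
  rw [tf2] at h1 h2 ⊢
  simp only [pt_snd, Pi.add_apply, Pi.smul_apply, smul_eq_mul]
  have : C.B x C.w / 23 = C.B x C.w / C.d * (C.d / 23) := by field_simp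
  rw [this]
  linear_combination (C.B x C.w / C.d) * h1 + a * h2

theorem pt_v (x : V) (a : ℚ) : tf T2 (T.pt x a).2 T.v = a * C.d := by
  have h1 := T.vv
  have h2 := T.tv
  rw [tf2] at h1 h2 ⊢
  simp only [pt_snd, Pi.add_apply, Pi.smul_apply, smul_eq_mul]
  linear_combination (C.B x C.w / C.d) * h2 + a * h1

theorem κ_pt (x : V) (a : ℚ) : T.κ (T.pt x a) = x := by
  rw [κ, pt_t, pt_fst, div_div]
  abel

theorem eq_pt {u : V × (Fin 2 → ℚ)} (h : C.B u.1 C.w = 0) :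
    u = T.pt (T.κ u) (tf T2 u.2 T.v / C.d) := by
  have h0 := C.d_ne
  have h1 : C.B (T.κ u) C.w = 23 * tf T2 u.2 T.t₁ := by
    rw [κ, map_add, map_smul, LinearMap.add_apply, LinearMap.smul_apply, h, C.Bww, smul_eq_mul]
    field_simp
    ring
  refine Prod.ext ?_ ?_
  · rw [pt_fst, h1, κ]
    have : 23 * tf T2 u.2 T.t₁ / (23 * C.d) = tf T2 u.2 T.t₁ / C.d := by field_simp
    rw [this]
    abel
  · rw [pt_snd, h1]
    exact T.dec u.2

theorem hat_pt (g : G) (ε : ℚ) (x : V) (a : ℚ) :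
    T.hat g ε (T.pt x a) = T.pt (C.r g x) (ε * a) := by
  have h0 := C.d_ne
  rw [hat, κ_pt, pt_v]
  have : ε * (a * C.d) / C.d = ε * a := by field_simp
  rw [this]
  rfl

theorem hat_eq (g : G) (ε : ℚ) (u : V × (Fin 2 → ℚ)) :
    T.hat g ε u = T.pt (C.r g (T.κ u)) (ε * (tf T2 u.2 T.v / C.d)) := by
  rw [hat, mul_div_assoc]
  rfl

theorem β_pt (I : C.Iso P) (x y : V) (a b : ℚ) :
    C.β P (T.pt x a) (T.pt y b) = C.B x y + a * b * C.d := by
  have h0 := C.d_ne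
  have h1 := T.pt_t x a
  have h2 := T.pt_v x a
  have h3 := T.pt_w x a
  have h4 : tf T2 (T.pt x a).2 (T.pt y b).2 =
      C.B y C.w / C.d * tf T2 (T.pt x a).2 T.t₁ + b * tf T2 (T.pt x a).2 T.v := by
    rw [T.pt_snd y b]
    simp only [tf2, Pi.add_apply, Pi.smul_apply, smul_eq_mul]
    ring
  have h5 : C.B (T.pt x a).1 (T.pt y b).1 = C.B (T.pt x a).1 y := by
    rw [T.pt_fst y b, map_sub, map_smul, h3, smul_zero, sub_zero]
  rw [I.β_eq, h4, h5, h1, h2, pt_fst, map_sub, map_smul, LinearMap.sub_apply, LinearMap.smul_apply,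
    C.symm C.w y, smul_eq_mul]
  field_simp
  ring

theorem pt_mem {x : V} (hx : x ∈ C.L) : T.pt x 0 ∈ C.N P := by
  have h0 := C.d_ne
  obtain ⟨j, hj⟩ := C.dec x hx
  refine ⟨T.pt_w x 0, j, ?_, fun i => ?_⟩
  · have : (T.pt x 0).1 - (j : ℚ) • C.y₁ = x - (j : ℚ) • C.x₁ := by
      have h1 : (j : ℚ) * C.d / (23 * C.d) = j * (1 / 23) := by field_simp
      rw [pt_fst, hj, h1, y₁, smul_sub, smul_smul]
      abel
    rw [this]
    exact C.L.sub_mem hx (zsm j C.x_mem)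
  · have h1 : (j : ℚ) * C.d / C.d = j := by field_simp
    rw [pt_snd, hj, h1, zero_smul, add_zero, Pi.smul_apply, smul_eq_mul, ← mul_sub]
    exact (isI_int j).mul (T.tP i)

theorem mem_of_pt (I : C.Iso P) {x : V} (hx : T.pt x 0 ∈ C.N P) : x ∈ C.L := by
  have h0 := C.d_ne
  obtain ⟨j, hj⟩ := T.gen (T.pt x 0).2 (fun i => by have := N_T C P hx i; rwa [I.hT] at this)
    (by rw [pt_v, zero_mul])
  obtain ⟨-, m, hm, hm'⟩ := hx
  have h1 : (23 : ℤ) ∣ j - m := dvd_of_t P C.d23 fun i => by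
    have h2 := (hm' i).sub ((isI_int j).mul (T.tP i))
    rw [hj, Pi.smul_apply, smul_eq_mul] at h2
    convert h2 using 1
    push_cast
    ring
  obtain ⟨c, hc⟩ := h1
  have h3 : tf T2 (T.pt x 0).2 T.t₁ = j * (C.d / 23) := by
    rw [← T.tt, hj]
    simp only [tf2, Pi.smul_apply, smul_eq_mul]
    ring
  have h4 : x = ((T.pt x 0).1 - (m : ℚ) • C.y₁) - (c : ℚ) • ((23 : ℚ) • C.y₁) + (j : ℚ) • C.x₁ := by
    have h5 : (j : ℚ) = m + c * 23 := by
      have : (j : ℚ) - m = 23 * c := by exact_mod_cast hc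
      linarith
    have h6 : (j : ℚ) * (C.d / 23) / C.d = j * (1 / 23) := by field_simp
    conv_lhs => rw [← T.κ_pt x 0, κ, h3, h6]
    have h7 : (j : ℚ) • C.x₁ = (j : ℚ) • C.y₁ + ((j : ℚ) * (1 / 23)) • C.w := by
      rw [y₁, smul_sub, smul_smul]; abel
    rw [h7, smul_smul]
    conv_rhs => rw [h5, add_smul, ← h5]
    abel
  rw [h4]
  exact C.L.add_mem (C.L.sub_mem hm (zsm c C.y23)) (zsm j C.x_mem)

theorem v_mem : T.pt 0 1 ∈ C.N P := by
  rw [pt_zero, one_smul]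
  exact (N_inr C P).2 T.vI

/-- the dual vector `p` -/
noncomputable def p : V := T.κ (0, T.n₀)

theorem n_eq : ((0 : V), T.n₀) = T.pt T.p (T.k₀ / C.d) := by
  rw [← T.nv]
  exact T.eq_pt (u := (0, T.n₀)) (by simp)

theorem n_mem : T.pt T.p (T.k₀ / C.d) ∈ C.N P := by
  rw [← n_eq]
  exact (N_inr C P).2 T.nI

end Tab

theorem N_zsm {k : ℕ} {P : Pt k C.d} {u : V × (Fin k → ℚ)} (c : ℤ) (hu : u ∈ C.N P) :
    (c : ℚ) • u ∈ C.N P := by
  rw [Int.cast_smul_eq_zsmul]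
  exact (C.N P).zsmul_mem hu c

end Core

end Cfsg.Agent.R23
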