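import Cfsg.Agent.R23.EXT0

set_option autoImplicit false

namespace Cfsg.Agent.R23

open Matrix

variable {G : Type*} [Group G]

namespace Core.Tab

variable {C : Core G} {P : Pt 2 C.d} (T : C.Tab P)

theorem comb (l y : V) (b c c' : ℚ) :
    T.pt (l + c • y) (c * b + c') = T.pt l 0 + c • T.pt y b + c' • T.pt 0 1 := by
  rw [← pt_smul, ← pt_smul, ← pt_add, ← pt_add]
  simp

theorem gens (I : C.Iso P) {u : V × (Fin 2 → ℚ)} (hu : u ∈ C.N P) :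
    ∃ l ∈ C.L, ∃ c c' : ℤ, u = T.pt (l + (c : ℚ) • T.p) (c * (T.k₀ / C.d) + c') := by
  have h0 := C.d_ne
  obtain ⟨x, a, rfl⟩ : ∃ x a, u = T.pt x a := ⟨_, _, T.eq_pt hu.1⟩
  obtain ⟨k, hk⟩ := N_int C P hu T.v_mem
  rw [T.β_pt I, map_zero, zero_add, mul_one] at hk
  obtain ⟨r, s, hrs⟩ := T.cop
  have h1 : (r : ℚ) * T.k₀ + s * C.d = 1 := by exact_mod_cast hrs
  have h2 : a = ((k * r : ℤ) : ℚ) * (T.k₀ / C.d) + ((k * s : ℤ) : ℚ) := by
    push_cast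
    field_simp
    linear_combination hk - k * h1
  have h3 : T.pt x a = T.pt ((x - ((k * r : ℤ) : ℚ) • T.p) + ((k * r : ℤ) : ℚ) • T.p)
      (((k * r : ℤ) : ℚ) * (T.k₀ / C.d) + ((k * s : ℤ) : ℚ)) := by
    rw [sub_add_cancel, ← h2]
  refine ⟨x - ((k * r : ℤ) : ℚ) • T.p, T.mem_of_pt I ?_, k * r, k * s, h3⟩
  rw [h3, comb] at hu
  have h4 := (C.N P).sub_mem ((C.N P).sub_mem hu (N_zsm (k * s) T.v_mem)) (N_zsm (k * r) T.n_mem)
  rwa [add_sub_cancel_right, add_sub_cancel_right] at h4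

theorem p_dl (I : C.Iso P) : T.p ∈ dl C.B C.L := fun l hl => by
  have := N_int C P T.n_mem (T.pt_mem hl)
  rwa [T.β_pt I, mul_zero, zero_mul, add_zero] at this

theorem dp (I : C.Iso P) : (C.d : ℚ) • T.p ∈ C.L := by
  have h0 := C.d_ne
  refine T.mem_of_pt I ?_
  have h1 := T.comb 0 T.p (T.k₀ / C.d) C.d ((-T.k₀ : ℤ) : ℚ)
  have h2 : (C.d : ℚ) * (T.k₀ / C.d) + ((-T.k₀ : ℤ) : ℚ) = 0 := by
    push_cast
    field_simp
    ring
  rw [h2, zero_add] at h1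
  rw [h1]
  refine (C.N P).add_mem ((C.N P).add_mem (T.pt_mem C.L.zero_mem) ?_) (N_zsm _ T.v_mem)
  have := N_zsm (C.d : ℤ) T.n_mem
  rwa [Int.cast_natCast] at this

theorem pp (I : C.Iso P) : C.B T.p T.p = 23 / C.d := by
  have h0 := C.d_ne
  have h1 := T.β_pt I T.p T.p (T.k₀ / C.d) (T.k₀ / C.d)
  rw [← n_eq, I.β_eq, map_zero, zero_add] at h1
  have h2 := T.nn
  rw [h1] at h2
  field_simp at h2 ⊢
  linarith

end Core.Tab

theorem ext1 (C : Core G) {P : Pt 2 C.d} (I : C.Iso P) (T : C.Tab P) (g : G) :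
    ∃ ε : ℚ, (ε = 1 ∨ ε = -1) ∧ ∀ u ∈ C.N P, T.hat g ε u ∈ C.N P := by
  have h0 := C.d_ne
  have hd : (0 : ℤ) < C.d := by exact_mod_cast C.dpos
  have hp' : C.r g T.p ∈ dl C.B C.L := C.toLat.dl_inv g (T.p_dl I)
  obtain ⟨a, ha⟩ := hp' _ (T.dp I)
  rw [map_smul, smul_eq_mul] at ha
  obtain ⟨r, s, hrs⟩ := T.cop
  obtain ⟨k, hk, m, hm⟩ : ∃ k : ℤ, 2 * |k| ≤ C.d ∧ ∃ m : ℤ, a + k * T.k₀ = C.d * m := by
    have h1 := Int.emod_nonneg (-a * r) hd.ne'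
    have h2 := Int.emod_lt_of_pos (-a * r) hd
    have h3 := Int.emod_add_mul_ediv (-a * r) C.d
    set e := (-a * r) % C.d
    set f := (-a * r) / C.d
    by_cases h : 2 * e ≤ C.d
    · refine ⟨e, by rw [abs_of_nonneg h1]; exact h, a * s - f * T.k₀, ?_⟩
      linear_combination T.k₀ * h3 - a * hrs
    · refine ⟨e - C.d, by rw [abs_of_nonpos (by omega)]; omega, a * s - f * T.k₀ - T.k₀, ?_⟩
      linear_combination T.k₀ * h3 - a * hrs
  have hm' : (a : ℚ) + k * T.k₀ = C.d * m := by exact_mod_cast hm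
  have hu : T.pt (C.r g T.p) (k / C.d) ∈ C.N P := by
    refine N_self C P (T.pt_w _ _) fun u hu => ?_
    obtain ⟨l, hl, c, c', rfl⟩ := T.gens I hu
    obtain ⟨b, hb⟩ := hp' l hl
    refine ⟨b + c * m + k * c', ?_⟩
    have h1 : C.B (C.r g T.p) T.p = a / C.d := by rw [← ha]; field_simp
    rw [T.β_pt I, map_add, map_smul, hb, h1, smul_eq_mul]
    push_cast
    field_simp
    linear_combination c * hm'
  have hn : C.β P (T.pt (C.r g T.p) (k / C.d)) (T.pt (C.r g T.p) (k / C.d)) =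
      (23 + k ^ 2) / C.d := by
    rw [T.β_pt I, C.inv, T.pp I]
    field_simp
  have hd' : (0 : ℚ) < C.d := by exact_mod_cast C.dpos
  obtain ⟨e, he⟩ := N_even C P hu
  have h4 := I.four hu fun h => by
    rw [h, I.β_eq] at hn
    simp only [Prod.fst_zero, map_zero, Prod.snd_zero, tf2, Pi.zero_apply, mul_zero, add_zero] at hn
    have : (0 : ℚ) < (23 + k ^ 2) / C.d := by positivity
    linarith
  rw [hn] at he h4
  rw [le_div_iff₀ hd'] at h4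
  rw [div_eq_iff h0] at he
  have h5 := T.uniq k hk ⟨e, by
    have : (23 : ℚ) + k ^ 2 = 2 * C.d * e := by linarith
    exact_mod_cast this⟩ (by exact_mod_cast h4)
  obtain ⟨ε, hε, hk'⟩ : ∃ ε : ℤ, (ε = 1 ∨ ε = -1) ∧ k = ε * T.k₀ := by
    rcases h5 with h | h
    · exact ⟨1, Or.inl rfl, by rw [h, one_mul]⟩
    · exact ⟨-1, Or.inr rfl, by rw [h, neg_one_mul]⟩
  refine ⟨ε, by exact_mod_cast hε, fun u hu' => ?_⟩
  obtain ⟨l, hl, c, c', rfl⟩ := T.gens I hu'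
  have h6 : (ε : ℚ) * (c * (T.k₀ / C.d) + c') = c * (k / C.d) + ((ε * c' : ℤ) : ℚ) := by
    rw [hk']
    push_cast
    ring
  rw [T.hat_pt, map_add, map_smul, h6, T.comb]
  exact (C.N P).add_mem ((C.N P).add_mem (T.pt_mem (C.Linv g l hl)) (Core.N_zsm c hu))
    (Core.N_zsm _ T.v_mem)

end Cfsg.Agent.R23
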