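import Cfsg.Agent.R23.EXT0

set_option autoImplicit false

namespace Cfsg.Agent.R23

open Matrix

variable {G : Type*} [Group G]

namespace Core.Tab

variable {C : Core G} {P : Pt 2 C.d} (T : C.Tab P)

/-- `hat g ε` preserves the glued lattice -/
def Ok (g : G) (ε : ℚ) : Prop := (ε = 1 ∨ ε = -1) ∧ ∀ u ∈ C.N P, T.hat g ε u ∈ C.N P

theorem not_both {g : G} (h : T.Ok g 1) (h' : T.Ok g (-1)) : False := by
  have h0 := C.d_ne
  have h1 := (C.N P).sub_mem (h.2 _ T.n_mem) (h'.2 _ T.n_mem)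
  have h2 : T.hat g 1 (T.pt T.p (T.k₀ / C.d)) - T.hat g (-1) (T.pt T.p (T.k₀ / C.d)) =
      (0, (2 * T.k₀ / C.d : ℚ) • T.v) := by
    rw [hat_pt, hat_pt, sub_eq_iff_eq_add, ← pt_zero, ← pt_add, zero_add]
    congr 1
    ring
  rw [h2, N_inr] at h1
  obtain ⟨c, hc⟩ := T.prim (2 * T.k₀ / C.d) h1
  rw [div_eq_iff h0] at hc
  have h3 : (C.d : ℤ) ∣ 2 * T.k₀ := ⟨c, by
    have : (2 : ℚ) * T.k₀ = C.d * c := by linarith
    exact_mod_cast this⟩
  have h4 := Int.le_of_dvd (by norm_num) (T.cop.symm.dvd_of_dvd_mul_right h3)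
  have := T.d3
  omega

theorem ok_uniq {g : G} {ε ε' : ℚ} (h : T.Ok g ε) (h' : T.Ok g ε') : ε = ε' := by
  rcases h.1 with rfl | rfl <;> rcases h'.1 with rfl | rfl
  · rfl
  · exact (T.not_both h h').elim
  · exact (T.not_both h' h).elim
  · rfl

theorem hat_hat (g h : G) (ε ε' : ℚ) (u : V × (Fin 2 → ℚ)) :
    T.hat g ε (T.hat h ε' u) = T.hat (g * h) (ε * ε') u := by
  rw [T.hat_eq h, hat_pt, T.hat_eq (g * h), map_mul, Module.End.mul_apply, mul_assoc]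

theorem hat_one {u : V × (Fin 2 → ℚ)} (h : C.B u.1 C.w = 0) : T.hat 1 1 u = u := by
  rw [hat_eq, map_one, Module.End.one_apply, one_mul]
  exact (T.eq_pt h).symm

theorem hat_add (g : G) (ε : ℚ) {u u' : V × (Fin 2 → ℚ)} (h : C.B u.1 C.w = 0)
    (h' : C.B u'.1 C.w = 0) : T.hat g ε (u + u') = T.hat g ε u + T.hat g ε u' := by
  obtain ⟨x, a, rfl⟩ : ∃ x a, u = T.pt x a := ⟨_, _, T.eq_pt h⟩
  obtain ⟨y, b, rfl⟩ : ∃ y b, u' = T.pt y b := ⟨_, _, T.eq_pt h'⟩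
  rw [← pt_add, hat_pt, hat_pt, hat_pt, map_add, mul_add, pt_add]

theorem β_hat (I : C.Iso P) (g : G) {ε : ℚ} (hε : ε = 1 ∨ ε = -1) {u : V × (Fin 2 → ℚ)}
    (h : C.B u.1 C.w = 0) : C.β P (T.hat g ε u) (T.hat g ε u) = C.β P u u := by
  obtain ⟨x, a, rfl⟩ : ∃ x a, u = T.pt x a := ⟨_, _, T.eq_pt h⟩
  rw [hat_pt, T.β_pt I, T.β_pt I, C.inv]
  rcases hε with rfl | rfl <;> ring

theorem ok_mul {g h : G} {ε ε' : ℚ} (h1 : T.Ok g ε) (h2 : T.Ok h ε') : T.Ok (g * h) (ε * ε') := by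
  refine ⟨?_, fun u hu => ?_⟩
  · rcases h1.1 with rfl | rfl <;> rcases h2.1 with rfl | rfl <;> norm_num
  · rw [← hat_hat]
    exact h1.2 _ (h2.2 _ hu)

theorem ok_one : T.Ok 1 1 := ⟨Or.inl rfl, fun u hu => by rwa [T.hat_one hu.1]⟩

end Core.Tab

theorem ext2 (C : Core G) {P : Pt 2 C.d} (I : C.Iso P) (T : C.Tab P)
    (h : ∀ g : G, ∃ ε : ℚ, (ε = 1 ∨ ε = -1) ∧ ∀ u ∈ C.N P, T.hat g ε u ∈ C.N P) :
    ∃ (ψ : G →* Cfsg.Co0) (t : Cfsg.leechLattice), Function.Injective ψ ∧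
      (Cfsg.sqNorm (t : Cfsg.GolayPt → ℤ) = 32 ∨ Cfsg.sqNorm (t : Cfsg.GolayPt → ℤ) = 48 ∨
        Cfsg.sqNorm (t : Cfsg.GolayPt → ℤ) = 64) ∧
      ∀ g, ∃ z : Cfsg.leechLattice, ψ g • t = t + (z + z) := by
  choose ε hε using h
  have hok : ∀ g, T.Ok g (ε g) := hε
  let a : G → C.N P → C.N P := fun g u => ⟨T.hat g (ε g) u, (hε g).2 _ u.2⟩
  have a1 : ∀ u, a 1 u = u := fun u => Subtype.ext (by
    change T.hat 1 (ε 1) u = u
    rw [T.ok_uniq (hok 1) T.ok_one, T.hat_one u.2.1])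
  have am : ∀ g h u, a (g * h) u = a g (a h u) := fun g h u => Subtype.ext (by
    change T.hat (g * h) (ε (g * h)) u = T.hat g (ε g) (T.hat h (ε h) u)
    rw [T.hat_hat, T.ok_uniq (hok (g * h)) (T.ok_mul (hok g) (hok h))])
  have aa : ∀ g u u', a g (u + u') = a g u + a g u' := fun g u u' =>
    Subtype.ext (T.hat_add g (ε g) u.2.1 u'.2.1)
  let f : G →* Function.End Cfsg.leechLattice :=
    { toFun := fun g x => I.φ (a g (I.φ.symm x))
      map_one' := funext fun x => by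
        change I.φ (a 1 (I.φ.symm x)) = x
        rw [a1, I.φ.apply_symm_apply]
      map_mul' := fun g h => funext fun x => by
        change I.φ (a (g * h) (I.φ.symm x)) = I.φ (a g (I.φ.symm (I.φ (a h (I.φ.symm x)))))
        rw [am, I.φ.symm_apply_apply] }
  have hf : ∀ g x, MonoidHom.toHomPerm f g x = I.φ (a g (I.φ.symm x)) := fun g x => rfl
  have hc : ∀ g, MonoidHom.toHomPerm f g ∈ Cfsg.Co0 := fun g => by
    refine ⟨fun x y => ?_, fun x => ?_⟩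
    · rw [hf, hf, hf, map_add, aa, map_add]
    · obtain ⟨u, rfl⟩ := I.φ.surjective x
      have h1 := I.nrm (a g u)
      have h2 := I.nrm u
      rw [hf, I.φ.symm_apply_apply]
      have h3 : C.β P (a g u) (a g u) = C.β P u u := T.β_hat I g (hε g).1 u.2.1
      rw [h3, ← h2] at h1
      exact_mod_cast h1
  let ψ : G →* Cfsg.Co0 := (MonoidHom.toHomPerm f).codRestrict _ hc
  have hψ : ∀ g u, ψ g • I.φ u = I.φ (a g u) := fun g u => by
    change MonoidHom.toHomPerm f g (I.φ u) = _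
    rw [hf, I.φ.symm_apply_apply]
  let s : C.N P := ⟨(0, T.s₀), (N_inr C P).2 T.sI⟩
  refine ⟨ψ, I.φ s, (injective_iff_map_eq_one ψ).2 fun g hg => ?_, ?_, fun g => ?_⟩
  · have h1 : ∀ l ∈ C.L, C.r g l = l := fun l hl => by
      have h2 := hψ g ⟨T.pt l 0, T.pt_mem hl⟩
      rw [hg, one_smul] at h2
      have h3 : T.pt l 0 = T.hat g (ε g) (T.pt l 0) := congrArg Subtype.val (I.φ.injective h2)
      rw [T.hat_pt] at h3
      have h4 := congrArg T.κ h3
      rw [T.κ_pt, T.κ_pt] at h4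
      exact h4.symm
    refine C.inj ?_
    rw [map_one]
    exact LinearMap.ext_on C.lat.span h1
  · have h1 := I.nrm s
    rw [I.β_eq] at h1
    simp only [s, map_zero, zero_add] at h1
    rcases T.ss with h2 | h2 | h2 <;> rw [h2] at h1
    · exact Or.inl (by exact_mod_cast h1.trans (by norm_num : (8 : ℚ) * 4 = (32 : ℤ)))
    · exact Or.inr (Or.inl (by exact_mod_cast h1.trans (by norm_num : (8 : ℚ) * 6 = (48 : ℤ))))
    · exact Or.inr (Or.inr (by exact_mod_cast h1.trans (by norm_num : (8 : ℚ) * 8 = (64 : ℤ))))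
  · let v : C.N P := ⟨T.pt 0 1, T.v_mem⟩
    let k : C.N P := ⟨(0, (1 / 2 : ℚ) • (T.v - T.s₀)), (N_inr C P).2 fun i => by
      obtain ⟨c, hc⟩ := T.vs i
      exact ⟨c, by rw [Pi.smul_apply, Pi.sub_apply, hc, smul_eq_mul]; ring⟩⟩
    have hv : v = s + (k + k) := Subtype.ext (by
      change T.pt 0 1 = (0, T.s₀) + ((0, (1 / 2 : ℚ) • (T.v - T.s₀)) + (0, (1 / 2 : ℚ) • (T.v - T.s₀)))
      rw [T.pt_zero, Prod.mk_add_mk, Prod.mk_add_mk, ← add_smul]
      norm_num)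
    have hav : (a g v : V × (Fin 2 → ℚ)) = ε g • (v : V × (Fin 2 → ℚ)) := by
      change T.hat g (ε g) (T.pt 0 1) = ε g • T.pt 0 1
      rw [T.hat_pt, map_zero, ← T.pt_smul, smul_zero]
    have h1 : a g v = a g s + (a g k + a g k) := by rw [hv, aa, aa]
    rcases (hε g).1 with h2 | h2
    · have h3 : a g v = v := Subtype.ext (by rw [hav, h2, one_smul])
      refine ⟨I.φ (k - a g k), ?_⟩
      rw [hψ, ← map_add, ← map_add]
      congr 1
      rw [h3, hv] at h1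
      rw [← add_left_inj (a g k + a g k), ← h1]
      abel
    · have h3 : a g v = -v := Subtype.ext (by rw [hav, h2, neg_one_smul]; rfl)
      refine ⟨I.φ (-s - k - a g k), ?_⟩
      rw [hψ, ← map_add, ← map_add]
      congr 1
      rw [h3, hv] at h1
      rw [← add_left_inj (a g k + a g k), ← h1]
      abel

end Cfsg.Agent.R23
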