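import Cfsg.Agent.R23.Defs

/-! Project R23: passing to the even sublattice. -/

set_option autoImplicit false

namespace Cfsg.Agent.R23

open Matrix

variable {G : Type*} [Group G]

/-- the even sublattice -/
def evnL (Λ : Lat G) : Submodule ℤ V where
  carrier := {x | x ∈ Λ.L ∧ IsE (Λ.B x x)}
  add_mem' := by
    rintro a b ⟨ha, k, hk⟩ ⟨hb, l, hl⟩
    refine ⟨Λ.L.add_mem ha hb, ?_⟩
    obtain ⟨m, hm⟩ := Λ.int a ha b hb
    refine ⟨k + l + m, ?_⟩
    simp only [map_add, LinearMap.add_apply]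
    rw [Λ.symm b a, hk, hl, hm]
    push_cast
    ring
  zero_mem' := ⟨Λ.L.zero_mem, 0, by simp⟩
  smul_mem' := by
    rintro c a ⟨ha, k, hk⟩
    refine ⟨Λ.L.smul_mem c ha, c * c * k, ?_⟩
    rw [← Int.cast_smul_eq_zsmul ℚ]
    simp only [map_smul, LinearMap.smul_apply, smul_eq_mul]
    rw [hk]
    push_cast
    ring

theorem evnL_mem {Λ : Lat G} {x : V} : x ∈ evnL Λ ↔ x ∈ Λ.L ∧ IsE (Λ.B x x) := Iff.rfl

theorem evnL_two {Λ : Lat G} {x : V} (h : x ∈ Λ.L) : (2 : ℚ) • x ∈ evnL Λ := by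
  refine ⟨by simpa using nsm 2 h, ?_⟩
  obtain ⟨k, hk⟩ := Λ.int x h x h
  refine ⟨2 * k, ?_⟩
  simp only [map_smul, LinearMap.smul_apply, smul_eq_mul]
  rw [hk]
  push_cast
  ring

theorem evnL_sub {Λ : Lat G} (g : G) {x : V} (h : x ∈ Λ.L) : Λ.r g x - x ∈ evnL Λ := by
  refine ⟨Λ.L.sub_mem (Λ.Linv g x h) h, ?_⟩
  obtain ⟨k, hk⟩ := Λ.int x h x h
  obtain ⟨m, hm⟩ := Λ.int _ (Λ.Linv g x h) x h
  refine ⟨k - m, ?_⟩
  simp only [map_sub, LinearMap.sub_apply]
  rw [Λ.inv, Λ.symm x (Λ.r g x), hk, hm]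
  push_cast
  ring

theorem evnL_inv {Λ : Lat G} (g : G) {x : V} (h : x ∈ evnL Λ) : Λ.r g x ∈ evnL Λ :=
  ⟨Λ.Linv g x h.1, by rw [Λ.inv]; exact h.2⟩

theorem evnL_lat (Λ : Lat G) : IsLat (evnL Λ) where
  fg := by
    have hle : evnL Λ ≤ Λ.L := fun _ h => h.1
    exact Submodule.FG.of_le Λ.lat.fg hle
  span := by
    rw [eq_top_iff, ← Λ.lat.span, Submodule.span_le]
    intro x hx
    have h2 : (2 : ℚ) • x ∈ Submodule.span ℚ (evnL Λ : Set V) :=
      Submodule.subset_span (evnL_two hx)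
    have h3 := Submodule.smul_mem _ (1 / 2 : ℚ) h2
    rw [smul_smul] at h3
    norm_num at h3
    exact h3

theorem evnL_bez {M : Submodule ℤ V} {x : V} {a b : ℕ} (hc : Nat.Coprime a b)
    (ha : (a : ℚ) • x ∈ M) (hb : (b : ℚ) • x ∈ M) : x ∈ M := by
  obtain ⟨u, v, huv⟩ := Nat.isCoprime_iff_coprime.2 hc
  have h := M.add_mem (zsm u ha) (zsm v hb)
  have h1 : (u : ℚ) * a + v * b = 1 := by exact_mod_cast huv
  rwa [smul_smul, smul_smul, ← add_smul, h1, one_smul] at h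

theorem evnL_T {Λ : Lat G} (g : G) {x : V} (h : x ∈ dl Λ.B (evnL Λ)) :
    Λ.r g x - x ∈ dl Λ.B Λ.L := fun l hl => by
  have h1 := h _ (evnL_sub g⁻¹ hl)
  rw [map_sub] at h1
  rw [map_sub, LinearMap.sub_apply, Λ.toFm.inv']
  exact h1

theorem evnL_exp {Λ : Lat G} (g : G) {x y z : V} (hy : Λ.r g x - x = y) (hz : Λ.r g y - y = z)
    (hzL : z ∈ Λ.L) (n : ℕ) :
    ∃ c : ℤ, Λ.r (g ^ n) x - x - (n : ℚ) • y - (c : ℚ) • z ∈ evnL Λ := by
  induction n with
  | zero => exact ⟨0, by simp⟩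
  | succ n ih =>
    obtain ⟨c, hc⟩ := ih
    refine ⟨c + n, ?_⟩
    have h1 := (evnL Λ).add_mem (evnL_inv g hc) (zsm c (evnL_sub g hzL))
    convert h1 using 1
    have hx : Λ.r g x = x + y := by rw [← hy]; abel
    have hy' : Λ.r g y = y + z := by rw [← hz]; abel
    rw [pow_succ', map_mul, Module.End.mul_apply]
    simp only [map_sub, map_smul, hx, hy']
    push_cast
    module

theorem exists_ev (R : Red G) : Nonempty (Ev G) := by
  have hσ : R.σ ^ 23 = 1 := by rw [← R.ord]; exact pow_orderOf_eq_one _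
  have hdl : ∀ x ∈ dl R.B R.L, x ∈ dl R.B (evnL R.toLat) := fun x hx y hy => hx y hy.1
  have hcop : Nat.Coprime 23 R.e := (Nat.Prime.coprime_iff_not_dvd (by norm_num)).2 R.e23
  -- `23 T x + c T² x` lies in the even sublattice
  have key : ∀ x ∈ dl R.B (evnL R.toLat), ∃ c : ℤ,
      ((23 : ℕ) : ℚ) • (R.r R.σ x - x) +
        (c : ℚ) • (R.r R.σ (R.r R.σ x - x) - (R.r R.σ x - x)) ∈ evnL R.toLat := by
    intro x hx
    obtain ⟨c, hc⟩ := evnL_exp (Λ := R.toLat) R.σ rfl rfl (R.σL _ (evnL_T R.σ hx)) 23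
    refine ⟨c, ?_⟩
    have h1 := (evnL R.toLat).neg_mem hc
    rw [hσ, map_one, Module.End.one_apply] at h1
    convert h1 using 1
    abel
  refine ⟨{ R.toFm with
    L := evnL R.toLat
    lat := evnL_lat _
    Linv := fun g x hx => evnL_inv g hx
    int := fun x hx y hy => R.int x hx.1 y hy.1
    σ := R.σ
    ord := R.ord
    e := 4 * R.e
    e16 := ?_
    e23 := ?_
    eL := ?_
    σL := ?_
    even := fun x hx => hx.2 }⟩
  · intro h
    have h2 : 2 * 2 ∣ R.e := by omega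
    have := R.sq 2 h2
    simp at this
  · intro h
    exact R.e23 ((Nat.Coprime.dvd_mul_left (by norm_num)).1 h)
  · intro x hx
    have h2 : (2 : ℚ) • x ∈ dl R.B R.L := fun l hl => by
      have := hx _ (evnL_two (Λ := R.toLat) hl)
      rw [map_smul] at this
      rw [map_smul, LinearMap.smul_apply]
      exact this
    have h3 := evnL_two (Λ := R.toLat) (R.eL _ h2)
    rw [smul_smul, smul_smul] at h3
    convert h3 using 2
    push_cast
    ring
  · intro x hx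
    have hy : R.r R.σ x - x ∈ dl R.B R.L := evnL_T R.σ hx
    have hz := R.σL _ hy
    obtain ⟨c, hc⟩ := key x hx
    obtain ⟨c', hc'⟩ := key _ (hdl _ hy)
    have h1 := (evnL R.toLat).sub_mem hc' (zsm c' (evnL_sub (Λ := R.toLat) R.σ hz))
    rw [add_sub_cancel_right] at h1
    have h2 := evnL_bez (a := 23) (b := 2) (by norm_num) h1
      (by simpa using evnL_two (Λ := R.toLat) hz)
    have h3 := (evnL R.toLat).sub_mem hc (zsm c h2)
    rw [add_sub_cancel_right] at h3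
    refine evnL_bez (a := 23) (b := 2 * R.e) (Nat.Coprime.mul_right (by norm_num) hcop) h3 ?_
    have h4 := evnL_two (Λ := R.toLat) (R.eL _ hy)
    rw [smul_smul] at h4
    convert h4 using 2
    push_cast
    ring

end Cfsg.Agent.R23
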