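import Cfsg.Agent.R23.Defs
import Cfsg.Agent.H15.MonoP
import Cfsg.Agent.H15.Trans
import Cfsg.Agent.S5592

/-! Project R23: the stabiliser of a class of the Leech lattice modulo 2. -/

set_option autoImplicit false

namespace Cfsg.Agent.R23

open Matrix Subgroup MulAction Cfsg.Agent.H15

variable {G : Type*} [Group G]

/-- a group that fixes a vector up to sign -/
theorem FIN_pm (ψ : G →* Cfsg.Co0) (hψ : Function.Injective ψ) (u : Cfsg.leechLattice) (hu : -u ≠ u)
    (h : ∀ g, ψ g • u = u ∨ ψ g • u = -u) :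
    ∃ f : G →* Multiplicative (ZMod 2) × ↥(Cfsg.Co0 ⊓ stabilizer (Equiv.Perm Cfsg.leechLattice) u),
      Function.Injective f := by
  classical
  have n1 : ∀ g : Cfsg.Co0, g * negC = negC * g := fun g => co0_ext fun v => by
    rw [mul_smul, mul_smul, negC_smul, negC_smul, co0_smul_neg]
  have n2 : negC * negC = 1 := co0_ext fun v => by rw [mul_smul, negC_smul, negC_smul, neg_neg, one_smul]
  let ε : G → Multiplicative (ZMod 2) := fun g => if ψ g • u = u then 1 else .ofAdd 1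
  let k : G → Cfsg.Co0 := fun g => if ψ g • u = u then ψ g else negC * ψ g
  have p1 : ∀ g, ψ g • u = u → ε g = 1 ∧ k g = ψ g := fun g e => ⟨if_pos e, if_pos e⟩
  have p2 : ∀ g, ψ g • u = -u → ε g = .ofAdd 1 ∧ k g = negC * ψ g := fun g e =>
    ⟨if_neg (e ▸ hu), if_neg (e ▸ hu)⟩
  have hk : ∀ g, k g • u = u := fun g => by
    rcases h g with e | e
    · rw [(p1 g e).2, e]
    · rw [(p2 g e).2, mul_smul, e, negC_smul, neg_neg]
  have mul : ∀ a b, ε (a * b) = ε a * ε b ∧ k (a * b) = k a * k b := by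
    intro a b
    rcases h a with ha | ha <;> rcases h b with hb | hb
    · have := p1 (a * b) (by rw [map_mul, mul_smul, hb, ha])
      rw [this.1, this.2, (p1 a ha).1, (p1 a ha).2, (p1 b hb).1, (p1 b hb).2, map_mul]
      exact ⟨rfl, rfl⟩
    · have := p2 (a * b) (by rw [map_mul, mul_smul, hb, co0_smul_neg, ha])
      rw [this.1, this.2, (p1 a ha).1, (p1 a ha).2, (p2 b hb).1, (p2 b hb).2, map_mul, ← mul_assoc, ← mul_assoc, n1]
      exact ⟨rfl, rfl⟩
    · have := p2 (a * b) (by rw [map_mul, mul_smul, hb, ha])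
      rw [this.1, this.2, (p2 a ha).1, (p2 a ha).2, (p1 b hb).1, (p1 b hb).2, map_mul, mul_assoc]
      exact ⟨rfl, rfl⟩
    · have := p1 (a * b) (by rw [map_mul, mul_smul, hb, co0_smul_neg, ha, neg_neg])
      rw [this.1, this.2, (p2 a ha).1, (p2 a ha).2, (p2 b hb).1, (p2 b hb).2, map_mul, mul_assoc, ← mul_assoc (ψ a),
        n1, ← mul_assoc, ← mul_assoc, n2, one_mul]
      exact ⟨rfl, rfl⟩
  refine ⟨MonoidHom.mk' (fun g => (ε g, ⟨(k g).1, (k g).2, hk g⟩)) fun a b =>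
    Prod.ext (mul a b).1 (Subtype.ext (congrArg (fun x : Cfsg.Co0 => x.1) (mul a b).2)), (injective_iff_map_eq_one _).2 fun g hg => ?_⟩
  have e1 : ε g = 1 := congrArg Prod.fst hg
  have e2 : k g = 1 := Subtype.ext (congrArg (fun x => x.2.1) hg)
  rcases h g with e | e
  · exact hψ (by rw [← (p1 g e).2, e2, map_one])
  · exact absurd ((p2 g e).1.symm.trans e1) (by decide)

theorem FIN_short (ψ : G →* Cfsg.Co0) (hψ : Function.Injective ψ) (u : Cfsg.leechLattice)
    (h0 : 0 < Cfsg.sqNorm (u : Cfsg.GolayPt → ℤ)) (h1 : Cfsg.sqNorm (u : Cfsg.GolayPt → ℤ) < 64)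
    (h : ∀ g, ∃ z : Cfsg.leechLattice, ψ g • u = u + (z + z)) :
    ∃ f : G →* Multiplicative (ZMod 2) × ↥(Cfsg.Co0 ⊓ stabilizer (Equiv.Perm Cfsg.leechLattice) u),
      Function.Injective f := by
  refine FIN_pm ψ hψ u (fun e => h0.ne' ?_) fun g => ?_
  · have : (u : Cfsg.GolayPt → ℤ) = 0 := funext fun i => by
      have : -(u : Cfsg.GolayPt → ℤ) i = (u : Cfsg.GolayPt → ℤ) i := congrFun (congrArg Subtype.val e) i
      rw [Pi.zero_apply]; omega
    rw [this]; simp [Cfsg.sqNorm]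
  · obtain ⟨z, hz⟩ := h g
    by_cases e : ψ g • u = u
    · exact .inl e
    · rcases S5592.result _ _ (ψ g • u).2 u.2 (fun e' => e (Subtype.ext e')) (by rw [co0_norm]; exact h1.le) h1.le
        ⟨z, z.2, by rw [hz, two_nsmul]; simp⟩ with e' | e'
      · exact .inr (Subtype.ext e')
      · exact absurd e'.2.1 h1.ne

theorem FIN_long (ψ : G →* Cfsg.Co0) (hψ : Function.Injective ψ) {σ : G} (hσ : orderOf σ = 23)
    (h : ∀ g, ∃ z : Cfsg.leechLattice, ψ g • e8 none = e8 none + (z + z)) :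
    ∃ H : Subgroup G, H.index = 23 ∨ H.index = 24 := by
  let π : G →* Cfsg.M24 := monoP.comp (ψ.codRestrict monoN fun g => (mem_monoN_iff_congr none).2 (h g))
  let _ : MulAction G Cfsg.GolayPt := MulAction.compHom _ (Cfsg.M24.subtype.comp π)
  obtain ⟨i, hi⟩ : ∃ i : Cfsg.GolayPt, σ ∉ stabilizer G i := by
    by_contra h1
    have h2 : π σ = 1 := Subtype.ext (Equiv.ext fun i => by_contra fun e => h1 ⟨i, e⟩)
    have h3 : ψ σ * ψ σ = 1 := signG_sq ((monoP_eq_one_iff _).1 h2)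
    have h4 : σ ^ 2 = 1 := hψ (by rw [sq, map_mul, h3, map_one])
    have := orderOf_dvd_of_pow_eq_one h4
    rw [hσ] at this
    omega
  have a1 : (stabilizer G i).index ≤ 24 := by
    rw [index_stabilizer]
    exact (Set.ncard_le_card _).trans (by rw [Nat.card_eq_fintype_card]; rfl)
  have a2 : (stabilizer G i).index ≠ 0 := by
    rw [index_stabilizer]
    exact ((Set.ncard_pos (Set.toFinite _)).2 ⟨i, mem_orbit_self i⟩).ne'
  have a3 : (stabilizer G i).relIndex (zpowers σ) ≤ (stabilizer G i).index := by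
    rw [← relIndex_top_right] at a2 ⊢
    exact relIndex_le_of_le_right le_top a2
  have a4 : (stabilizer G i).relIndex (zpowers σ) ∣ 23 := by
    rw [← hσ, ← Nat.card_zpowers]
    exact index_dvd_card _
  have a5 : (stabilizer G i).relIndex (zpowers σ) ≠ 1 := fun e => hi (relIndex_eq_one.1 e (mem_zpowers σ))
  have a6 := ((Nat.dvd_prime (by norm_num)).1 a4).resolve_left a5
  exact ⟨stabilizer G i, by omega⟩

theorem FIN_move (ψ : G →* Cfsg.Co0) (hψ : Function.Injective ψ) {t u : Cfsg.leechLattice} (hc : Conj t u)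
    (h : ∀ g, ∃ z : Cfsg.leechLattice, ψ g • t = t + (z + z)) :
    ∃ ψ' : G →* Cfsg.Co0, Function.Injective ψ' ∧ ∀ g, ∃ z : Cfsg.leechLattice, ψ' g • u = u + (z + z) := by
  obtain ⟨c, rfl⟩ := hc
  refine ⟨(MulAut.conj c).toMonoidHom.comp ψ, (MulAut.conj c).injective.comp hψ, fun g => ?_⟩
  obtain ⟨z, hz⟩ := h g
  refine ⟨c • z, ?_⟩
  change (c * ψ g * c⁻¹) • c • t = _
  rw [mul_smul, inv_smul_smul, mul_smul, hz, co0_smul_add, co0_smul_add]

theorem fin (ψ : G →* Cfsg.Co0) (hψ : Function.Injective ψ) {σ : G} (hσ : orderOf σ = 23)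
    (idx : ∀ H : Subgroup G, H.index ≠ 23 ∧ H.index ≠ 24) (t : Cfsg.leechLattice)
    (ht : Cfsg.sqNorm (t : Cfsg.GolayPt → ℤ) = 32 ∨ Cfsg.sqNorm (t : Cfsg.GolayPt → ℤ) = 48 ∨
      Cfsg.sqNorm (t : Cfsg.GolayPt → ℤ) = 64)
    (h : ∀ g, ∃ z : Cfsg.leechLattice, ψ g • t = t + (z + z)) : Concl G := by
  rcases ht with ht | ht | ht
  · have e : Cfsg.sqNorm (Cfsg.Spor.leechU : Cfsg.GolayPt → ℤ) = 32 := by decide +kernel
    obtain ⟨ψ', h1, h2⟩ := FIN_move ψ hψ (trans32 t _ ht e) h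
    exact .inl (FIN_short ψ' h1 _ (by omega) (by omega) h2)
  · have e : Cfsg.sqNorm (Cfsg.Spor.leechV : Cfsg.GolayPt → ℤ) = 48 := by decide +kernel
    obtain ⟨ψ', h1, h2⟩ := FIN_move ψ hψ (trans48 t _ ht e) h
    exact .inr (FIN_short ψ' h1 _ (by omega) (by omega) h2)
  · obtain ⟨ψ', h1, h2⟩ := FIN_move ψ hψ (conj64 t ht) h
    obtain ⟨H, hH⟩ := FIN_long ψ' h1 hσ h2
    exact absurd hH (not_or.2 (idx H))

end Cfsg.Agent.R23
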