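import Cfsg.Agent.R23.Defs
import Cfsg.Agent.H3.SympBasis

set_option autoImplicit false

namespace Cfsg.Agent.R23

open Matrix

variable {G : Type*} [Group G]

theorem fq_num : ∀ q ≤ 19, ∀ k ≤ 11, 2 ≤ q → q ^ k % 23 = 1 → k = 0 ∨ k = 11 ∨ 2 ∣ q ∧ q ≠ 2 ∨
    3 ∣ q ∧ q ≠ 3 := by
  intro q hq k hk h2
  interval_cases q <;> revert k <;> decide

theorem fq_lin {q : ℕ} [hq : Fact q.Prime] (h19 : q ≤ 19) {A : Type*} [AddCommGroup A] [Finite A]
    [Module (ZMod q) A] (s : Module.End (ZMod q) A) (hs' : ∀ x, s^[23] x = x)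
    (β : LinearMap.BilinForm (ZMod q) A)
    (symm : ∀ x y, β x y = β y x) (nd : ∀ x, (∀ y, β x y = 0) → x = 0)
    (inv : ∀ x y, β (s x) (s y) = β x y) (hc : Nat.card A ≤ q ^ 11) : ∀ x, s x = x := by
  classical
  have hs : s ^ 23 = 1 := LinearMap.ext fun x => by rw [Module.End.pow_apply, hs']; rfl
  have := Fintype.ofFinite A
  have q2 := hq.out.two_le
  have c1 : Nat.card A = q ^ Module.finrank (ZMod q) A := by
    rw [Module.natCard_eq_pow_finrank (K := ZMod q), Nat.card_zmod]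
  have c2 : Nat.card (LinearMap.ker (s - 1)) = q ^ Module.finrank (ZMod q) (LinearMap.ker (s - 1)) := by
    rw [Module.natCard_eq_pow_finrank (K := ZMod q), Nat.card_zmod]
  have hk : ∀ x, x ∈ LinearMap.ker (s - 1) ↔ s x = x := fun x => by
    rw [LinearMap.mem_ker, LinearMap.sub_apply, Module.End.one_apply, sub_eq_zero]
  have : Fact (Nat.Prime 23) := ⟨by norm_num⟩
  have md := Equiv.Perm.card_fixedPoints_modEq (α := A) (f := (s : A → A)) (p := 23) (n := 1) (by
    have : (s : A → A)^[23] = id := by rw [← Module.End.coe_pow, hs]; rfl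
    exact this)
  rw [← Nat.card_eq_fintype_card, ← Nat.card_eq_fintype_card, c1,
    show Nat.card (Function.fixedPoints s) = Nat.card (LinearMap.ker (s - 1)) from
      Nat.card_congr (Equiv.subtypeEquivRight fun x => (hk x).symm)] at md
  rw [c2] at md
  have le := Submodule.finrank_le (LinearMap.ker (s - 1))
  have n11 : Module.finrank (ZMod q) A ≤ 11 := by
    rw [c1] at hc
    exact (Nat.pow_le_pow_iff_right (by omega)).1 hc
  obtain ⟨k, hk'⟩ := Nat.exists_eq_add_of_le le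
  rw [hk', pow_add] at md
  have cop : Nat.gcd 23 (q ^ Module.finrank (ZMod q) (LinearMap.ker (s - 1))) = 1 :=
    Nat.Coprime.pow_right _ ((Nat.coprime_primes (by norm_num) hq.out).2 (by omega))
  have md' : q ^ k ≡ 1 [MOD 23] := Nat.ModEq.cancel_left_of_coprime cop (by rwa [mul_one])
  rcases fq_num q h19 k (by omega) q2 md' with rfl | rfl | ⟨h1, h2⟩ | ⟨h1, h2⟩
  · intro x
    have : LinearMap.ker (s - 1) = ⊤ := Submodule.eq_top_of_finrank_eq (by omega)
    exact (hk x).1 (this ▸ Submodule.mem_top)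
  · exfalso
    have k0 : LinearMap.ker (s - 1) = ⊥ := Submodule.finrank_eq_zero.1 (by omega)
    have invp : ∀ (i : ℕ) x y, β ((s ^ i) x) ((s ^ i) y) = β x y := fun i x y => by
      induction i with
      | zero => rfl
      | succ i ih => rw [pow_succ', Module.End.mul_apply, Module.End.mul_apply, inv, ih]
    let a : LinearMap.BilinForm (ZMod q) A := β.compLeft s - β.compRight s
    have ha : ∀ x y, a x y = β (s x) y - β x (s y) := fun _ _ => rfl
    have alt : a.IsAlt := fun x => by rw [ha, symm, sub_self]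
    have sl : ∀ x, (∀ y, a x y = 0) → x = 0 := fun x hx => by
      have e1 : s x - (s ^ 22) x = 0 := nd _ fun y => by
        have e := invp 22 x (s y)
        rw [← Module.End.mul_apply, ← pow_succ, hs, Module.End.one_apply] at e
        rw [map_sub, LinearMap.sub_apply, e, ← ha, hx]
      have e2 : (s ^ 2) x = x := by
        rw [pow_two, Module.End.mul_apply, sub_eq_zero.1 e1, ← Module.End.mul_apply, ← pow_succ', hs,
          Module.End.one_apply]
      have e3 : ∀ i : ℕ, ((s ^ 2) ^ i) x = x := fun i => by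
        induction i with
        | zero => rfl
        | succ i ih => rw [pow_succ, Module.End.mul_apply, e2, ih]
      have e4 := e3 12
      rw [← pow_mul, show 2 * 12 = 23 + 1 from rfl, pow_succ, hs, one_mul] at e4
      exact (Submodule.mem_bot _).1 (k0 ▸ (hk x).2 e4)
    obtain ⟨m, hm⟩ := H3.even_finrank_of_isAlt a alt
      (alt.isRefl.nondegenerate_iff_separatingLeft.2 sl)
    omega
  · exact absurd ((Nat.prime_dvd_prime_iff_eq Nat.prime_two hq.out).1 h1).symm h2
  · exact absurd ((Nat.prime_dvd_prime_iff_eq Nat.prime_three hq.out).1 h1).symm h2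

theorem fq (F : Fm G) {σ : G} (hσ : σ ^ 23 = 1) {q : ℕ} (hq : q.Prime) (h19 : q ≤ 19)
    {L M : Submodule ℤ V} (hLM : L ≤ M) (hL : ∀ x ∈ L, F.r σ x ∈ L) (hM : ∀ x ∈ M, F.r σ x ∈ M)
    (hqM : ∀ x ∈ M, (q : ℚ) • x ∈ L) (hint : ∀ x ∈ L, ∀ y ∈ M, IsI (F.B x y))
    (hnd : ∀ x ∈ M, (∀ y ∈ M, IsI (F.B x y)) → x ∈ L) (h0 : ix L M ≠ 0) (h11 : ix L M ≤ q ^ 11) :
    ∀ x ∈ M, F.r σ x - x ∈ L := by
  have := Fact.mk hq
  have q0 : (q : ℚ) ≠ 0 := Nat.cast_ne_zero.2 hq.ne_zero
  let L' : Submodule ℤ M := L.comap M.subtype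
  have hc : Nat.card (M ⧸ L') = ix L M := rfl
  have : Finite (M ⧸ L') := Nat.finite_of_card_ne_zero (hc ▸ h0)
  have hn : ∀ x y : M, ∃ k : ℤ, (q : ℚ) * F.B x y = k := fun x y => by
    obtain ⟨k, hk⟩ := hint _ (hqM x x.2) y y.2
    exact ⟨k, by rw [← hk, map_smul, LinearMap.smul_apply, smul_eq_mul]⟩
  choose n hn using hn
  have inj : ∀ {a b : ℤ}, (a : ℚ) = b → (a : ZMod q) = b := fun h => by rw [Int.cast_injective h]
  have nsym : ∀ x y, n x y = n y x := fun x y => Int.cast_injective (α := ℚ) (by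
    rw [← hn, ← hn, F.symm])
  have nadd : ∀ x x' y, n (x + x') y = n x y + n x' y := fun x x' y => Int.cast_injective (α := ℚ) (by
    rw [Int.cast_add, ← hn, ← hn, ← hn, Submodule.coe_add, map_add, LinearMap.add_apply, mul_add])
  have nsm' : ∀ (c : ℤ) x y, n (c • x) y = c * n x y := fun c x y => Int.cast_injective (α := ℚ) (by
    rw [Int.cast_mul, ← hn, ← hn, Submodule.coe_smul, map_zsmul, LinearMap.smul_apply, zsmul_eq_mul]
    ring)
  have nz : ∀ x y : M, (n x y : ZMod q) = 0 ↔ IsI (F.B x y) := fun x y => by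
    rw [ZMod.intCast_zmod_eq_zero_iff_dvd]
    constructor
    · rintro ⟨k, hk⟩
      refine ⟨k, mul_left_cancel₀ q0 ?_⟩
      rw [hn, hk]; push_cast; rfl
    · rintro ⟨k, hk⟩
      refine ⟨k, Int.cast_injective (α := ℚ) ?_⟩
      rw [← hn, hk]; push_cast; rfl
  let β0 : M →ₗ[ℤ] M →ₗ[ℤ] ZMod q := LinearMap.mk₂ ℤ (fun x y => (n x y : ZMod q))
    (fun x x' y => by rw [nadd, Int.cast_add])
    (fun c x y => by rw [nsm', Int.cast_mul, zsmul_eq_mul])
    (fun x y y' => by rw [nsym, nadd, Int.cast_add, nsym y, nsym y'])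
    (fun c x y => by rw [nsym, nsm', Int.cast_mul, zsmul_eq_mul, nsym y])
  let β1 : (M ⧸ L') →ₗ[ℤ] (M ⧸ L') →ₗ[ℤ] ZMod q := β0.liftQ₂ L' L'
    (fun x hx => LinearMap.ext fun y => (nz x y).2 (hint _ hx _ y.2))
    (fun x hx => LinearMap.ext fun y => (nz y x).2 (by rw [F.symm]; exact hint _ hx _ y.2))
  have hβ1 : ∀ x y : M, β1 (Submodule.Quotient.mk x) (Submodule.Quotient.mk y) = n x y :=
    fun _ _ => rfl
  let s0 : M →ₗ[ℤ] M := ((F.r σ).restrictScalars ℤ).restrict hM
  let s1 : (M ⧸ L') →ₗ[ℤ] (M ⧸ L') := L'.mapQ L' s0 fun x hx => hL _ hx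
  have hs1 : ∀ x : M, s1 (Submodule.Quotient.mk x) = Submodule.Quotient.mk (s0 x) := fun _ => rfl
  let _ : Module (ZMod q) (M ⧸ L') := AddCommGroup.zmodModule fun x => by
    obtain ⟨x, rfl⟩ := Submodule.Quotient.mk_surjective L' x
    rw [← Submodule.Quotient.mk_smul, Submodule.Quotient.mk_eq_zero]
    have := hqM x x.2
    rwa [Nat.cast_smul_eq_nsmul] at this
  let β : LinearMap.BilinForm (ZMod q) (M ⧸ L') := LinearMap.mk₂ (ZMod q) (fun x y => β1 x y)
    (fun x x' y => by rw [map_add, LinearMap.add_apply])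
    (fun c x y => ZMod.map_smul (β1.flip y) c x) (fun x y y' => map_add _ _ _)
    (fun c x y => ZMod.map_smul (β1 x) c y)
  let s : Module.End (ZMod q) (M ⧸ L') := s1.toAddMonoidHom.toZModLinearMap q
  have sp : ∀ (i : ℕ) (x : M), ∃ y : M, s1^[i] (Submodule.Quotient.mk x) = Submodule.Quotient.mk y ∧
      (y : V) = F.r (σ ^ i) x := fun i x => by
    induction i with
    | zero => exact ⟨x, rfl, by simp⟩
    | succ i ih =>
      obtain ⟨y, h1, h2⟩ := ih
      refine ⟨s0 y, by rw [Function.iterate_succ_apply', h1]; rfl, ?_⟩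
      rw [pow_succ', map_mul, Module.End.mul_apply, ← h2]; rfl
  have key := fq_lin h19 s (fun x => by
      obtain ⟨x, rfl⟩ := Submodule.Quotient.mk_surjective L' x
      obtain ⟨y, h1, h2⟩ := sp 23 x
      rw [hσ, map_one, Module.End.one_apply] at h2
      exact h1.trans (congrArg _ (Subtype.ext h2))) β
    (fun x y => by
      obtain ⟨x, rfl⟩ := Submodule.Quotient.mk_surjective L' x
      obtain ⟨y, rfl⟩ := Submodule.Quotient.mk_surjective L' y
      exact congrArg _ (nsym x y))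
    (fun x hx => by
      obtain ⟨x, rfl⟩ := Submodule.Quotient.mk_surjective L' x
      exact (Submodule.Quotient.mk_eq_zero _).2
        (hnd x x.2 fun y hy => (nz x ⟨y, hy⟩).1 (hx (Submodule.Quotient.mk ⟨y, hy⟩))))
    (fun x y => by
      obtain ⟨x, rfl⟩ := Submodule.Quotient.mk_surjective L' x
      obtain ⟨y, rfl⟩ := Submodule.Quotient.mk_surjective L' y
      refine inj (a := n (s0 x) (s0 y)) (b := n x y) ?_
      rw [← hn, ← hn]
      exact congrArg _ (F.inv σ x y)) (hc ▸ h11)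
  intro x hx
  exact (Submodule.Quotient.eq L').1 (key (Submodule.Quotient.mk ⟨x, hx⟩))

end Cfsg.Agent.R23
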