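import Cfsg.Agent.R23.Defs

/-! Project R23: an invariant form and an invariant integral lattice. -/

set_option autoImplicit false

namespace Cfsg.Agent.R23

open Matrix

variable {G : Type*} [Group G]

theorem Form_den {ι : Type*} [Finite ι] (f : ι → ℚ) : ∃ c : ℚ, 0 < c ∧ ∀ i, IsI (c * f i) := by
  have := Fintype.ofFinite ι
  refine ⟨(∏ i, (f i).den : ℕ), Nat.cast_pos.2 (Finset.prod_pos fun i _ => Rat.den_pos _), fun i => ?_⟩
  obtain ⟨k, hk⟩ := Finset.dvd_prod_of_mem (fun i => (f i).den) (Finset.mem_univ i)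
  refine ⟨k * (f i).num, ?_⟩
  rw [hk]
  push_cast
  rw [← Rat.den_mul_eq_num]
  ring

theorem exists_lat [Finite G] (R : Rp G) : Nonempty (Lat G) := by
  classical
  have := Fintype.ofFinite G
  let B0 : LinearMap.BilinForm ℚ V := LinearMap.mk₂ ℚ (fun x y => ∑ g, R.r g x ⬝ᵥ R.r g y)
    (fun x x' y => by simp only [map_add, add_dotProduct, Finset.sum_add_distrib])
    (fun c x y => by simp only [map_smul, smul_dotProduct, Finset.smul_sum])
    (fun x y y' => by simp only [map_add, dotProduct_add, Finset.sum_add_distrib])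
    (fun c x y => by simp only [map_smul, dotProduct_smul, Finset.smul_sum])
  have hB : ∀ x y, B0 x y = ∑ g, R.r g x ⬝ᵥ R.r g y := fun _ _ => rfl
  let s : G × Fin 23 → V := fun p => R.r p.1 (Pi.single p.2 1)
  obtain ⟨c, c0, c1⟩ := Form_den fun p : (G × Fin 23) × (G × Fin 23) => B0 (s p.1) (s p.2)
  have hc : ∀ p q, IsI ((c • B0) (s p) (s q)) := fun p q => c1 (p, q)
  have hz : ∀ (k : ℤ) (x : V), k • x = (k : ℚ) • x := fun k x => (Int.cast_smul_eq_zsmul ℚ k x).symm
  refine ⟨{ R with
    B := c • B0
    symm := fun x y => ?_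
    pos := fun x hx => ?_
    inv := fun g x y => ?_
    L := Submodule.span ℤ (Set.range s)
    lat := ⟨Submodule.fg_span (Set.finite_range s), ?_⟩
    Linv := fun g x hx => ?_
    int := fun x hx y hy => ?_ }⟩
  · simp only [LinearMap.smul_apply, hB, dotProduct_comm]
  · rw [LinearMap.smul_apply, LinearMap.smul_apply, smul_eq_mul, hB]
    have h1 : ∀ y : V, 0 ≤ y ⬝ᵥ y := fun y => Finset.sum_nonneg fun i _ => mul_self_nonneg _
    refine mul_pos c0 (Finset.sum_pos' (fun g _ => h1 _) ⟨1, Finset.mem_univ _, ?_⟩)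
    rw [map_one, Module.End.one_apply]
    exact (h1 x).lt_of_ne fun e => hx (dotProduct_self_eq_zero.1 e.symm)
  · simp only [LinearMap.smul_apply, hB]
    congr 1
    exact Fintype.sum_equiv (Equiv.mulRight g) _ _ fun k => by
      simp only [Equiv.coe_mulRight, map_mul, Module.End.mul_apply]
  · rw [eq_top_iff, ← (Pi.basisFun ℚ (Fin 23)).span_eq]
    refine Submodule.span_mono ?_
    rintro _ ⟨i, rfl⟩
    exact Submodule.subset_span ⟨(1, i), by simp [s]⟩
  · induction hx using Submodule.span_induction with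
    | mem x hx =>
      obtain ⟨p, rfl⟩ := hx
      exact Submodule.subset_span ⟨(g * p.1, p.2), by simp [s]⟩
    | zero => rw [map_zero]; exact zero_mem _
    | add x y _ _ hx hy => rw [map_add]; exact add_mem hx hy
    | smul k x _ hx => rw [map_zsmul]; exact Submodule.smul_mem _ k hx
  · induction hx using Submodule.span_induction with
    | mem x hx =>
      obtain ⟨p, rfl⟩ := hx
      induction hy using Submodule.span_induction with
      | mem y hy =>
        obtain ⟨q, rfl⟩ := hy
        exact hc p q
      | zero => rw [map_zero]; exact isI_zero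
      | add y y' _ _ hy hy' => rw [map_add]; exact hy.add hy'
      | smul k y _ hy => rw [hz, map_smul, smul_eq_mul]; exact (isI_int k).mul hy
    | zero => rw [map_zero, LinearMap.zero_apply]; exact isI_zero
    | add x x' _ _ hx hx' => rw [map_add, LinearMap.add_apply]; exact hx.add hx'
    | smul k x _ hx => rw [hz, map_smul, LinearMap.smul_apply, smul_eq_mul]; exact (isI_int k).mul hx

end Cfsg.Agent.R23
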