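import Cfsg.Agent.R23.Defs

/-! The glued lattice is even and self-dual. -/

set_option autoImplicit false

namespace Cfsg.Agent.R23

open Matrix

variable {G : Type*} [Group G]

namespace SD

variable {k : ℕ}

theorem tf_add_left (T : Matrix (Fin k) (Fin k) ℤ) (a b c : Fin k → ℚ) : tf T (a + b) c = tf T a c + tf T b c :=
  add_dotProduct _ _ _

theorem tf_add_right (T : Matrix (Fin k) (Fin k) ℤ) (a b c : Fin k → ℚ) : tf T a (b + c) = tf T a b + tf T a c := by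
  rw [tf, mulVec_add, dotProduct_add]; rfl

theorem tf_smul_left (T : Matrix (Fin k) (Fin k) ℤ) (x : ℚ) (a b : Fin k → ℚ) : tf T (x • a) b = x * tf T a b :=
  smul_dotProduct _ _ _

theorem tf_smul_right (T : Matrix (Fin k) (Fin k) ℤ) (x : ℚ) (a b : Fin k → ℚ) : tf T a (x • b) = x * tf T a b := by
  rw [tf, mulVec_smul, dotProduct_smul]; rfl

theorem tf_symm {T : Matrix (Fin k) (Fin k) ℤ} (h : T.IsSymm) (a b : Fin k → ℚ) : tf T a b = tf T b a := by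
  rw [tf, tf, dotProduct_mulVec, ← mulVec_transpose, dotProduct_comm, (h.map _).eq]

theorem isI_dot {a b : Fin k → ℚ} (ha : ∀ i, IsI (a i)) (hb : ∀ i, IsI (b i)) : IsI (a ⬝ᵥ b) :=
  Finset.sum_induction _ IsI (fun _ _ => IsI.add) isI_zero fun i _ => (ha i).mul (hb i)

theorem isI_mulVec (T : Matrix (Fin k) (Fin k) ℤ) {a : Fin k → ℚ} (ha : ∀ i, IsI (a i)) (i : Fin k) :
    IsI ((T.map (Int.cast : ℤ → ℚ) *ᵥ a) i) :=
  isI_dot (fun _ => isI_int _) ha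

theorem dvd_of {d : ℕ} (hd : ¬ 23 ∣ d) {m : ℤ} (h : IsI (m * (d / 23))) : (23 : ℤ) ∣ m := by
  obtain ⟨n, hn⟩ := h
  have h1 : (m : ℚ) * d = 23 * n := by rw [← hn]; ring
  have h2 : m * (d : ℤ) = 23 * n := by exact_mod_cast h1
  have h3 : Prime (23 : ℤ) := Int.prime_iff_natAbs_prime.2 (by norm_num)
  exact (h3.dvd_or_dvd ⟨n, h2⟩).resolve_right fun h4 => hd (by exact_mod_cast h4)

theorem mem_of {C : Core G} {m : ℤ} (hm : (23 : ℤ) ∣ m) : (m : ℚ) • C.y₁ ∈ C.L := by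
  obtain ⟨c, rfl⟩ := hm
  have := zsm c C.y23
  rwa [smul_smul, mul_comm, show (23 : ℚ) * c = ((23 * c : ℤ) : ℚ) by push_cast; rfl] at this

theorem isI_of {d : ℕ} (P : Pt k d) {m : ℤ} (hm : (23 : ℤ) ∣ m) (i : Fin k) : IsI (m * P.t i) := by
  obtain ⟨c, rfl⟩ := hm
  have := (isI_int c).mul (P.t23 i)
  rwa [← mul_assoc, mul_comm (c : ℚ), show (23 : ℚ) * c = ((23 * c : ℤ) : ℚ) by push_cast; rfl] at this

/-- normal form of an element of the glued lattice -/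
theorem nf (C : Core G) (P : Pt k C.d) {u : V × (Fin k → ℚ)} (hu : u ∈ C.N P) :
    ∃ (m : ℤ) (l : V) (s : Fin k → ℚ), l ∈ C.L ∧ C.B l C.w = 0 ∧ (∀ i, IsI (s i)) ∧
      u = (l + (m : ℚ) • C.y₁, s + (m : ℚ) • P.t) := by
  obtain ⟨h0, m, h1, h2⟩ := hu
  refine ⟨m, _, u.2 - (m : ℚ) • P.t, h1, by simp [h0, C.By], h2, by simp⟩

end SD

open SD

theorem β_symm (C : Core G) {k : ℕ} (P : Pt k C.d) (u u' : V × (Fin k → ℚ)) :
    C.β P u u' = C.β P u' u := by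
  rw [Core.β, Core.β, C.symm, tf_symm P.symm]

theorem β_pos (C : Core G) {k : ℕ} (P : Pt k C.d) {u : V × (Fin k → ℚ)} (hu : u ≠ 0) :
    0 < C.β P u u := by
  by_cases h : u.2 = 0
  · have h1 : u.1 ≠ 0 := fun h1 => hu (Prod.ext h1 h)
    have := C.pos _ h1
    simpa [Core.β, tf, h] using this
  · exact add_pos_of_nonneg_of_pos (C.toFm.nonneg _) (P.pos _ h)

theorem dvd_of_t {k d : ℕ} (P : Pt k d) (hd : ¬ 23 ∣ d) {m : ℤ} (h : ∀ i, IsI (m * P.t i)) :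
    (23 : ℤ) ∣ m := by
  have h1 : IsI (tf P.T ((m : ℚ) • P.t) P.t) := isI_dot h P.dualm
  rw [tf_smul_left] at h1
  refine dvd_of hd ?_
  convert h1.sub ((isI_int m).mul P.nrm.isI) using 1
  ring

theorem N_inl (C : Core G) {k : ℕ} (P : Pt k C.d) {l : V} :
    (l, (0 : Fin k → ℚ)) ∈ C.N P ↔ l ∈ C.L ∧ C.B l C.w = 0 := by
  refine ⟨fun ⟨h0, m, h1, h2⟩ => ⟨?_, h0⟩, fun h => ⟨h.2, 0, by simpa using h.1, fun i => by simpa using isI_zero⟩⟩
  have h3 : (23 : ℤ) ∣ m := dvd_of_t P C.d23 fun i => by simpa using (h2 i).neg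
  simpa using C.L.add_mem h1 (mem_of h3)

theorem N_inr (C : Core G) {k : ℕ} (P : Pt k C.d) {s : Fin k → ℚ} :
    ((0 : V), s) ∈ C.N P ↔ ∀ i, IsI (s i) := by
  refine ⟨fun ⟨_, m, h1, h2⟩ i => ?_, fun h => ⟨by simp, 0, by simp, fun i => by simpa using h i⟩⟩
  have h3 : (23 : ℤ) ∣ m := by
    refine dvd_of C.d23 ?_
    convert (C.int _ h1 _ C.x_mem).add ((isI_int m).mul (C.int _ C.x_mem _ C.x_mem)) using 1
    simp only [Core.y₁, map_sub, map_smul, LinearMap.sub_apply, LinearMap.smul_apply, C.symm C.w C.x₁, C.Bxw,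
      smul_eq_mul, map_zero, LinearMap.zero_apply]
    ring
  simpa using (h2 i).add (isI_of P h3 i)

theorem N_T (C : Core G) {k : ℕ} (P : Pt k C.d) {u : V × (Fin k → ℚ)} (hu : u ∈ C.N P) (i : Fin k) :
    IsI ((P.T.map (Int.cast : ℤ → ℚ) *ᵥ u.2) i) := by
  obtain ⟨m, l, s, -, -, hs, rfl⟩ := nf C P hu
  rw [mulVec_add, mulVec_smul]
  exact (isI_mulVec P.T hs i).add ((isI_int m).mul (P.dualm i))

theorem N_even (C : Core G) {k : ℕ} (P : Pt k C.d) {u : V × (Fin k → ℚ)} (hu : u ∈ C.N P) :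
    IsE (C.β P u u) := by
  obtain ⟨m, l, s, hl, hw, hs, rfl⟩ := nf C P hu
  obtain ⟨a1, h1⟩ := C.even l hl
  obtain ⟨a2, h2⟩ := C.By_int hl hw
  obtain ⟨a3, h3⟩ := C.Byy
  obtain ⟨a4, h4⟩ := P.even s hs
  obtain ⟨a5, h5⟩ : IsI (tf P.T s P.t) := isI_dot hs P.dualm
  obtain ⟨a6, h6⟩ := P.nrm
  refine ⟨a1 + m * a2 + m ^ 2 * (a3 + a6) + a4 + m * a5, ?_⟩
  simp only [Core.β, tf_add_left, tf_add_right, tf_smul_left, tf_smul_right, map_add, map_smul, LinearMap.add_apply,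
    LinearMap.smul_apply, smul_eq_mul, tf_symm P.symm P.t s, C.symm l C.y₁, h1, h2, h4, h5]
  push_cast
  linear_combination (m : ℚ) ^ 2 * (h3 + h6)

theorem N_int (C : Core G) {k : ℕ} (P : Pt k C.d) {u u' : V × (Fin k → ℚ)} (hu : u ∈ C.N P)
    (hu' : u' ∈ C.N P) : IsI (C.β P u u') := by
  obtain ⟨a, ha⟩ := N_even C P hu
  obtain ⟨b, hb⟩ := N_even C P hu'
  obtain ⟨c, hc⟩ := N_even C P ((C.N P).add_mem hu hu')
  refine ⟨c - a - b, ?_⟩
  have h1 := β_symm C P u u'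
  simp only [Core.β, Prod.fst_add, Prod.snd_add, tf_add_left, tf_add_right, map_add, LinearMap.add_apply] at *
  push_cast
  linarith

theorem N_self (C : Core G) {k : ℕ} (P : Pt k C.d) {u : V × (Fin k → ℚ)}
    (h0 : C.B u.1 C.w = 0) (h : ∀ u' ∈ C.N P, IsI (C.β P u u')) : u ∈ C.N P := by
  obtain ⟨m, hm⟩ := C.dual u.1 h0 fun l hl hw => by
    simpa [Core.β, tf] using h (l, 0) ((N_inl C P).2 ⟨hl, hw⟩)
  obtain ⟨n, hn⟩ := P.gen u.2 fun i => by
    have h1 := h (0, Pi.single i 1) ((N_inr C P).2 fun j => by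
      rw [Pi.single_apply]
      split_ifs
      exacts [⟨1, by simp⟩, isI_zero])
    rw [Core.β, tf_symm P.symm] at h1
    simpa [tf] using h1
  replace hm : u.1 - (m : ℚ) • C.y₁ ∈ C.L := hm
  have hy : (C.y₁, P.t) ∈ C.N P := ⟨C.By, 1, by simp, fun i => by simpa using isI_zero⟩
  have h1 := h _ hy
  have h2 := C.By_int hm (by simp [h0, C.By])
  have h3 : IsI (tf P.T (u.2 + (-n : ℚ) • P.t) P.t) :=
    isI_dot (fun i => by simpa [sub_eq_add_neg] using hn i) P.dualm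
  have h4 : (23 : ℤ) ∣ n - m := by
    refine dvd_of C.d23 ?_
    convert (((h1.sub h2).sub h3).sub ((isI_int m).mul C.Byy.isI)).sub ((isI_int n).mul P.nrm.isI) using 1
    simp only [Core.β, tf_add_left, tf_smul_left, map_sub, map_smul, smul_eq_mul, C.symm u.1 C.y₁]
    push_cast
    ring
  refine ⟨h0, m, hm, fun i => ?_⟩
  convert (hn i).add (isI_of P h4 i) using 1
  push_cast
  ring

end Cfsg.Agent.R23
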