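import Cfsg.Agent.R23.Gram
import Cfsg.Agent.R23.SD
import Cfsg.Agent.R23.Dual

/-! Project R23: the glued lattice is unimodular. -/

set_option autoImplicit false

namespace Cfsg.Agent.R23

open Matrix

variable {G : Type*} [Group G]

theorem glue_fg (C : Core G) {k : ℕ} (P : Pt k C.d) : (C.N P).FG := by
  let f : (V × (Fin k → ℚ)) →ₗ[ℤ] (V × (Fin k → ℚ)) :=
    ((23 : ℚ) • LinearMap.id : (V × (Fin k → ℚ)) →ₗ[ℚ] (V × (Fin k → ℚ))).restrictScalars ℤ
  have hf : Function.Injective f := smul_right_injective _ (by norm_num : (23 : ℚ) ≠ 0)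
  let g : (Fin k → ℤ) →ₗ[ℤ] (Fin k → ℚ) := (Algebra.linearMap ℤ ℚ).compLeft (Fin k)
  have hg : (LinearMap.range g).FG := by
    rw [LinearMap.range_eq_map]
    exact Module.Finite.fg_top.map g
  have h1 : ((C.N P).toIntSubmodule.map f).FG := by
    refine (C.lat.fg.prod hg).of_le ?_
    rintro _ ⟨u, ⟨-, m, hm, hm'⟩, rfl⟩
    refine ⟨?_, ?_⟩
    · have h2 := C.L.add_mem (nsm 23 hm) (zsm m C.y23)
      rw [smul_sub, smul_comm (m : ℚ), Nat.cast_ofNat, sub_add_cancel] at h2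
      exact h2
    · have h2 : ∀ i, IsI (23 * u.2 i) := fun i => by
        convert ((isI_nat 23).mul (hm' i)).add ((isI_int m).mul (P.t23 i)) using 1
        push_cast
        ring
      choose z hz using h2
      exact ⟨z, funext fun i => (hz i).symm⟩
  exact (Submodule.fg_iff_addSubgroup_fg _).1 (Submodule.fg_of_fg_map_injective f hf h1)

theorem glue_den {k : ℕ} (s : Fin k → ℚ) : ∃ c : ℕ, 0 < c ∧ ∀ i, IsI (c * s i) := by
  refine ⟨∏ i, (s i).den, Finset.prod_pos fun i _ => (s i).den_pos, fun i => ?_⟩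
  obtain ⟨c, hc⟩ := Finset.dvd_prod_of_mem (fun i => (s i).den) (Finset.mem_univ i)
  refine ⟨c * (s i).num, ?_⟩
  rw [hc]
  push_cast
  rw [← Rat.den_mul_eq_num]
  ring

theorem glue (C : Core G) {k : ℕ} (P : Pt k C.d) {n : ℕ} (hn : n = 22 + k) :
    ∃ (A : Matrix (Fin n) (Fin n) ℤ) (e : (Fin n → ℤ) ≃+ C.N P), A.IsSymm ∧ A.det = 1 ∧
      ∀ x, ((x ⬝ᵥ (A *ᵥ x) : ℤ) : ℚ) = C.β P (e x) (e x) := by
  let b : LinearMap.BilinForm ℚ (V × (Fin k → ℚ)) :=
    C.B.compl₁₂ (LinearMap.fst ℚ _ _) (LinearMap.fst ℚ _ _) +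
      (Matrix.toBilin' (P.T.map (Int.cast : ℤ → ℚ))).compl₁₂ (LinearMap.snd ℚ _ _) (LinearMap.snd ℚ _ _)
  have hb : ∀ u u', b u u' = C.β P u u' := fun u u' => by
    simp only [b, LinearMap.add_apply, LinearMap.compl₁₂_apply, Matrix.toBilin'_apply']
    rfl
  let φ : (V × (Fin k → ℚ)) →ₗ[ℚ] ℚ := (C.B.flip C.w).comp (LinearMap.fst ℚ _ _)
  have hφ : ∀ u, u ∈ LinearMap.ker φ ↔ C.B u.1 C.w = 0 := fun u => Iff.rfl
  have h0 : φ ≠ 0 := fun h => by
    have h1 : C.B C.w C.w = 0 := LinearMap.congr_fun h (C.w, 0)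
    exact C.w_ne (C.toFm.eq_zero h1)
  have hr : Module.finrank ℚ (LinearMap.ker φ) = n := by
    have h1 := Module.Dual.finrank_ker_add_one_of_ne_zero h0
    rw [Module.finrank_prod, Module.finrank_fin_fun, Module.finrank_fin_fun] at h1
    omega
  obtain ⟨A, e, h1, h2, h3⟩ := gram b (fun x y => by rw [hb, hb, β_symm])
    (fun x hx => by rw [hb]; exact β_pos C P hx) _ hr (C.N P) (glue_fg C P) (fun x hx => hx.1)
    (fun x hx => by
      obtain ⟨c, hc, hL⟩ := exists_exp C.lat (Submodule.fg_span_singleton (R := ℤ) x.1)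
      obtain ⟨c', hc', hI⟩ := glue_den x.2
      refine ⟨c' * c, Nat.mul_pos hc' hc, ?_⟩
      have h4 : ((c' * c : ℕ) : ℚ) • x =
          (((c' * c : ℕ) : ℚ) • x.1, 0) + (0, ((c' * c : ℕ) : ℚ) • x.2) :=
        Prod.ext (add_zero _).symm (zero_add _).symm
      rw [h4]
      refine add_mem ((N_inl C P).2 ⟨?_, ?_⟩) ((N_inr C P).2 fun i => ?_)
      · rw [Nat.cast_mul, mul_smul]
        exact nsm c' (hL _ (Submodule.mem_span_singleton_self _))
      · rw [map_smul, LinearMap.smul_apply, (hφ x).1 hx, smul_zero]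
      · convert (isI_nat c).mul (hI i) using 1
        rw [Pi.smul_apply, smul_eq_mul]
        push_cast
        ring)
    (fun x hx y hy => by rw [hb]; exact N_int C P hx hy)
    (fun x hx h => N_self C P hx fun y hy => by rw [← hb]; exact h y hy)
  exact ⟨A, e, h1, h2, fun x => by rw [h3, hb]⟩

end Cfsg.Agent.R23
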