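import Cfsg.Agent.R23.Defs
import Cfsg.Agent.H85.Theta

set_option autoImplicit false

namespace Cfsg.Agent.R23

open Matrix

variable {G : Type*} [Group G]

theorem Gram_basis {U : Type} [AddCommGroup U] [Module ℚ U] (U₀ : Submodule ℚ U) {n : ℕ}
    (hn : Module.finrank ℚ U₀ = n) (N : AddSubgroup U) (hfg : N.FG) (hsub : ∀ x ∈ N, x ∈ U₀)
    (hsp : ∀ x ∈ U₀, ∃ c : ℕ, 0 < c ∧ (c : ℚ) • x ∈ N) : Nonempty (Module.Basis (Fin n) ℤ N) := by
  have : Module.Finite ℤ N := Module.Finite.iff_addGroup_fg.2 ((AddGroup.fg_iff_addSubgroup_fg N).2 hfg)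
  have : IsAddTorsionFree U := .of_module_rat U
  let b := Module.Free.chooseBasis ℤ N
  have li : LinearIndependent ℚ fun i => (b i : U) := (LinearIndependent.iff_fractionRing ℤ ℚ).1
    (b.linearIndependent.map' N.subtype.toIntLinearMap (LinearMap.ker_eq_bot.2 N.subtype_injective))
  have sp : Submodule.span ℚ (Set.range fun i => (b i : U)) = U₀ := by
    refine le_antisymm (Submodule.span_le.2 ?_) fun x hx => ?_
    · rintro _ ⟨i, rfl⟩
      exact hsub _ (b i).2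
    · obtain ⟨c, hc, h⟩ := hsp x hx
      rw [← Submodule.smul_mem_iff _ (Nat.cast_ne_zero.2 hc.ne' : (c : ℚ) ≠ 0),
        show (c : ℚ) • x = ((∑ i, b.repr ⟨_, h⟩ i • b i : N) : U) from (congrArg Subtype.val (b.sum_repr ⟨_, h⟩)).symm,
        AddSubgroup.val_finsetSum]
      refine Submodule.sum_mem _ fun i _ => ?_
      rw [AddSubgroup.coe_zsmul]
      exact zsmul_mem (Submodule.subset_span (Set.mem_range_self i)) _
  exact ⟨b.reindex (Fintype.equivFinOfCardEq (by rw [← finrank_span_eq_card li, sp, hn]))⟩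

theorem gram {U : Type} [AddCommGroup U] [Module ℚ U] [FiniteDimensional ℚ U]
    (β : LinearMap.BilinForm ℚ U) (hs : ∀ x y, β x y = β y x) (hp : ∀ x, x ≠ 0 → 0 < β x x)
    (U₀ : Submodule ℚ U) {n : ℕ} (hn : Module.finrank ℚ U₀ = n) (N : AddSubgroup U) (hfg : N.FG)
    (hsub : ∀ x ∈ N, x ∈ U₀) (hsp : ∀ x ∈ U₀, ∃ c : ℕ, 0 < c ∧ (c : ℚ) • x ∈ N)
    (hint : ∀ x ∈ N, ∀ y ∈ N, IsI (β x y))
    (hself : ∀ x ∈ U₀, (∀ y ∈ N, IsI (β x y)) → x ∈ N) :
    ∃ (A : Matrix (Fin n) (Fin n) ℤ) (e : (Fin n → ℤ) ≃+ N), A.IsSymm ∧ A.det = 1 ∧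
      ∀ x, ((x ⬝ᵥ (A *ᵥ x) : ℤ) : ℚ) = β (e x) (e x) := by
  obtain ⟨b⟩ := Gram_basis U₀ hn N hfg hsub hsp
  choose A hA using fun i j => hint _ (b i).2 _ (b j).2
  let e : (Fin n → ℤ) ≃+ N := b.equivFun.symm.toAddEquiv
  have he : ∀ x, (e x : U) = ∑ i, (x i : ℚ) • (b i : U) := fun x => by
    rw [show e x = ∑ i, x i • b i from b.equivFun_symm_apply x, AddSubgroup.val_finsetSum]
    exact Finset.sum_congr rfl fun i _ => by rw [AddSubgroup.coe_zsmul, Int.cast_smul_eq_zsmul]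
  have h0 : ∀ (x : Fin n → ℤ) (y : U), β (e x) y = ∑ i, x i * β (b i) y := fun x y => by
    rw [he, map_sum β, LinearMap.sum_apply]
    simp only [map_smul, LinearMap.smul_apply, smul_eq_mul]
  have h1 : ∀ (u : Fin n → ℚ) (i : Fin n), β (b i) (∑ j, u j • (b j : U)) =
      ((Matrix.of A).map (Int.cast : ℤ → ℚ) *ᵥ u) i := fun u i => by
    simp only [map_sum, map_smul, hA, smul_eq_mul, mulVec, dotProduct, map_apply, of_apply, mul_comm]
  have h2 : ∀ (x : Fin n → ℤ) (i : Fin n), β (b i) (e x) = ((Matrix.of A *ᵥ x) i : ℤ) := fun x i => by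
    rw [he, h1]
    simp [mulVec, dotProduct]
  have h3 : ∀ x, ((x ⬝ᵥ (Matrix.of A *ᵥ x) : ℤ) : ℚ) = β (e x) (e x) := fun x => by
    simp only [h0, h2, dotProduct, Int.cast_sum, Int.cast_mul]
  have sy : (Matrix.of A).IsSymm := Matrix.IsSymm.ext fun i j => Int.cast_injective (α := ℚ) (by
    rw [of_apply, of_apply, ← hA, ← hA, hs])
  have pos : 0 < (Matrix.of A).det := by
    obtain ⟨P, d, hP, hd, hD⟩ := H85.exists_diag _ sy fun x hx => by
      have := hp (e x) fun k => hx (e.injective (Subtype.ext (k.trans (by rw [map_zero]; rfl))))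
      rw [← h3] at this
      exact_mod_cast this
    have := congrArg det hD
    rw [det_mul, det_mul, det_transpose, det_diagonal, mul_right_comm] at this
    exact pos_of_mul_pos_right (this ▸ Finset.prod_pos fun i _ => hd i) (mul_self_nonneg P.det)
  have hu : IsUnit ((Matrix.of A).map (Int.cast : ℤ → ℚ)).det := by
    rw [show (Matrix.of A).map Int.cast = (Int.castRingHom ℚ).mapMatrix (Matrix.of A) from rfl, ← RingHom.map_det]
    exact (Int.cast_ne_zero.2 pos.ne').isUnit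
  have ex : ∀ i, ∃ c : Fin n → ℤ, Matrix.of A *ᵥ c = Pi.single i 1 := fun i => by
    let u := ((Matrix.of A).map (Int.cast : ℤ → ℚ))⁻¹ *ᵥ Pi.single i 1
    have k : ∀ l, β (b l) (∑ j, u j • (b j : U)) = (Pi.single i 1 : Fin n → ℤ) l := fun l => by
      rw [h1, mulVec_mulVec, mul_nonsing_inv _ hu, one_mulVec]
      by_cases h : l = i <;> simp [h]
    obtain ⟨c, hc⟩ := e.surjective ⟨_, hself (∑ j, u j • (b j : U))
      (U₀.sum_mem fun j _ => U₀.smul_mem _ (hsub _ (b j).2)) fun y hy => by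
        obtain ⟨x, hx⟩ := e.surjective ⟨y, hy⟩
        rw [hs, ← show (e x : U) = y from congrArg Subtype.val hx, h0]
        exact ⟨∑ l, x l * (Pi.single i 1 : Fin n → ℤ) l, by simp only [k, Int.cast_sum, Int.cast_mul]⟩⟩
    exact ⟨c, funext fun l => Int.cast_injective (α := ℚ) (by rw [← h2, hc, k])⟩
  choose C hC using ex
  have hm : Matrix.of A * (Matrix.of C)ᵀ = 1 := Matrix.ext fun i j => by
    rw [one_apply, ← Pi.single_apply j 1 i, ← hC j]
    rfl
  have := congrArg det hm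
  rw [det_mul, det_one] at this
  exact ⟨Matrix.of A, e, sy, Int.eq_one_of_mul_eq_one_right pos.le this, h3⟩

end Cfsg.Agent.R23
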