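import Cfsg.Agent.R23.Dual

/-! Project R23: an invariant lattice of minimal discriminant. -/

set_option autoImplicit false

namespace Cfsg.Agent.R23

open Matrix

variable {G : Type*} [Group G]

namespace Min1

theorem ix_mul {A B C : Submodule ℤ V} (h : A ≤ B) (h' : B ≤ C) : ix A B * ix B C = ix A C :=
  AddSubgroup.relIndex_mul_relIndex _ _ _ h h'

theorem ix_sup {A B I S : Submodule ℤ V} (hI : ∀ x, x ∈ I ↔ x ∈ A ∧ x ∈ B)
    (hS : ∀ x, x ∈ S ↔ ∃ a ∈ A, ∃ b ∈ B, a + b = x) : ix B S = ix I A := by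
  have e1 : I.toAddSubgroup = A.toAddSubgroup ⊓ B.toAddSubgroup := AddSubgroup.ext hI
  have e2 : S.toAddSubgroup = A.toAddSubgroup ⊔ B.toAddSubgroup :=
    AddSubgroup.ext fun x => by rw [AddSubgroup.mem_sup]; exact hS x
  rw [ix, ix, e1, e2, AddSubgroup.relIndex_sup_right, AddSubgroup.inf_relIndex_left]

theorem ix_smul {c : ℚ} (hc : c ≠ 0) (A B : Submodule ℤ V) : ix (sm c A) (sm c B) = ix A B := by
  have e : ∀ A : Submodule ℤ V, (sm c A).toAddSubgroup = A.toAddSubgroup.map (DistribSMul.toAddMonoidHom V c) :=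
    fun A => AddSubgroup.ext fun x => by rw [AddSubgroup.mem_map]; exact mem_sm
  rw [ix, ix, e, e, AddSubgroup.relIndex_map_map_of_injective _ _ (smul_right_injective V hc)]

theorem sm_one (A : Submodule ℤ V) : sm 1 A = A := by
  ext x; simp [mem_sm]

theorem sm_dl {c : ℚ} (hc : c ≠ 0) (B : LinearMap.BilinForm ℚ V) (M : Submodule ℤ V) :
    sm c (dl (c • B) M) = dl B M := by
  ext x
  rw [mem_sm]
  constructor
  · rintro ⟨y, hy, rfl⟩ z hz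
    simpa using hy z hz
  · refine fun h => ⟨c⁻¹ • x, fun z hz => ?_, by rw [smul_smul, mul_inv_cancel₀ hc, one_smul]⟩
    rw [LinearMap.smul_apply, map_smul, smul_smul, mul_inv_cancel₀ hc, one_smul]
    exact h z hz

theorem dl_anti {B : LinearMap.BilinForm ℚ V} {L M : Submodule ℤ V} (h : L ≤ M) : dl B M ≤ dl B L :=
  fun _ hx y hy => hx y (h hy)

variable (Λ : Lat G)

theorem le_dl : Λ.L ≤ dl Λ.B Λ.L := fun x hx y hy => Λ.int x hx y hy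

theorem mem_M {n : ℕ} {x : V} : x ∈ Λ.M n ↔ ∃ l ∈ Λ.L, ∃ y ∈ dl Λ.B Λ.L, l + (n : ℚ) • y = x := by
  rw [Lat.M, Submodule.mem_sup]
  exact ⟨fun ⟨l, hl, _, hz, e⟩ => let ⟨y, hy, e'⟩ := mem_sm.1 hz; ⟨l, hl, y, hy, e' ▸ e⟩,
    fun ⟨l, hl, y, hy, e⟩ => ⟨l, hl, _, mem_sm.2 ⟨y, hy, rfl⟩, e⟩⟩

theorem le_M (n : ℕ) : Λ.L ≤ Λ.M n := le_sup_left

theorem sm_M (n : ℕ) {y : V} (hy : y ∈ dl Λ.B Λ.L) : (n : ℚ) • y ∈ Λ.M n :=
  (mem_M Λ).2 ⟨0, zero_mem _, y, hy, zero_add _⟩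

theorem M_le (n : ℕ) : Λ.M n ≤ dl Λ.B Λ.L := fun x hx => by
  obtain ⟨l, hl, y, hy, rfl⟩ := (mem_M Λ).1 hx
  exact add_mem (le_dl Λ hl) (nsm n hy)

theorem M_lat (n : ℕ) : IsLat (Λ.M n) :=
  ⟨Λ.lat.fg.sup ((dl_lat Λ.toFm Λ.lat).fg.map _),
    top_unique (Λ.lat.span.ge.trans (Submodule.span_mono (le_M Λ n)))⟩

theorem M_inv (n : ℕ) (g : G) : ∀ x ∈ Λ.M n, Λ.r g x ∈ Λ.M n := fun x hx => by
  obtain ⟨l, hl, y, hy, rfl⟩ := (mem_M Λ).1 hx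
  exact (mem_M Λ).2 ⟨_, Λ.Linv g l hl, _, Λ.dl_inv g hy, by rw [map_add, map_smul]⟩

theorem M_int {n c k e : ℕ} (he : ∀ x ∈ dl Λ.B Λ.L, (e : ℚ) • x ∈ Λ.L) (h : c * n * n = k * e) :
    ∀ x ∈ Λ.M n, ∀ y ∈ Λ.M n, IsI (c * Λ.B x y) := fun x hx y hy => by
  obtain ⟨l, hl, x, hx', rfl⟩ := (mem_M Λ).1 hx
  obtain ⟨l', hl', y, hy', rfl⟩ := (mem_M Λ).1 hy
  have e1 : (c : ℚ) * n * n = k * e := by exact_mod_cast h
  have := (((isI_nat c).mul (M_le Λ n hy l hl)).add ((isI_nat (c * n)).mul (hx' l' hl'))).add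
    ((isI_nat k).mul (hx' _ (he y hy')))
  convert this using 1
  rw [Λ.symm _ l]
  simp only [map_add, map_smul, LinearMap.add_apply, LinearMap.smul_apply, smul_eq_mul, Nat.cast_mul]
  linear_combination Λ.B x y * e1

/-- a rescaled form with a new lattice -/
def mk (c : ℚ) (hc : 0 < c) (M : Submodule ℤ V) (lat : IsLat M) (inv : ∀ g, ∀ x ∈ M, Λ.r g x ∈ M)
    (int : ∀ x ∈ M, ∀ y ∈ M, IsI (c * Λ.B x y)) : Lat G where
  toRp := Λ.toRp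
  B := c • Λ.B
  symm x y := by simp [Λ.symm x y]
  pos x hx := mul_pos hc (Λ.pos x hx)
  inv g x y := by simp [Λ.inv g x y]
  L := M
  lat := lat
  Linv := inv
  int := int

end Min1

open Min1

theorem min1 (Λ₀ : Lat G) : ∃ (Λ : Lat G) (e : ℕ), Squarefree e ∧
    (∀ x ∈ dl Λ.B Λ.L, (e : ℚ) • x ∈ Λ.L) ∧
    ∀ q : ℕ, q.Prime → q ∣ e → ¬ Λ.M (e / q) ≤ Λ.L ∧ ix Λ.L (Λ.M (e / q)) ≤ q ^ 11 := by
  classical
  have ex : ∃ n, ∃ Λ : Lat G, ix Λ.L (dl Λ.B Λ.L) = n := ⟨_, Λ₀, rfl⟩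
  obtain ⟨Λ, hΛ⟩ := Nat.find_spec ex
  have hmin : ∀ {n c k e : ℕ}, 0 < c → (∀ x ∈ dl Λ.B Λ.L, (e : ℚ) • x ∈ Λ.L) → c * n * n = k * e →
      ix Λ.L (dl Λ.B Λ.L) ≤ ix (sm c (Λ.M n)) (dl Λ.B (Λ.M n)) := fun {n c k e} hc he h => by
    have c0 : (0 : ℚ) < c := by exact_mod_cast hc
    rw [hΛ, ← sm_dl c0.ne', ix_smul c0.ne']
    exact Nat.find_min' ex ⟨mk Λ c c0 _ (M_lat Λ n) (M_inv Λ n) (M_int Λ he h), rfl⟩
  have fg := (dl_lat Λ.toFm Λ.lat).fg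
  have i0 := ix_ne Λ.lat fg
  have ex' := exists_exp Λ.lat fg
  obtain ⟨e0, he⟩ := Nat.find_spec ex'
  set e := Nat.find ex' with ee
  have nle : ∀ q : ℕ, q.Prime → q ∣ e → ¬ Λ.M (e / q) ≤ Λ.L := fun q hq hd h =>
    Nat.find_min ex' (Nat.div_lt_self e0 hq.one_lt)
      ⟨Nat.div_pos (Nat.le_of_dvd e0 hd) hq.pos, fun x hx => h (sm_M Λ _ hx)⟩
  have nsq : ∀ q : ℕ, q.Prime → ¬ q * q ∣ e := by
    rintro q hq ⟨k, hk⟩
    have en : e / q = q * k := by rw [hk, mul_assoc, Nat.mul_div_cancel_left _ hq.pos]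
    have eq : 1 * (e / q) * (e / q) = k * e := by rw [en, hk]; ring
    have h1 := hmin one_pos he eq
    have h2 : Λ.M (e / q) ≤ dl Λ.B (Λ.M (e / q)) := fun x hx y hy => by
      simpa using M_int Λ he eq x hx y hy
    rw [Nat.cast_one, sm_one] at h1
    rw [← ix_mul (le_M Λ (e / q)) (M_le Λ _), ← ix_mul h2 (dl_anti (le_M Λ _))] at h1 i0
    have a1 : ix Λ.L (Λ.M (e / q)) ≠ 1 := fun h =>
      nle q hq ⟨q * k, by rw [hk, mul_assoc]⟩ (AddSubgroup.relIndex_eq_one.1 h)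
    obtain ⟨a0, b0, c0⟩ : _ ∧ _ ∧ _ := by simpa only [ne_eq, mul_eq_zero, not_or] using i0
    have a2 : 2 ≤ ix Λ.L (Λ.M (e / q)) := by omega
    nlinarith [Nat.mul_le_mul a2 (Nat.le_mul_of_pos_right _ (Nat.pos_of_ne_zero c0) :
      ix (Λ.M (e / q)) (dl Λ.B (Λ.M (e / q))) ≤ _), Nat.pos_of_ne_zero b0]
  refine ⟨Λ, e, Nat.squarefree_iff_prime_squarefree.2 nsq, he, fun q hq hd => ⟨nle q hq hd, ?_⟩⟩
  obtain ⟨n, hn⟩ := hd
  have en : e / q = n := by rw [hn, Nat.mul_div_cancel_left _ hq.pos]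
  rw [en]
  have e1 : (e : ℚ) = q * n := by exact_mod_cast hn
  obtain ⟨u, v, huv⟩ : IsCoprime (q : ℤ) (n : ℤ) := Nat.isCoprime_iff_coprime.2
    ((Nat.Prime.coprime_iff_not_dvd hq).2 fun h => nsq q hq (hn ▸ Nat.mul_dvd_mul_left q h))
  have dec : ∀ x : V, (v : ℚ) • (n : ℚ) • x + (u : ℚ) • (q : ℚ) • x = x := fun x => by
    have : (u : ℚ) * q + v * n = 1 := by exact_mod_cast huv
    rw [smul_smul, smul_smul, ← add_smul, add_comm, this, one_smul]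
  have qM : ∀ x ∈ Λ.M n, (q : ℚ) • x ∈ Λ.L := fun x hx => by
    obtain ⟨l, hl, y, hy, rfl⟩ := (mem_M Λ).1 hx
    rw [smul_add, smul_smul, ← e1]
    exact add_mem (nsm q hl) (he y hy)
  have qle : sm q (Λ.M n) ≤ Λ.L := fun x hx => by
    obtain ⟨y, hy, rfl⟩ := mem_sm.1 hx
    exact qM y hy
  have Ld : Λ.L ≤ dl Λ.B (Λ.M n) := fun x hx y hy => Λ.symm x y ▸ M_le Λ n hy x hx
  have s : ix (dl Λ.B (Λ.M n)) (dl Λ.B Λ.L) = ix Λ.L (Λ.M n) := by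
    refine ix_sup (fun x => ⟨fun h => ⟨le_M Λ n h, Ld h⟩, fun ⟨h1, h2⟩ => ?_⟩) fun x =>
      ⟨fun h => ⟨_, zsm v (sm_M Λ n h), _, zsm u fun y hy => ?_, dec x⟩, ?_⟩
    · rw [← dec x]
      refine add_mem (zsm v ?_) (zsm u (qM x h1))
      rw [← dd Λ.toFm Λ.lat]
      intro y hy
      simpa using h2 _ (sm_M Λ n hy)
    · simpa using h _ (qM y hy)
    · rintro ⟨a, ha, b, hb, rfl⟩
      exact add_mem (M_le Λ n ha) (dl_anti (le_M Λ n) hb)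
  have h1 := hmin hq.pos he (show q * n * n = n * e by rw [hn]; ring)
  rw [← ix_mul Ld (dl_anti (le_M Λ n)), s] at h1 i0
  rw [← ix_mul qle Ld, mul_comm] at h1
  have h2 := Nat.le_of_mul_le_mul_right h1 (Nat.pos_of_ne_zero (left_ne_zero_of_mul i0))
  have h3 := ix_mul qle (le_M Λ n)
  rw [ix_sm (M_lat Λ n) hq.pos] at h3
  obtain ⟨k, -, hk⟩ := (Nat.dvd_prime_pow hq).1 (Dvd.intro_left _ h3)
  rw [hk] at h2 h3 ⊢
  refine Nat.pow_le_pow_right hq.pos ?_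
  have : q ^ (k + k) ≤ q ^ 23 := by rw [← h3, pow_add]; exact Nat.mul_le_mul_right _ h2
  have := (Nat.pow_le_pow_iff_right hq.one_lt).1 this
  omega

end Cfsg.Agent.R23
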