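import Cfsg.Agent.R23.Schur
import Cfsg.Agent.R23.Dual
import Cfsg.Agent.R23.Cyc
import Cfsg.Agent.R23.P23
import Cfsg.Agent.R23.FQ
import Cfsg.Agent.R23.Min1

set_option autoImplicit false

namespace Cfsg.Agent.R23

open Matrix

variable {G : Type*} [Group G]

namespace Min2

theorem bez {L : Submodule ℤ V} {x : V} {a b : ℤ} (h : IsCoprime a b) (ha : (a : ℚ) • x ∈ L)
    (hb : (b : ℚ) • x ∈ L) : x ∈ L := by
  obtain ⟨u, v, e⟩ := h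
  have := L.add_mem (zsm u ha) (zsm v hb)
  rwa [smul_smul, smul_smul, ← add_smul, ← Int.cast_mul, ← Int.cast_mul, ← Int.cast_add, e, Int.cast_one,
    one_smul] at this

theorem schur_mem [Finite G] (Λ : Lat G) {x y m : V} (hm : m ∈ Λ.L) (h : ∀ g, IsI (Λ.B (Λ.r g y) x)) :
    ((Nat.card G : ℚ) / 23 * Λ.B y m) • x ∈ Λ.L := by
  letI := Fintype.ofFinite G
  rw [Nat.card_eq_fintype_card, ← schur Λ.toFm x y m]
  refine Λ.L.sum_mem fun g _ => ?_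
  obtain ⟨k, hk⟩ := h g
  rw [hk]
  exact zsm k (Λ.Linv g m hm)

theorem mem_M {Λ : Lat G} {n : ℕ} {x : V} :
    x ∈ Λ.M n ↔ ∃ l ∈ Λ.L, ∃ z ∈ dl Λ.B Λ.L, l + (n : ℚ) • z = x := by
  simp only [Lat.M, Submodule.mem_sup, mem_sm]
  exact ⟨fun ⟨l, a, _, ⟨z, b, rfl⟩, c⟩ => ⟨l, a, z, b, c⟩, fun ⟨l, a, z, b, c⟩ => ⟨l, a, _, ⟨z, b, rfl⟩, c⟩⟩

theorem M_dl (Λ : Lat G) (n : ℕ) : Λ.M n ≤ dl Λ.B Λ.L := fun x hx => by
  obtain ⟨l, a, z, b, rfl⟩ := mem_M.1 hx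
  exact add_mem (Λ.int l a) (nsm n b)

theorem M_inv (Λ : Lat G) (n : ℕ) (g : G) : ∀ x ∈ Λ.M n, Λ.r g x ∈ Λ.M n := fun x hx => by
  obtain ⟨l, a, z, b, rfl⟩ := mem_M.1 hx
  exact mem_M.2 ⟨_, Λ.Linv g l a, _, Λ.dl_inv g b, by rw [map_add, map_smul]⟩

theorem M_lat (Λ : Lat G) (n : ℕ) : IsLat (Λ.M n) :=
  ⟨Λ.lat.fg.sup ((dl_lat Λ.toFm Λ.lat).fg.map _),
    top_le_iff.1 (Λ.lat.span ▸ Submodule.span_mono (le_sup_left : Λ.L ≤ Λ.M n))⟩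

theorem M_q (Λ : Lat G) {e q : ℕ} (he : ∀ x ∈ dl Λ.B Λ.L, (e : ℚ) • x ∈ Λ.L) (hq : q ∣ e) :
    ∀ x ∈ Λ.M (e / q), (q : ℚ) • x ∈ Λ.L := fun x hx => by
  obtain ⟨l, a, z, b, rfl⟩ := mem_M.1 hx
  rw [smul_add, smul_smul, ← Nat.cast_mul, Nat.mul_div_cancel' hq]
  exact add_mem (nsm q a) (he z b)

theorem q_dvd [Finite G] (Λ : Lat G) {e q c : ℕ} (he : ∀ x ∈ dl Λ.B Λ.L, (e : ℚ) • x ∈ Λ.L) (hp : q.Prime)
    (hq : q ∣ e) (hc : Nat.card G = 23 * c) (h1 : ¬ Λ.M (e / q) ≤ Λ.L) (h2 : ix Λ.L (Λ.M (e / q)) ≤ q ^ 11) :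
    q ∣ c := by
  have q0 : (q : ℚ) ≠ 0 := Nat.cast_ne_zero.2 hp.ne_zero
  by_contra qc
  by_cases k : Λ.L ≤ sm q (Λ.M (e / q))
  · have : Λ.L = sm q (Λ.M (e / q)) := le_antisymm k fun x hx => by
      obtain ⟨y, hy, rfl⟩ := mem_sm.1 hx
      exact M_q Λ he hq y hy
    have k2 := ix_sm (M_lat Λ (e / q)) hp.pos
    rw [← this] at k2
    exact absurd (k2 ▸ h2) (Nat.pow_lt_pow_right hp.one_lt (by decide)).not_ge
  obtain ⟨m, mL, hm⟩ := SetLike.not_le_iff_exists.1 k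
  have : (q : ℚ)⁻¹ • m ∉ dl Λ.B (dl Λ.B (Λ.M (e / q))) := by
    rw [dd Λ.toFm (M_lat Λ _)]
    exact fun h => hm (mem_sm.2 ⟨_, h, smul_inv_smul₀ q0 m⟩)
  simp only [mem_dl (x := _ • m), not_forall] at this
  obtain ⟨y, hy, hu⟩ := this
  obtain ⟨u, eu⟩ := hy m (Submodule.mem_sup_left mL)
  have qu : ¬ (q : ℤ) ∣ u := by
    rintro ⟨v, rfl⟩
    refine hu ⟨v, ?_⟩
    rw [map_smul, LinearMap.smul_apply, Λ.symm, eu, smul_eq_mul]
    push_cast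
    field_simp
  have pq : Prime (q : ℤ) := Nat.prime_iff_prime_int.1 hp
  refine h1 fun x hx => bez (a := q) (b := c * u) (pq.irreducible.coprime_iff_not_dvd.2 fun d => ?_)
    (by simpa using M_q Λ he hq x hx) ?_
  · exact (pq.dvd_or_dvd d).elim (fun d => qc (Int.natCast_dvd_natCast.1 d)) qu
  · have := schur_mem Λ (x := x) (y := y) mL fun g => by
      rw [Λ.toFm.inv']; exact hy _ (M_inv Λ _ _ x hx)
    rw [eu, hc] at this
    convert this using 2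
    push_cast
    ring

end Min2

open Min2

theorem dvd23 [Finite G] (Λ : Lat G) : 23 ∣ Nat.card G := by
  obtain ⟨m, mL, y, hy, e⟩ := exists_pair Λ.toFm Λ.lat
  obtain ⟨k, hk⟩ := hy _ (schur_mem Λ (x := m) (y := y) mL fun g => Λ.dl_inv g hy m mL)
  rw [map_smul, e, smul_eq_mul, mul_one, mul_one, div_eq_iff (by norm_num)] at hk
  exact Int.natCast_dvd_natCast.1 ⟨k, by exact_mod_cast hk.trans (mul_comm _ _)⟩

theorem exists_red [Finite G] (Λ₀ : Lat G) : Nonempty (Red G) := by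
  obtain ⟨Λ, e, sq, he, hq⟩ := min1 Λ₀
  haveI : Fact (Nat.Prime 23) := ⟨by norm_num⟩
  obtain ⟨σ, hσ⟩ := exists_prime_orderOf_dvd_card' 23 (dvd23 Λ)
  obtain ⟨c, hc⟩ := dvd23 Λ
  have qc : ∀ q : ℕ, q.Prime → q ∣ e → q ∣ c := fun q p d => q_dvd Λ he p d hc (hq q p d).1 (hq q p d).2
  have e23 : ¬ 23 ∣ e := fun d => not_529 Λ (hc ▸ Nat.mul_dvd_mul_left 23 (qc 23 Fact.out d))
  have nd : ∀ q : ℕ, q.Prime → q ∣ e → ¬ q ∣ e / q := fun q p d k =>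
    p.prime.not_unit (sq q (Nat.mul_dvd_of_dvd_div d k))
  refine ⟨{ Λ with σ := σ, ord := hσ, e := e, sq := sq, e23 := e23, eL := he, σL := fun x hx => ?_ }⟩
  have key : ∀ q : ℕ, q.Prime → q ∣ e → ((e / q : ℕ) : ℚ) • (Λ.r σ x - x) ∈ Λ.L := fun q p d => by
    have l : q ≤ 23 := prime_le Λ.toRp p (hc ▸ (qc q p d).mul_left 23)
    have l' : q ≤ 19 := by
      by_contra k
      have : q ≠ 23 := fun k => e23 (k ▸ d)
      interval_cases q <;> first | omega | norm_num at p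
    have := fq Λ.toFm (σ := σ) (hσ ▸ pow_orderOf_eq_one σ) p l' (le_sup_left : Λ.L ≤ Λ.M (e / q)) (Λ.Linv σ)
      (M_inv Λ _ σ) (M_q Λ he d) (fun x a y b => Λ.symm y x ▸ M_dl Λ _ b x a)
      (fun z a b => bez (a := q) (b := (e / q : ℕ))
        (Nat.isCoprime_iff_coprime.2 (p.coprime_iff_not_dvd.2 (nd q p d))) (by simpa using M_q Λ he d z a) (by
          rw [Int.cast_natCast, ← dd Λ.toFm Λ.lat]
          intro y hy
          have := b _ (mem_M.2 ⟨0, zero_mem _, y, hy, zero_add _⟩)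
          rwa [map_smul, ← LinearMap.smul_apply, ← map_smul] at this))
      (ix_ne Λ.lat (M_lat Λ _).fg) (hq q p d).2 _ (mem_M.2 ⟨0, zero_mem _, x, hx, zero_add _⟩)
    rwa [map_smul, ← smul_sub] at this
  have od : ∀ n : ℕ, (n : ℚ) • (Λ.r σ x - x) ∈ Λ.L → addOrderOf (Λ.L.mkQ (Λ.r σ x - x)) ∣ n := fun n h => by
    rw [addOrderOf_dvd_iff_nsmul_eq_zero, ← map_nsmul, Submodule.mkQ_apply, Submodule.Quotient.mk_eq_zero,
      ← Nat.cast_smul_eq_nsmul ℚ]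
    exact h
  have o1 : addOrderOf (Λ.L.mkQ (Λ.r σ x - x)) = 1 := by
    by_contra k
    obtain ⟨q, p, d⟩ := Nat.exists_prime_and_dvd k
    have d' := d.trans (od e (he _ (sub_mem (Λ.dl_inv σ hx) hx)))
    exact nd q p d' (d.trans (od _ (key q p d')))
  rwa [AddMonoid.addOrderOf_eq_one_iff, Submodule.mkQ_apply, Submodule.Quotient.mk_eq_zero] at o1

end Cfsg.Agent.R23
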