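import Cfsg.Agent.R23.Defs
import Cfsg.Agent.H85.Theta

set_option autoImplicit false

namespace Cfsg.Agent.R23

open Matrix

section
open Cfsg.Agent.H85 Complex
open scoped Real

theorem no28 (A : Matrix (Fin 28) (Fin 28) ℤ) (hs : A.IsSymm)
    (hp : ∀ x : Fin 28 → ℤ, x ≠ 0 → 0 < x ⬝ᵥ (A *ᵥ x))
    (he : ∀ x : Fin 28 → ℤ, (2 : ℤ) ∣ x ⬝ᵥ (A *ᵥ x)) (hd : A.det = 1) : False := by
  obtain ⟨h1, -, C, hC⟩ := theta_trans A hs hp hd
  have hI : ∑' x, thT A I x ≠ 0 := by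
    have h2 : ∀ x, thT A I x = ((Real.exp (-π * (x ⬝ᵥ (A *ᵥ x) : ℤ)) : ℝ) : ℂ) := fun x => by
      rw [thT, ofReal_exp]
      congr 1
      push_cast
      linear_combination (π * ((x ⬝ᵥ (A *ᵥ x) : ℤ) : ℂ)) * I_mul_I
    have h3 : Summable fun x : Fin 28 → ℤ => Real.exp (-π * (x ⬝ᵥ (A *ᵥ x) : ℤ)) := by
      have := h1 I (by simp)
      rw [funext h2] at this
      exact summable_ofReal.1 this
    rw [tsum_congr h2, ← ofReal_tsum, ofReal_ne_zero]
    exact (h3.tsum_pos (fun _ => (Real.exp_pos _).le) 0 (Real.exp_pos _)).ne'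
  have hC1 : C = 1 := by
    have h2 := hC I (by simp)
    have h3 : -1 / I = I := by field_simp; simp
    have h4 : -I * I = 1 := by simp
    rw [h3, h4, one_cpow] at h2
    simp only [div_one, one_pow, mul_one] at h2
    exact (mul_eq_right₀ hI).1 h2.symm
  have hI14 : I ^ 14 = -1 := by
    rw [show 14 = 4 * 3 + 2 from rfl, pow_add, pow_mul, I_pow_four, I_sq]; norm_num
  have hS : ∀ τ : ℂ, 0 < τ.im →
      ∑' x, thT A (-1 / τ) x = -τ ^ 14 * ∑' x, thT A τ x := by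
    intro τ hτ
    have hτ0 : τ ≠ 0 := by rintro rfl; simp at hτ
    have h5 : ((-I * τ) ^ (1 / 2 : ℂ)) ^ 28 = -τ ^ 14 := by
      have h6 : ((-I * τ) ^ (1 / 2 : ℂ)) ^ 2 = -I * τ := by
        rw [one_div]; exact cpow_ofNat_inv_pow _ 2
      rw [show 28 = 2 * 14 from rfl, pow_mul, h6, mul_pow, Even.neg_pow (by decide), hI14]
      ring
    rw [hC τ hτ, hC1, div_pow, h5]
    field_simp
  have hT : ∀ τ : ℂ, ∑' x, thT A (τ + 1) x = ∑' x, thT A τ x := by
    intro τ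
    refine tsum_congr fun x => ?_
    obtain ⟨k, hk⟩ := he x
    rw [thT, thT, hk, ← exp_periodic.int_mul k (π * I * τ * _)]
    congr 1
    push_cast; ring
  have hne : (I + 1 : ℂ) ≠ 0 := fun h => by simpa using congrArg Complex.re h
  have e1 : -1 / (I + 1) = (I + 1) / 2 - 1 := by
    field_simp
    linear_combination (-1 : ℂ) * I_mul_I
  have e2 : -1 / ((I + 1) / 2) = I - 1 := by
    field_simp
    linear_combination (-1 : ℂ) * I_mul_I
  have s1 := hS (I + 1) (by simp)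
  have s2 := hS ((I + 1) / 2) (by simp)
  have t1 := hT ((I + 1) / 2 - 1)
  have t2 := hT (I - 1)
  rw [sub_add_cancel] at t1 t2
  rw [e1, hT, ← t1] at s1
  rw [e2, ← t2, s1] at s2
  have e3 : ((I + 1) / 2) ^ 14 * (I + 1) ^ 14 = -1 := by
    rw [← mul_pow, ← hI14]
    congr 1
    linear_combination (1 / 2 : ℂ) * I_mul_I
  apply hI
  linear_combination (1 / 2 : ℂ) * s2 + (1 / 2 : ℂ) * (∑' x, thT A I x) * e3

end

end Cfsg.Agent.R23
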