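import Cfsg.Agent.R23.Defs

/-! Project R23 (S3355): partner lattices of determinant 23 (notes/R23.md, PT). -/

set_option autoImplicit false

namespace Cfsg.Agent.R23

open Matrix

variable {G : Type*} [Group G]

theorem pt_mk {k n d m m' : ℕ} (P : Pt k n) (hn : tf P.T P.t P.t = n / 23) (h1 : m * m' % 23 = 1)
    (h2 : n * m ^ 2 % 46 = d % 46) : ∃ Q : Pt k d, Q.T = P.T := by
  obtain ⟨c, hc⟩ : ∃ c : ℤ, (m : ℤ) * m' = 1 + 23 * c := ⟨(m * m' / 23 : ℕ), by omega⟩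
  obtain ⟨e, he⟩ : ∃ e : ℤ, (n : ℤ) * m ^ 2 - d = 46 * e :=
    ⟨(n * m ^ 2 / 46 : ℕ) - (d / 46 : ℕ), by
      have : (n : ℤ) * m ^ 2 = (n * m ^ 2 : ℕ) := by push_cast; rfl
      rw [this]; omega⟩
  have hc' : (m : ℚ) * m' = 1 + 23 * c := by exact_mod_cast hc
  have he' : (n : ℚ) * m ^ 2 - d = 46 * e := by exact_mod_cast he
  refine ⟨⟨P.T, (m : ℚ) • P.t, P.symm, P.pos, P.even, fun i => ?_, fun i => ?_, fun s hs => ?_, e, ?_⟩, rfl⟩
  · rw [mulVec_smul]; exact (isI_nat m).mul (P.dualm i)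
  · rw [Pi.smul_apply, smul_eq_mul, mul_left_comm]; exact (isI_nat m).mul (P.t23 i)
  · obtain ⟨j, hj⟩ := P.gen s hs
    refine ⟨j * m', fun i => ?_⟩
    convert (hj i).sub (((isI_int j).mul (isI_int c)).mul (P.t23 i)) using 1
    rw [Pi.smul_apply, smul_eq_mul]
    push_cast
    linear_combination (-(j : ℚ) * P.t i) * hc'
  · have : tf P.T ((m : ℚ) • P.t) ((m : ℚ) • P.t) = m * (m * tf P.T P.t P.t) := by
      simp only [tf, mulVec_smul, smul_dotProduct, dotProduct_smul, smul_eq_mul]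
    rw [this, hn]
    linear_combination (1 / 23 : ℚ) * he'

theorem pt_tf2 (s : Fin 2 → ℚ) : tf T2 s s = 4 * s 0 ^ 2 + 2 * s 0 * s 1 + 6 * s 1 ^ 2 := by
  simp [tf, T2, mulVec, dotProduct, Fin.sum_univ_succ]
  ring

/-- the binary partner with a glue vector of norm `4 / 23` -/
def pt2 : Pt 2 4 where
  T := T2
  t := ![-1 / 23, 4 / 23]
  symm := by decide
  pos s hs := by
    by_contra h
    rw [pt_tf2, not_lt] at h
    have h1 : s 1 = 0 := pow_eq_zero_iff two_ne_zero |>.1 (le_antisymm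
      (by nlinarith [sq_nonneg (4 * s 0 + s 1)]) (sq_nonneg _))
    have h0 : s 0 = 0 := pow_eq_zero_iff two_ne_zero |>.1 (le_antisymm
      (by rw [h1] at h; linarith) (sq_nonneg _))
    exact hs (funext fun i => by fin_cases i <;> assumption)
  even s hs := by
    obtain ⟨a, ha⟩ := hs 0
    obtain ⟨b, hb⟩ := hs 1
    exact ⟨2 * a ^ 2 + a * b + 3 * b ^ 2, by rw [pt_tf2, ha, hb]; push_cast; ring⟩
  dualm i := by
    fin_cases i
    · exact ⟨0, by simp [T2, mulVec, dotProduct, Fin.sum_univ_succ]; norm_num⟩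
    · exact ⟨1, by simp [T2, mulVec, dotProduct, Fin.sum_univ_succ]; norm_num⟩
  t23 i := by
    fin_cases i
    · exact ⟨-1, by simp; norm_num⟩
    · exact ⟨4, by simp; norm_num⟩
  gen s hs := by
    obtain ⟨k0, h0⟩ := hs 0
    obtain ⟨k1, h1⟩ := hs 1
    simp [T2, mulVec, dotProduct, Fin.sum_univ_succ] at h0 h1
    refine ⟨k1 - 6 * k0, fun i => ?_⟩
    fin_cases i
    · exact ⟨0, by simp; linarith⟩
    · exact ⟨k0, by simp; linarith⟩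
  nrm := ⟨0, by rw [pt_tf2]; simp; norm_num⟩

/-- an even lattice of rank six and determinant 23 -/
def ptT6 : Matrix (Fin 6) (Fin 6) ℤ :=
  !![2, -1, -1, -1, 0, 0; -1, 2, 0, 0, -1, 0; -1, 0, 4, 0, 0, -1; -1, 0, 0, 2, 0, 0; 0, -1, 0, 0, 2, 0;
    0, 0, -1, 0, 0, 2]

theorem pt_mv6 (s : Fin 6 → ℚ) : ptT6.map (Int.cast : ℤ → ℚ) *ᵥ s =
    ![2 * s 0 - s 1 - s 2 - s 3, 2 * s 1 - s 0 - s 4, 4 * s 2 - s 0 - s 5, 2 * s 3 - s 0, 2 * s 4 - s 1,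
      2 * s 5 - s 2] := by
  funext i
  fin_cases i <;> simp [ptT6, mulVec, dotProduct, Fin.sum_univ_succ] <;> ring

theorem pt_tf6 (s : Fin 6 → ℚ) : tf ptT6 s s = 2 * (s 0 ^ 2 + s 1 ^ 2 + 2 * s 2 ^ 2 + s 3 ^ 2 + s 4 ^ 2 + s 5 ^ 2 -
    s 0 * s 1 - s 0 * s 2 - s 0 * s 3 - s 1 * s 4 - s 2 * s 5) := by
  rw [tf, pt_mv6]
  simp [dotProduct, Fin.sum_univ_succ]
  ring

/-- the partner of rank six with a glue vector of norm `14 / 23` -/
def pt6 : Pt 6 14 where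
  T := ptT6
  t := ![6 / 23, 4 / 23, 5 / 23, 3 / 23, 2 / 23, 14 / 23]
  symm := by decide
  pos s hs := by
    by_contra h
    have e : tf ptT6 s s = 2 * (s 3 - s 0 / 2) ^ 2 + 2 * (s 4 - s 1 / 2) ^ 2 + 2 * (s 5 - s 2 / 2) ^ 2 +
        3 / 2 * (s 1 - 2 / 3 * s 0) ^ 2 + 7 / 2 * (s 2 - 2 / 7 * s 0) ^ 2 + 23 / 42 * s 0 ^ 2 := by
      rw [pt_tf6]; ring
    rw [e, not_lt] at h
    have p0 := sq_nonneg (s 0)
    have p1 := sq_nonneg (s 1 - 2 / 3 * s 0)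
    have p2 := sq_nonneg (s 2 - 2 / 7 * s 0)
    have p3 := sq_nonneg (s 3 - s 0 / 2)
    have p4 := sq_nonneg (s 4 - s 1 / 2)
    have p5 := sq_nonneg (s 5 - s 2 / 2)
    have z : ∀ x : ℚ, x ^ 2 ≤ 0 → x = 0 := fun x k => pow_eq_zero_iff two_ne_zero |>.1 (le_antisymm k (sq_nonneg _))
    have h0 := z (s 0) (by linarith)
    have h1 := z (s 1 - 2 / 3 * s 0) (by linarith)
    have h2 := z (s 2 - 2 / 7 * s 0) (by linarith)
    have h3 := z (s 3 - s 0 / 2) (by linarith)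
    have h4 := z (s 4 - s 1 / 2) (by linarith)
    have h5 := z (s 5 - s 2 / 2) (by linarith)
    exact hs (funext fun i => by fin_cases i <;> simp <;> linarith)
  even s hs := by
    choose k hk using hs
    exact ⟨k 0 ^ 2 + k 1 ^ 2 + 2 * k 2 ^ 2 + k 3 ^ 2 + k 4 ^ 2 + k 5 ^ 2 -
      k 0 * k 1 - k 0 * k 2 - k 0 * k 3 - k 1 * k 4 - k 2 * k 5, by
        rw [pt_tf6]; simp only [hk]; push_cast; rfl⟩
  dualm i := by
    rw [pt_mv6]
    fin_cases i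
    iterate 5 exact ⟨0, by simp; norm_num⟩
    exact ⟨1, by simp; norm_num⟩
  t23 i := by
    fin_cases i
    exacts [⟨6, by simp; norm_num⟩, ⟨4, by simp; norm_num⟩, ⟨5, by simp; norm_num⟩, ⟨3, by simp; norm_num⟩,
      ⟨2, by simp; norm_num⟩, ⟨14, by simp; norm_num⟩]
  gen s hs := by
    rw [pt_mv6] at hs
    obtain ⟨k0, h0⟩ := hs 0
    obtain ⟨k1, h1⟩ := hs 1
    obtain ⟨k2, h2⟩ := hs 2
    obtain ⟨k3, h3⟩ := hs 3
    obtain ⟨k4, h4⟩ := hs 4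
    obtain ⟨k5, h5⟩ := hs 5
    simp at h0 h1 h2 h3 h4 h5
    refine ⟨7 * k0 + 20 * k1 + 2 * k2 + 15 * k3 + 10 * k4 + k5, fun i => ?_⟩
    fin_cases i
    · exact ⟨(-4) * k1 + (-3) * k3 + (-2) * k4, by simp; linarith⟩
    · exact ⟨(-2) * k1 + (-2) * k3 + (-1) * k4, by simp; linarith⟩
    · exact ⟨(-1) * k0 + (-4) * k1 + (-3) * k3 + (-2) * k4, by simp; linarith⟩
    · exact ⟨(-2) * k1 + (-1) * k3 + (-1) * k4, by simp; linarith⟩
    · exact ⟨(-1) * k1 + (-1) * k3, by simp; linarith⟩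
    · exact ⟨(-4) * k0 + (-12) * k1 + (-1) * k2 + (-9) * k3 + (-6) * k4, by simp; linarith⟩
  nrm := ⟨0, by rw [pt_tf6]; simp; norm_num⟩

theorem exists_pt {d : ℕ} (h2 : 2 ∣ d) (h23 : ¬ 23 ∣ d) :
    (∃ P : Pt 2 d, P.T = T2) ∨ Nonempty (Pt 6 d) := by
  obtain ⟨m, -, m', -, h, k⟩ := (by decide +kernel : ∀ r < 46, r % 2 = 0 → r % 23 ≠ 0 → ∃ m < 23, ∃ m' < 23,
    m * m' % 23 = 1 ∧ (4 * m ^ 2 % 46 = r ∨ 14 * m ^ 2 % 46 = r)) (d % 46) (by omega) (by omega) (by omega)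
  rcases k with k | k
  · exact Or.inl (pt_mk pt2 (by change tf T2 _ _ = _; rw [pt_tf2]; simp [pt2]; norm_num) h k)
  · exact Or.inr ⟨(pt_mk pt6 (by change tf ptT6 _ _ = _; rw [pt_tf6]; simp [pt6]; norm_num) h k).choose⟩

end Cfsg.Agent.R23
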