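import Cfsg.Agent.R23.SD

set_option autoImplicit false

namespace Cfsg.Agent.R23

open Matrix

variable {G : Type*} [Group G]

theorem qr_tf (s : Fin 2 → ℚ) {α β : ℤ} (ha : (T2.map (Int.cast : ℤ → ℚ) *ᵥ s) 0 = α)
    (hb : (T2.map (Int.cast : ℤ → ℚ) *ᵥ s) 1 = β) :
    23 * tf T2 s s = ((6 * α ^ 2 - 2 * α * β + 4 * β ^ 2 : ℤ) : ℚ) ∧ (α = 0 → β = 0 → s = 0) := by
  simp only [T2, tf, Matrix.mulVec, dotProduct, Fin.sum_univ_two, Matrix.map_apply, Matrix.of_apply,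
    Matrix.cons_val', Matrix.cons_val_zero, Matrix.cons_val_one, Matrix.cons_val_fin_one] at ha hb ⊢
  push_cast at ha hb ⊢
  refine ⟨by rw [← ha, ← hb]; ring, fun h1 h2 => ?_⟩
  rw [h1] at ha
  rw [h2] at hb
  push_cast at ha hb
  funext i
  fin_cases i
  · show s 0 = 0
    linarith
  · show s 1 = 0
    linarith

theorem qr_46 (α β : ℤ) : 6 * α ^ 2 - 2 * α * β + 4 * β ^ 2 ≠ 46 := by
  intro h
  have h1 : α ≤ 3 := by nlinarith [sq_nonneg (α - 4 * β), sq_nonneg (α - 3)]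
  have h2 : -3 ≤ α := by nlinarith [sq_nonneg (α - 4 * β), sq_nonneg (α + 3)]
  have h3 : β ≤ 4 := by nlinarith [sq_nonneg (6 * α - β), sq_nonneg (β - 4)]
  have h4 : -4 ≤ β := by nlinarith [sq_nonneg (6 * α - β), sq_nonneg (β + 4)]
  interval_cases α <;> interval_cases β <;> omega

theorem qr_2 {α β : ℤ} (h : 6 * α ^ 2 - 2 * α * β + 4 * β ^ 2 ≤ 2) : α = 0 ∧ β = 0 := by
  have h1 : α = 0 := by
    by_contra h0
    have : 1 ≤ α ^ 2 := by rcases lt_or_gt_of_ne h0 with h | h <;> nlinarith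
    nlinarith [sq_nonneg (α - 4 * β)]
  subst h1
  refine ⟨rfl, ?_⟩
  by_contra h0
  have : 1 ≤ β ^ 2 := by rcases lt_or_gt_of_ne h0 with h | h <;> nlinarith
  nlinarith

theorem qr (C : Core G) (h0 : C.NoRoot0) (P : Pt 2 C.d) (hT : P.T = T2) :
    ∀ u ∈ C.N P, C.β P u u ≠ 2 := by
  rintro ⟨y, s⟩ hu h2
  obtain ⟨α, ha⟩ := N_T C P hu 0
  obtain ⟨β, hb⟩ := N_T C P hu 1
  rw [hT] at ha hb
  obtain ⟨e1, e2⟩ := qr_tf s ha hb
  have hw : C.B y C.w = 0 := hu.1
  have h2' : C.B y y + tf T2 s s = 2 := by rw [← hT]; exact h2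
  have hL : ∀ i : ℕ, y - C.r (C.σ ^ i) y ∈ C.L := fun i => by
    obtain ⟨-, m, hm, -⟩ := hu
    have e : y - C.r (C.σ ^ i) y = (y - (m : ℚ) • C.y₁) - C.r (C.σ ^ i) (y - (m : ℚ) • C.y₁) -
        (m : ℚ) • (C.r (C.σ ^ i) C.y₁ - C.y₁) := by
      rw [map_sub, map_smul, smul_sub]; abel
    rw [e]
    exact C.L.sub_mem (C.L.sub_mem hm (C.Linv _ _ hm)) (zsm m (C.σy i))
  by_cases hy : y = 0
  · rw [hy, map_zero, zero_add] at h2'
    rw [h2'] at e1
    exact qr_46 α β (by exact_mod_cast (e1.symm.trans (by norm_num : (23 : ℚ) * 2 = 46)))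
  have key : ∀ i ∈ Finset.range 22, C.B y (C.r (C.σ ^ (i + 1)) y) + tf T2 s s ≤ 0 := fun i hi => by
    set z := C.r (C.σ ^ (i + 1)) y with hz
    have hne : y - z ≠ 0 := fun e => by
      obtain ⟨t, ht⟩ := C.fix_pow (Nat.succ_pos i) (by have := Finset.mem_range.1 hi; omega)
        (sub_eq_zero.1 e).symm
      rw [ht, map_smul, LinearMap.smul_apply, C.Bww, smul_eq_mul] at hw
      have := C.d_ne
      have t0 : t = 0 := by
        rcases mul_eq_zero.1 hw with h | h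
        · exact h
        · exact absurd (by linarith) this
      exact hy (by rw [ht, t0, zero_smul])
    have hw' : C.B (y - z) C.w = 0 := by
      rw [map_sub, LinearMap.sub_apply, hz, C.B_σ, sub_self]
    obtain ⟨k, hk⟩ := C.even _ (hL (i + 1))
    have p := C.pos _ hne
    have n2 := h0 _ (hL (i + 1)) hw'
    have k0 : 0 < k := by
      have : (0 : ℚ) < k := by rw [← hz] at hk; linarith
      exact_mod_cast this
    have k1 : k ≠ 1 := fun e => n2 (by rw [hk, e]; norm_num)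
    have k2 : (2 : ℚ) ≤ k := by exact_mod_cast (by omega : 2 ≤ k)
    have e : C.B (y - z) (y - z) = 2 * C.B y y - 2 * C.B y z := by
      simp only [map_sub, LinearMap.sub_apply, C.symm z y]
      rw [hz, C.inv]; ring
    rw [← hz, e] at hk
    linarith
  have sm := Finset.sum_nonpos key
  have ns := congrArg (C.B y) (C.nsum y)
  rw [hw, zero_div, zero_smul, map_zero, map_sum, Finset.sum_range_succ', pow_zero, map_one,
    Module.End.one_apply] at ns
  rw [Finset.sum_add_distrib, Finset.sum_const, Finset.card_range, nsmul_eq_mul] at sm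
  push_cast at sm
  have le2 : ((6 * α ^ 2 - 2 * α * β + 4 * β ^ 2 : ℤ) : ℚ) ≤ 2 := by rw [← e1]; linarith
  obtain ⟨a0, b0⟩ := qr_2 (by exact_mod_cast le2)
  have s0 := e2 a0 b0
  subst s0
  refine h0 y ((N_inl C P).1 hu).1 hw ?_
  rw [← h2', tf, zero_dotProduct, add_zero]

end Cfsg.Agent.R23
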