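import Cfsg.Agent.R23.Defs

set_option autoImplicit false

namespace Cfsg.Agent.R23

open Matrix

variable {G : Type*} [Group G]

namespace RA1

/-- the Gram matrix of a 23-cycle of roots -/
def gg (x : Fin 23) : ℤ := if x = 0 then 2 else if x = 1 ∨ x = -1 then -1 else 0

def gi (i x : Fin 23) : ℤ := if x = 0 then 2 else if x = i ∨ x = -i then -1 else 0

def hh (a k : Fin 23) : ℤ := (if a = k then 1 else 0) - (if a + 1 = k then 1 else 0)

theorem tab0 : ∀ i : Fin 23, i ≠ 0 → ∀ a b : Fin 23, gi i (b * i - a * i) = gg (b - a) := by decide +kernel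

theorem tab1 : ∀ a k : Fin 23, ∑ b : Fin 23, ((b - k).val : ℤ) * gg (a - b) = -23 * hh a k := by decide +kernel

theorem tab2 : ∀ i k : Fin 23, ∑ a : Fin 23, ((a - k).val : ℤ) * hh a i = 1 - 23 * (if i = k then 1 else 0) := by
  decide +kernel

theorem tab3 : ∑ a : Fin 23, ∑ b : Fin 23, gg (a - b) = 0 := by decide +kernel

theorem tab4 : ∀ i k a : Fin 23, (23 : ℤ) ∣ ((a - k).val : ℤ) - (a - i).val + (k - i).val := by decide +kernel

theorem tab5 : ∀ i : Fin 23, i ≠ 0 → -i ≠ 0 ∧ i ≠ -i := by decide +kernel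

theorem frame (C : Core G) (r : Fin 23 → V) (rL : ∀ a, r a ∈ C.L) (rw : ∀ a, C.B (r a) C.w = 0)
    (rr : ∀ a b, C.B (r a) (r b) = gg (b - a)) : Nonempty C.Fr := by
  let z : Fin 23 → V := fun i => (-1 / 23 : ℚ) • ∑ a : Fin 23, (((a - i).val : ℤ) : ℚ) • r a
  have zl : ∀ i x, C.B (z i) x = -1 / 23 * ∑ a : Fin 23, (((a - i).val : ℤ) : ℚ) * C.B (r a) x := fun i x => by
    simp only [z, map_smul, map_sum, LinearMap.smul_apply, LinearMap.sum_apply, smul_eq_mul]
  have zr : ∀ k a, C.B (z k) (r a) = hh a k := fun k a => by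
    have := congrArg (Int.cast : ℤ → ℚ) (tab1 a k)
    rw [Int.cast_sum] at this
    simp only [Int.cast_mul] at this
    simp only [zl, rr, this]
    push_cast; ring
  have s0 : ∑ a, r a = 0 := C.toFm.eq_zero (by
    have := congrArg (Int.cast : ℤ → ℚ) tab3
    simp only [Int.cast_sum, Int.cast_zero] at this
    simp only [map_sum, LinearMap.sum_apply, rr, this])
  refine ⟨⟨z, fun i => by simp only [zl, rw, mul_zero, Finset.sum_const_zero], fun i k => ?_, fun i k => ?_⟩⟩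
  · have := congrArg (Int.cast : ℤ → ℚ) (tab2 i k)
    rw [Int.cast_sum] at this
    simp only [Int.cast_mul] at this
    rw [C.symm, zl]
    simp only [fun a => C.symm (r a) (z i), zr, this]
    split_ifs <;> norm_num
  · choose m hm using tab4 i k
    have e : z i - z k = ∑ a, (m a : ℚ) • r a - ((((k - i).val : ℤ) : ℚ) / 23) • ∑ a, r a := by
      simp only [z, Finset.smul_sum, smul_smul, ← Finset.sum_sub_distrib, ← sub_smul]
      refine Finset.sum_congr rfl fun a _ => ?_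
      congr 1
      have := congrArg (Int.cast : ℤ → ℚ) (hm a)
      simp only [Int.cast_add, Int.cast_sub, Int.cast_mul, Int.cast_ofNat] at this
      linarith
    rw [e, s0, smul_zero, sub_zero]
    exact C.L.sum_mem fun a _ => zsm _ (rL a)

theorem comb (c : Fin 23 → ℤ) (c0 : c 0 = 2) (cn : ∀ i, i ≠ 0 → c i ≤ 0) (cs : ∀ i, c (-i) = c i)
    (s : ∑ i, c i = 0) : ∃ i, i ≠ 0 ∧ ∀ x, c x = gi i x := by
  obtain ⟨i, i0, hi⟩ : ∃ i, i ≠ 0 ∧ c i < 0 := by
    by_contra! h
    rw [Finset.sum_eq_single 0 (fun b _ hb => le_antisymm (cn b hb) (h b hb)) (by simp)] at s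
    omega
  obtain ⟨n0, n1⟩ := tab5 i i0
  have e := Finset.sum_sdiff (f := c) (Finset.subset_univ ({0, i, -i} : Finset (Fin 23)))
  rw [s, Finset.sum_insert (by simp [i0.symm, n0.symm]), Finset.sum_pair n1, c0, cs] at e
  have hn : ∀ x ∈ Finset.univ \ ({0, i, -i} : Finset (Fin 23)), c x ≤ 0 := fun x hx =>
    cn x fun e => by simp [e] at hx
  have h1 := Finset.sum_nonpos hn
  have h2 := (Finset.sum_eq_zero_iff_of_nonpos hn).1 (by omega)
  have h3 : c i = -1 := by omega
  refine ⟨i, i0, fun x => ?_⟩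
  unfold gi
  split_ifs with a b
  · rw [a, c0]
  · rcases b with b | b
    · rw [b, h3]
    · rw [b, cs, h3]
  · exact h2 x (by simpa [a] using b)

variable (C : Core G)

/-- membership in `(1 - σ) ^ k L₀` -/
def Lk (k : ℕ) (x : V) : Prop := ∃ l ∈ C.L, C.B l C.w = 0 ∧ x = ((1 - C.r C.σ) ^ k) l

variable {C}

theorem Bσ (x : V) : C.B (C.r C.σ x) C.w = C.B x C.w := by simpa using C.B_σ 1 x

theorem Lk.add {k : ℕ} {x y : V} (h : Lk C k x) (h' : Lk C k y) : Lk C k (x + y) := by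
  obtain ⟨l, h1, h2, rfl⟩ := h
  obtain ⟨m, h3, h4, rfl⟩ := h'
  exact ⟨l + m, C.L.add_mem h1 h3, by rw [map_add, LinearMap.add_apply, h2, h4, add_zero], (map_add _ _ _).symm⟩

theorem Lk.act {k : ℕ} {x : V} (h : Lk C k x) : Lk C k (C.r C.σ x) := by
  obtain ⟨l, h1, h2, rfl⟩ := h
  refine ⟨_, C.Linv C.σ l h1, by rw [Bσ, h2], ?_⟩
  rw [← Module.End.mul_apply, ← Module.End.mul_apply,
    (((Commute.one_right _).sub_right (Commute.refl _)).pow_right k).eq]

theorem Lk.step {k : ℕ} {x : V} (h : Lk C k x) : Lk C (k + 1) (x - C.r C.σ x) := by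
  obtain ⟨l, h1, h2, rfl⟩ := h
  exact ⟨l, h1, h2, by rw [pow_succ', Module.End.mul_apply, LinearMap.sub_apply, Module.End.one_apply]⟩

theorem Lk.steps {k : ℕ} {x : V} (h : Lk C k x) (i : ℕ) : Lk C (k + 1) (x - C.r (C.σ ^ i) x) := by
  induction i with
  | zero => exact ⟨0, C.L.zero_mem, by simp, by simp⟩
  | succ i ih =>
    have := h.step.add ih.act
    rwa [map_sub, sub_add_sub_cancel, ← Module.End.mul_apply, ← map_mul, ← pow_succ'] at this

theorem Lk.mem {k : ℕ} {x : V} (h : Lk C k x) : x ∈ C.L ∧ C.B x C.w = 0 := by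
  obtain ⟨l, h1, h2, rfl⟩ := h
  induction k with
  | zero => exact ⟨h1, h2⟩
  | succ k ih =>
    rw [pow_succ', Module.End.mul_apply, LinearMap.sub_apply, Module.End.one_apply]
    exact ⟨C.L.sub_mem ih.1 (C.Linv _ _ ih.1), by rw [map_sub, LinearMap.sub_apply, Bσ, sub_self]⟩

theorem pw23 {R : Type*} [Ring R] {s : R} (h : s ^ 23 = 1) : ∃ f, (1 - s) ^ 23 = (23 : ℕ) * f := by
  obtain ⟨f, hf⟩ := (Commute.one_left (-s)).exists_add_pow_prime_eq (p := 23) (by norm_num)
  rw [Odd.neg_pow (show Odd 23 from ⟨11, rfl⟩), h, one_pow, add_neg_cancel, zero_add, ← sub_eq_add_neg] at hf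
  exact ⟨_, by rw [hf, mul_assoc, mul_assoc]⟩

theorem Lk.top {x : V} (h : Lk C 23 x) : C.B x x ≠ 2 := by
  obtain ⟨l, h1, -, rfl⟩ := h
  let A : Subring (Module.End ℚ V) :=
    { carrier := {f | ∀ x ∈ C.L, f x ∈ C.L}
      mul_mem' := fun ha hb x hx => ha _ (hb x hx)
      one_mem' := fun x hx => hx
      add_mem' := fun ha hb x hx => C.L.add_mem (ha x hx) (hb x hx)
      zero_mem' := fun x _ => C.L.zero_mem
      neg_mem' := fun ha x hx => C.L.neg_mem (ha x hx) }
  let s : A := ⟨C.r C.σ, C.Linv C.σ⟩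
  have s23 : s ^ 23 = 1 := Subtype.ext (by
    show C.r C.σ ^ 23 = 1
    rw [← map_pow, C.σ23, map_one])
  obtain ⟨f, hf⟩ := pw23 s23
  have e : ((1 - C.r C.σ) ^ 23 : Module.End ℚ V) l = (23 : ℚ) • f.1 l := by
    have : (1 - C.r C.σ) ^ 23 = ((23 : ℕ) : Module.End ℚ V) * f.1 := congrArg Subtype.val hf
    rw [this, Module.End.mul_apply, Module.End.natCast_apply, ← Nat.cast_smul_eq_nsmul ℚ]; rfl
  obtain ⟨m, hm⟩ := C.int _ (f.2 l h1) _ (f.2 l h1)
  rw [e]
  simp only [map_smul, LinearMap.smul_apply, smul_eq_mul, hm]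
  intro h
  have : (23 * (23 * m) : ℤ) = 2 := by exact_mod_cast h
  omega

theorem exists_root (h : ¬ C.NoRoot0) :
    ∃ k x, Lk C k x ∧ C.B x x = 2 ∧ ∀ y, Lk C (k + 1) y → C.B y y ≠ 2 := by
  by_contra! H
  have : ∀ k, ∃ x, Lk C k x ∧ C.B x x = 2 := fun k => by
    induction k with
    | zero =>
      by_contra! h0
      exact h fun x hx hw => h0 x ⟨x, hx, hw, rfl⟩
    | succ k ih =>
      obtain ⟨x, h1, h2⟩ := ih
      exact H k x h1 h2
  obtain ⟨x, h1, h2⟩ := this 23
  exact h1.top h2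

theorem pow_add (a x : Fin 23) : C.σ ^ (a + x).val = C.σ ^ a.val * C.σ ^ x.val := by
  rw [Fin.val_add, ← _root_.pow_add]
  have := pow_mod_orderOf C.σ (a.val + x.val)
  rwa [C.ord] at this

end RA1

open RA1 in
theorem ra1 (C : Core G) (h : ¬ C.NoRoot0) : Nonempty C.Fr := by
  obtain ⟨k, x, hk, x2, mx⟩ := exists_root h
  obtain ⟨xL, xw⟩ := hk.mem
  choose c hc using fun i : Fin 23 => C.int x xL _ (C.Linv (C.σ ^ i.val) x xL)
  have rr : ∀ a b : Fin 23, C.B (C.r (C.σ ^ a.val) x) (C.r (C.σ ^ b.val) x) = c (b - a) := fun a b => by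
    rw [← hc, ← C.inv (C.σ ^ a.val) x, ← Module.End.mul_apply, ← map_mul, ← RA1.pow_add, add_sub_cancel]
  obtain ⟨i, i0, hi⟩ := comb c (by
      have := hc 0
      rw [Fin.val_zero, pow_zero, map_one, Module.End.one_apply, x2] at this
      exact_mod_cast this.symm) (fun i i0 => by
      have n : C.B (x - C.r (C.σ ^ i.val) x) (x - C.r (C.σ ^ i.val) x) = 4 - 2 * c i := by
        simp only [map_sub, LinearMap.sub_apply, C.inv, C.symm (C.r _ x) x, hc, x2]; ring
      have h1 := mx _ (hk.steps i.val)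
      have h2 : x - C.r (C.σ ^ i.val) x ≠ 0 := fun e => by
        obtain ⟨t, rfl⟩ := C.fix_pow (Fin.pos_iff_ne_zero.2 i0) i.2 (sub_eq_zero.1 e).symm
        rw [map_smul, smul_eq_mul, xw] at x2
        norm_num at x2
      have h3 := C.pos _ h2
      rw [n] at h1 h3
      have h4 : c i < 2 := by exact_mod_cast (by linarith : (c i : ℚ) < 2)
      have h5 : c i ≠ 1 := fun e => h1 (by rw [e]; norm_num)
      omega) (fun i => by
      have := (rr i 0).symm.trans ((C.symm _ _).trans (rr 0 i))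
      rw [zero_sub, sub_zero] at this
      exact_mod_cast this) (by
      have : ∑ i : Fin 23, (c i : ℚ) = 0 := by
        simp only [← hc]
        rw [← map_sum, Fin.sum_univ_eq_sum_range (fun i => C.r (C.σ ^ i) x) 23, C.nsum, map_smul, xw, smul_zero]
      exact_mod_cast this)
  exact frame C (fun a => C.r (C.σ ^ (a * i).val) x) (fun a => C.Linv _ x xL) (fun a => by rw [C.B_σ, xw])
    fun a b => by rw [rr, hi, tab0 i i0]

end Cfsg.Agent.R23
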