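import Cfsg.Agent.R23.RA34

set_option autoImplicit false

namespace Cfsg.Agent.R23

open Matrix Finset

variable {G : Type*} [Group G]

namespace RA3

theorem types {C : Core G} (F : C.Fr) (hd : C.d ≠ 4) {ρ : V} (hρ : ρ ∈ C.L)
    (h2 : C.B ρ ρ = 2) :
    C.B ρ C.w = 0 ∨
    (∃ (j : ℤ) (η : ℚ) (i : Fin 23), (η = 1 ∨ η = -1) ∧ j ^ 2 * C.d = 24 ∧ C.B ρ C.w = j * C.d ∧
      ∀ k, C.B ρ (F.z k) = η * ((if k = i then 1 else 0) - 1 / 23)) := by
  rcases fr_types F hρ h2 with h | h | ⟨j, η, p, q, -, -, hj, -⟩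
  · exact Or.inl h.1
  · exact Or.inr h
  · exfalso
    obtain ⟨m, hm⟩ := C.d2
    rw [hm] at hj hd
    push_cast at hj
    have h1 : j ^ 2 * (m : ℤ) = 2 := by linarith
    have h3 : j ≠ 0 := by rintro rfl; simp at h1
    have h4 : 0 < j ^ 2 := by positivity
    have h5 : (m : ℤ) ≤ 2 := by nlinarith
    have h6 : m ≤ 2 := by exact_mod_cast h5
    interval_cases m
    · simp at h1
    · rw [Nat.cast_one, mul_one] at h1
      have h7 : j ≤ 1 := by nlinarith
      have h8 : -1 ≤ j := by nlinarith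
      interval_cases j <;> simp at h1
    · simp at hd

theorem int_lem (n : Fin 23 → ℤ) (h : 24 * ∑ k, n k ^ 2 - (∑ k, n k) ^ 2 = 23) :
    ∃ ε : ℤ, (ε = 1 ∨ ε = -1) ∧
      ((∀ k, n k = ε) ∨ ∃ i, ∀ k, n k = ε * if k = i then 1 else 0) := by
  obtain ⟨c, hc1, hc2⟩ : ∃ c : ℤ, -12 ≤ ∑ k, n k - 24 * c ∧ ∑ k, n k - 24 * c ≤ 12 :=
    ⟨(∑ k, n k + 12) / 24, by omega, by omega⟩
  let m : Option (Fin 23) → ℤ := fun a => a.elim (-c) fun k => n k - c
  have hs : ∑ a, m a = ∑ k, n k - 24 * c := by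
    rw [Fintype.sum_option]
    simp [m, sum_sub_distrib]
    ring
  have ht : ∑ a, m a ^ 2 = ∑ k, n k ^ 2 - 2 * c * ∑ k, n k + 24 * c ^ 2 := by
    rw [Fintype.sum_option]
    simp only [m, Option.elim, sub_sq, sum_add_distrib, sum_sub_distrib, sum_const, card_univ,
      Fintype.card_fin, ← sum_mul, ← mul_sum]
    simp
    ring
  have h1 : ∑ a, m a ≤ ∑ a, m a ^ 2 := sum_le_sum fun a _ => Int.le_self_sq _
  have h2 : -∑ a, m a ≤ ∑ a, m a ^ 2 := by
    rw [← sum_neg_distrib]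
    exact sum_le_sum fun a _ => by simpa using Int.le_self_sq (-m a)
  have h3 : 24 * ∑ a, m a ^ 2 - (∑ a, m a) ^ 2 = 23 := by rw [hs, ht, ← h]; ring
  rw [← hs] at hc1 hc2
  have h4 : ∑ a, m a ^ 2 = 1 := by
    generalize ∑ a, m a ^ 2 = t at *
    generalize ∑ a, m a = s at *
    have h5 : s ^ 2 ≤ 12 * t := by
      rcases le_total 0 s with h0 | h0 <;> nlinarith
    have h6 : 0 ≤ s ^ 2 := sq_nonneg s
    omega
  obtain ⟨a, ha, hb⟩ := RA34.sq_one m h4
  cases a with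
  | none =>
    refine ⟨c, ?_, Or.inl fun k => ?_⟩
    · simp only [m, Option.elim] at ha; omega
    · have := hb (some k) (by simp)
      simp only [m, Option.elim] at this; omega
  | some i =>
    have h0 := hb none (by simp)
    simp only [m, Option.elim] at h0 ha
    refine ⟨n i, by omega, Or.inr ⟨i, fun k => ?_⟩⟩
    by_cases hk : k = i
    · simp [hk]
    · have := hb (some k) (by simpa using hk)
      simp only [m, Option.elim] at this
      simp [hk]; omega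

/-- the roots `ρ k` -/
def ρ {C : Core G} (F : C.Fr) (j : ℚ) (k : Fin 23) : V := F.z k + (j / 23) • C.w

theorem ρρ {C : Core G} (F : C.Fr) {j : ℚ} (hj : j ^ 2 * C.d = 24) (k : Fin 23) :
    C.B (ρ F j k) (ρ F j k) = 2 := by
  simp only [ρ, map_add, map_smul, LinearMap.add_apply, LinearMap.smul_apply, F.zz, F.zw,
    C.symm C.w (F.z _), C.Bww, smul_eq_mul, if_true]
  linear_combination (1 / 23) * hj

theorem exists_j [Finite G] {C : Core G} (F : C.Fr) (hd : C.d ≠ 4) :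
    ∃ j : ℚ, j ^ 2 * C.d = 24 ∧ ∀ k, ρ F j k ∈ C.L := by
  obtain ⟨r, hr, h2, hw⟩ := RA34.exists_root F
  rcases types F hd hr h2 with h | ⟨j, η, i, hη, hj, hw, hk⟩
  · exact absurd h hw
  have hηη : η * η = 1 := by rcases hη with rfl | rfl <;> simp
  have hj' : (j : ℚ) ^ 2 * C.d = 24 := by exact_mod_cast hj
  refine ⟨η * j, by linear_combination hj' + (j : ℚ) ^ 2 * C.d * hηη, fun k => ?_⟩
  have h1 : η • r = F.z i + (η * j / 23) • C.w := by
    conv_lhs => rw [fr_expand F r]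
    simp only [hk, hw, smul_add, smul_sum, smul_smul, ← mul_assoc, hηη, one_mul, sub_smul,
      sum_sub_distrib, ite_smul, one_smul, zero_smul, sum_ite_eq', mem_univ, if_true]
    rw [← smul_sum, RA34.sum_z F, smul_zero, sub_zero]
    congr 2
    have := C.d_ne
    field_simp
  have h3 : ρ F (η * j) k = (F.z k - F.z i) + η • r := by
    rw [h1, ρ]; abel
  rw [h3]
  exact C.L.add_mem (F.zL _ _) (RA34.eta_mem hη hr)

theorem root_int {C : Core G} (F : C.Fr) (hd : C.d ≠ 4) {j : ℚ} (hj : j ^ 2 * C.d = 24)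
    {r : V} (hr : r ∈ C.L) (h2 : C.B r r = 2) : IsI (C.B r ((1 / (j * C.d)) • C.w)) := by
  rw [map_smul, smul_eq_mul]
  rcases types F hd hr h2 with h | ⟨j', η, i, -, hj', hw, -⟩
  · rw [h, mul_zero]; exact isI_zero
  have hj2 : (j' : ℚ) ^ 2 * C.d = 24 := by exact_mod_cast hj'
  have hd0 := C.d_ne
  have hj0 : j ≠ 0 := by rintro rfl; simp at hj
  have h3 : (j' : ℚ) ^ 2 = j ^ 2 := mul_right_cancel₀ hd0 (hj2.trans hj.symm)
  rw [hw]
  rcases sq_eq_sq_iff_eq_or_eq_neg.1 h3 with h4 | h4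
  · exact ⟨1, by rw [h4]; field_simp; simp⟩
  · exact ⟨-1, by rw [h4]; field_simp; simp⟩

/-- the vector with given products with the roots `ρ k` -/
def Φ {C : Core G} (F : C.Fr) (j : ℚ) (n : Fin 23 → ℚ) : V :=
  ∑ k, (n k - (∑ l, n l) / 23) • F.z k + ((∑ l, n l) / j / (23 * C.d)) • C.w

theorem Φ_neg {C : Core G} (F : C.Fr) (j : ℚ) (n : Fin 23 → ℚ) :
    Φ F j (fun k => -n k) = -Φ F j n := by
  simp only [Φ, sum_neg_distrib, neg_add, ← neg_smul, neg_div]
  congr 1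
  rw [← sum_neg_distrib]
  refine sum_congr rfl fun k _ => ?_
  rw [← neg_smul]
  congr 1
  ring

theorem sum_ρ {C : Core G} (F : C.Fr) (j : ℚ) (x : V) :
    ∑ k, C.B x (ρ F j k) = j * C.B x C.w := by
  simp only [ρ, map_add, map_smul, sum_add_distrib, RA34.sum_B F, smul_eq_mul, sum_const,
    card_univ, Fintype.card_fin]
  simp
  ring

theorem Bz {C : Core G} (F : C.Fr) (j : ℚ) (x : V) (k : Fin 23) :
    C.B x (F.z k) = C.B x (ρ F j k) - (∑ l, C.B x (ρ F j l)) / 23 := by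
  rw [sum_ρ, ρ, map_add, map_smul, smul_eq_mul]
  ring

theorem eq_Φ {C : Core G} (F : C.Fr) {j : ℚ} (hj : j ≠ 0) (x : V) :
    x = Φ F j fun k => C.B x (ρ F j k) := by
  conv_lhs => rw [fr_expand F x]
  simp only [Φ, ← Bz F j x]
  rw [sum_ρ, mul_div_cancel_left₀ _ hj]

theorem norm_eq {C : Core G} (F : C.Fr) {j : ℚ} (hj : j ^ 2 * C.d = 24) (x : V) :
    24 * C.B x x = 24 * ∑ k, C.B x (ρ F j k) ^ 2 - (∑ k, C.B x (ρ F j k)) ^ 2 := by
  rw [fr_norm F x x]
  have h1 : ∀ k, C.B x (F.z k) * C.B x (F.z k) = C.B x (ρ F j k) ^ 2 -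
      C.B x (ρ F j k) * (2 * (∑ l, C.B x (ρ F j l)) / 23) +
        ((∑ l, C.B x (ρ F j l)) / 23) ^ 2 := fun k => by
    rw [Bz F j x k]; ring
  simp only [h1, sum_add_distrib, sum_sub_distrib, ← sum_mul, sum_const, card_univ,
    Fintype.card_fin]
  rw [sum_ρ]
  have hd0 := C.d_ne
  have h2 : C.B x C.w * C.B x C.w / (23 * C.d) = (j * C.B x C.w) ^ 2 / (23 * 24) := by
    rw [← hj]
    have hj0 : j ≠ 0 := by rintro rfl; simp at hj
    field_simp
  rw [h2]
  simp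
  ring

end RA3

theorem ra3 [Finite G] {C : Core G} (F : C.Fr) (hd : C.d ≠ 4) : False := by
  obtain ⟨j, hj, hL⟩ := RA3.exists_j F hd
  have hd0 := C.d_ne
  have hj0 : j ≠ 0 := by rintro rfl; simp at hj
  set u : V := (1 / (j * C.d)) • C.w with hu
  have huu : 24 * C.B u u = 23 := by
    rw [hu, map_smul, map_smul, LinearMap.smul_apply, C.Bww, smul_eq_mul, smul_eq_mul, ← hj]
    field_simp
  have h0 : u ≠ 0 := fun h => by rw [h] at huu; simp at huu
  refine orb C h0 (ι := Option (Fin 23)) (by simp)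
    (fun a => RA3.Φ F j (a.elim (fun _ => 1) fun i k => if k = i then 1 else 0)) fun g => ?_
  set x := C.r g u with hx
  have hint : ∀ k, IsI (C.B x (RA3.ρ F j k)) := fun k => by
    rw [hx, C.toFm.inv', C.symm]
    exact RA3.root_int F hd hj (C.Linv _ _ (hL k)) (RA34.root_inv _ (RA3.ρρ F hj k))
  choose n hn using hint
  have hxx := RA3.norm_eq F hj x
  rw [hx, C.inv, huu, ← hx] at hxx
  simp only [hn] at hxx
  have hex := RA3.eq_Φ F hj0 x
  simp only [hn] at hex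
  obtain ⟨ε, hε, h | ⟨i, h⟩⟩ := RA3.int_lem n (by exact_mod_cast hxx.symm)
  · refine ⟨none, ?_⟩
    rcases hε with rfl | rfl
    · left; rw [hex]; simp [h]
    · right; rw [hex, ← RA3.Φ_neg]; simp [h]
  · refine ⟨some i, ?_⟩
    rcases hε with rfl | rfl
    · left; rw [hex]; simp [h]
    · right; rw [hex, ← RA3.Φ_neg]
      congr 1
      funext k
      rw [h]
      by_cases hk : k = i <;> simp [hk]

end Cfsg.Agent.R23
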