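import Cfsg.Agent.R23.RA34

set_option autoImplicit false

namespace Cfsg.Agent.R23

open Matrix Finset

variable {G : Type*} [Group G]

namespace RA4

theorem types {C : Core G} (F : C.Fr) (hd : C.d = 4) {ρ : V} (hρ : ρ ∈ C.L)
    (h2 : C.B ρ ρ = 2) :
    (C.B ρ C.w = 0 ∧ ∀ i, IsI (C.B ρ (F.z i))) ∨
    (∃ (j η : ℚ) (p q : Fin 23), (η = 1 ∨ η = -1) ∧ (j = 1 ∨ j = -1) ∧ C.B ρ C.w = j * 4 ∧
      ∀ k, C.B ρ (F.z k) =
        η * ((if k = p then 1 else 0) + (if k = q then 1 else 0) - 2 / 23)) := by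
  rcases fr_types F hρ h2 with h | ⟨j, η, i, -, hj, -⟩ | ⟨j, η, p, q, -, hη, hj, hw, hk⟩
  · exact Or.inl h
  · rw [hd] at hj
    have h6 : j ^ 2 = 6 := by push_cast at hj; omega
    have h1 : j ≤ 2 := by nlinarith
    have h1 : -2 ≤ j := by nlinarith
    interval_cases j <;> simp at h6
  · rw [hd] at hj hw
    have h6 : j ^ 2 = 1 := by push_cast at hj; omega
    refine Or.inr ⟨j, η, p, q, hη, ?_, by simpa using hw, hk⟩
    rcases sq_eq_one_iff.1 h6 with rfl | rfl <;> simp

/-- the orthonormal frame -/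
def e {C : Core G} (F : C.Fr) (j : ℚ) (k : Fin 23) : V := F.z k + (j / 46) • C.w

theorem ee {C : Core G} (F : C.Fr) (hd : C.d = 4) {j : ℚ} (hj : j = 1 ∨ j = -1) (k l : Fin 23) :
    C.B (e F j k) (e F j l) = if k = l then 1 else 0 := by
  simp only [e, map_add, map_smul, LinearMap.add_apply, LinearMap.smul_apply, F.zz, F.zw,
    C.symm C.w (F.z _), C.Bww, hd, smul_eq_mul]
  rcases hj with rfl | rfl <;> push_cast <;> ring

theorem expand {C : Core G} (F : C.Fr) (hd : C.d = 4) {j : ℚ} (hj : j = 1 ∨ j = -1) (x : V) :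
    x = ∑ k, C.B x (e F j k) • e F j k := by
  have h1 : ∀ k, C.B x (e F j k) • e F j k = C.B x (F.z k) • F.z k +
      (j / 46 * C.B x C.w) • F.z k + (C.B x (F.z k) * (j / 46)) • C.w +
      (j / 46 * C.B x C.w * (j / 46)) • C.w := fun k => by
    simp only [e, map_add, map_smul, smul_eq_mul]
    module
  simp only [h1, sum_add_distrib, ← smul_sum, RA34.sum_z F, ← sum_smul, ← sum_mul,
    RA34.sum_B F, sum_const, card_univ, Fintype.card_fin, smul_zero, zero_mul, zero_smul,
    add_zero]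
  conv_lhs => rw [fr_expand F x]
  rw [hd]
  congr 1
  rcases hj with rfl | rfl <;> push_cast <;> module

theorem exists_j [Finite G] {C : Core G} (F : C.Fr) (hd : C.d = 4) :
    ∃ j : ℚ, (j = 1 ∨ j = -1) ∧ ∀ k l, e F j k + e F j l ∈ C.L := by
  obtain ⟨ρ, hρ, h2, hw⟩ := RA34.exists_root F
  rcases types F hd hρ h2 with h | ⟨j, η, p, q, hη, hj, hw, hk⟩
  · exact absurd h.1 hw
  refine ⟨η * j, by rcases hη with rfl | rfl <;> rcases hj with rfl | rfl <;> simp,
    fun k l => ?_⟩
  have h1 : η • ρ = F.z p + F.z q + (η * j / 23) • C.w := by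
    conv_lhs => rw [fr_expand F ρ]
    have hηη : η * η = 1 := by rcases hη with rfl | rfl <;> simp
    simp only [hk, hw, hd, smul_add, smul_sum, smul_smul, ← mul_assoc, hηη, one_mul, sub_smul,
      add_smul, sum_add_distrib, sum_sub_distrib, ite_smul, one_smul, zero_smul, sum_ite_eq',
      mem_univ, if_true]
    rw [← smul_sum, RA34.sum_z F, smul_zero, sub_zero]
    congr 2
    push_cast
    ring
  have h3 : e F (η * j) k + e F (η * j) l = (F.z k - F.z p) + (F.z l - F.z q) + η • ρ := by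
    have h4 : (η * j / 23) • C.w = (η * j / 46) • C.w + (η * j / 46) • C.w := by
      rw [← add_smul]; congr 1; ring
    rw [h1, e, e, h4]; abel
  rw [h3]
  exact C.L.add_mem (C.L.add_mem (F.zL _ _) (F.zL _ _)) (RA34.eta_mem hη hρ)

theorem root_int {C : Core G} (F : C.Fr) (hd : C.d = 4) {j : ℚ} (hj : j = 1 ∨ j = -1)
    (hL : ∀ k l, e F j k + e F j l ∈ C.L) (k : Fin 23) {ρ : V} (hρ : ρ ∈ C.L)
    (h2 : C.B ρ ρ = 2) : IsI (C.B ρ (e F j k)) := by
  obtain ⟨m, hm⟩ := C.int _ hρ _ (hL k k)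
  rw [map_add] at hm
  have h0 : C.B ρ (e F j k) = C.B ρ (F.z k) + j / 46 * C.B ρ C.w := by
    rw [e, map_add, map_smul, smul_eq_mul]
  rcases types F hd hρ h2 with h | ⟨j', η, p, q, hη, hj', hw, hk⟩
  · rw [h0, h.1, mul_zero, add_zero]; exact h.2 k
  obtain ⟨N, hN⟩ : ∃ N : ℤ, ((if k = p then 1 else 0) + (if k = q then 1 else 0) : ℚ) = N :=
    ⟨(if k = p then 1 else 0) + (if k = q then 1 else 0), by push_cast; rfl⟩
  rw [hk, hw, hN] at h0
  rw [h0] at hm ⊢
  have bad : ∀ a b : ℤ, (23 * a : ℚ) = 23 * b + 8 → False := fun a b h => by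
    have : 23 * a = 23 * b + 8 := by exact_mod_cast h
    omega
  rcases hη with rfl | rfl <;> rcases hj with rfl | rfl <;> rcases hj' with rfl | rfl
  · exact ⟨N, by ring⟩
  · exact (bad (2 * N) m (by push_cast; linarith)).elim
  · exact (bad (2 * N) m (by push_cast; linarith)).elim
  · exact ⟨N, by ring⟩
  · exact (bad m (-2 * N) (by push_cast; linarith)).elim
  · exact ⟨-N, by push_cast; ring⟩
  · exact ⟨-N, by push_cast; ring⟩
  · exact (bad m (-2 * N) (by push_cast; linarith)).elim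

theorem half (u : Fin 23 → ℚ) (ha : ∀ k l, k ≠ l → IsI (u k + u l))
    (hs : ∀ k l, k ≠ l → IsI (u k - u l)) (h : ∑ k, u k ^ 2 = 1) (k : Fin 23) : IsI (u k) := by
  have h1 : ∀ k, IsI (2 * u k) := fun k => by
    obtain ⟨l, hl⟩ := _root_.exists_ne k
    convert (ha k l hl.symm).add (hs k l hl.symm) using 1
    ring
  choose v hv using h1
  have h2 : ∑ k, v k ^ 2 = 4 := by
    have : ((∑ k, v k ^ 2 : ℤ) : ℚ) = 4 := by
      push_cast
      simp only [← hv, mul_pow, ← mul_sum, h]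
      norm_num
    exact_mod_cast this
  by_contra hk
  have h3 : ∀ l, 1 ≤ v l ^ 2 := fun l => by
    have : v l ≠ 0 := fun h0 => hk (by
      have h4 : u l = 0 := by have := hv l; rw [h0] at this; simpa using this
      by_cases hkl : k = l
      · rw [hkl, h4]; exact isI_zero
      · simpa [h4] using hs k l hkl)
    have : 0 < v l ^ 2 := by positivity
    omega
  have h4 := sum_le_sum (s := univ) fun l _ => h3 l
  rw [h2] at h4
  simp at h4

end RA4

theorem ra4 [Finite G] {C : Core G} (F : C.Fr) (hd : C.d = 4) : False := by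
  obtain ⟨j, hj, hL⟩ := RA4.exists_j F hd
  have hee := RA4.ee F hd hj
  have h0 : RA4.e F j 0 ≠ 0 := fun h => by
    have := hee 0 0
    rw [h] at this
    simp at this
  refine orb C h0 (ι := Fin 23) (by simp) (RA4.e F j) fun g => ?_
  set x := C.r g (RA4.e F j 0) with hx
  have hint : ∀ ρ ∈ C.L, C.B ρ ρ = 2 → IsI (C.B x ρ) := fun ρ hρ h2 => by
    rw [hx, C.toFm.inv', C.symm]
    exact RA4.root_int F hd hj hL 0 (C.Linv _ _ hρ) (RA34.root_inv _ h2)
  have hxx : C.B x x = 1 := by rw [hx, C.inv, hee]; simp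
  have hex := RA4.expand F hd hj x
  have hsum : ∑ k, C.B x (RA4.e F j k) ^ 2 = 1 := by
    rw [← hxx]
    conv_rhs => rw [hex]
    rw [map_sum]
    refine sum_congr rfl fun k _ => ?_
    rw [map_smul, ← hex, smul_eq_mul, sq]
  have hI := RA4.half (fun k => C.B x (RA4.e F j k))
    (fun k l hkl => by
      rw [← map_add]
      refine hint _ (hL k l) ?_
      simp only [map_add, LinearMap.add_apply, hee]
      simp [hkl, hkl.symm]
      norm_num)
    (fun k l hkl => by
      rw [← map_sub]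
      refine hint _ ?_ ?_
      · have : RA4.e F j k - RA4.e F j l = F.z k - F.z l := by simp [RA4.e]
        rw [this]; exact F.zL k l
      · simp only [map_sub, LinearMap.sub_apply, hee]
        simp [hkl, hkl.symm]
        norm_num) hsum
  choose n hn using hI
  have hs : ∑ k, n k ^ 2 = 1 := by
    simp only [hn] at hsum
    exact_mod_cast hsum
  obtain ⟨i, hi, hk⟩ := RA34.sq_one n hs
  have hxi : x = (n i : ℚ) • RA4.e F j i := by
    rw [hex, sum_eq_single i, hn]
    · intro k _ hki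
      rw [hn, hk k hki]; simp
    · simp
  refine ⟨i, ?_⟩
  rcases hi with hi | hi
  · left; rw [hxi, hi]; simp
  · right; rw [hxi, hi]; simp

end Cfsg.Agent.R23
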