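import Cfsg.Agent.R23.Orb

set_option autoImplicit false

namespace Cfsg.Agent.R23

open Matrix

variable {G : Type*} [Group G]

theorem rb_key (C : Core G) (h0 : C.NoRoot0) {a b : V} (ha : a ∈ C.L) (hb : b ∈ C.L) (a2 : C.B a a = 2)
    (b2 : C.B b b = 2) (hw : C.B a C.w = C.B b C.w) (hne : a ≠ b) : C.B a b ≤ 0 := by
  have hm := C.L.sub_mem ha hb
  have e : C.B (a - b) (a - b) = 4 - 2 * C.B a b := by
    simp only [map_sub, LinearMap.sub_apply, a2, b2, C.symm b a]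
    ring
  have h1 := C.pos _ (sub_ne_zero.2 hne)
  have h2 := h0 _ hm (by rw [map_sub, LinearMap.sub_apply, hw, sub_self])
  obtain ⟨k, hk⟩ := C.even _ hm
  rw [hk] at h1 h2 e
  have k0 : 0 < k := by
    have : (0 : ℚ) < k := by linarith
    exact_mod_cast this
  have k1 : k ≠ 1 := fun e => h2 (by rw [e]; norm_num)
  have k2 : (2 : ℚ) ≤ k := by
    have : 2 ≤ k := by omega
    exact_mod_cast this
  linarith

theorem rb_sum (C : Core G) (a : V) {x : V} {j : ℤ} (hj : C.B x C.w = j * C.d) :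
    ∑ i ∈ Finset.range 23, C.B a (C.r (C.σ ^ i) x) = j * C.B a C.w := by
  rw [← map_sum, C.nsum, map_smul, hj, mul_div_cancel_right₀ _ C.d_ne, smul_eq_mul]

theorem rb_j (C : Core G) (h0 : C.NoRoot0) {x : V} (hx : x ∈ C.L) (x2 : C.B x x = 2) :
    C.B x C.w = C.d ∨ C.B x C.w = -C.d := by
  obtain ⟨j, hj⟩ := C.dec x hx
  have j0 : j ≠ 0 := fun e => h0 x hx (by rw [hj, e]; simp) x2
  have hs := rb_sum C x hj
  rw [Finset.sum_range_succ', pow_zero, map_one, Module.End.one_apply, x2, hj] at hs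
  have hle : ∑ i ∈ Finset.range 22, C.B x (C.r (C.σ ^ (i + 1)) x) ≤ 0 := by
    refine Finset.sum_nonpos fun i hi => rb_key C h0 hx (C.Linv _ _ hx) x2 (by rw [C.inv, x2])
      (C.B_σ _ _).symm fun e => ?_
    obtain ⟨t, ht⟩ := C.fix_pow (Nat.succ_pos i) (by have := Finset.mem_range.1 hi; omega) e.symm
    rw [ht, map_smul, LinearMap.smul_apply, C.Bww, smul_eq_mul] at hj
    rw [ht] at x2
    simp only [map_smul, LinearMap.smul_apply, C.Bww, smul_eq_mul] at x2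
    have t1 : 23 * t = j := mul_right_cancel₀ C.d_ne (by linarith)
    have h46 : (j : ℚ) ^ 2 * C.d = 46 := by rw [← t1]; linarith
    have h46' : j ^ 2 * (C.d : ℤ) = 46 := by exact_mod_cast h46
    have p23 : Prime (23 : ℤ) := Int.prime_iff_natAbs_prime.2 (by norm_num)
    rcases p23.dvd_or_dvd (show (23 : ℤ) ∣ j ^ 2 * C.d from h46' ▸ by norm_num) with h | h
    · obtain ⟨m, rfl⟩ := p23.dvd_of_dvd_pow h
      have : (529 : ℤ) ∣ 46 := ⟨m ^ 2 * C.d, by rw [← h46']; ring⟩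
      norm_num at this
    · exact C.d23 (by exact_mod_cast h)
  have h2 : (j : ℚ) * (j * C.d) ≤ 2 := by linarith
  have h2' : j * (j * (C.d : ℤ)) ≤ 2 := by exact_mod_cast h2
  have d2 : 2 ≤ (C.d : ℤ) := by exact_mod_cast Nat.le_of_dvd C.dpos C.d2
  have jj : j * j ≤ 1 := by nlinarith [mul_self_nonneg j]
  have : j = 1 ∨ j = -1 := by
    have h1 : j ≤ 1 := by nlinarith
    have h2 : -1 ≤ j := by nlinarith
    omega
  rcases this with rfl | rfl
  · exact .inl (by rw [hj]; simp)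
  · exact .inr (by rw [hj]; simp)

theorem rb_orb (C : Core G) (h0 : C.NoRoot0) {a x : V} (ha : a ∈ C.L) (hx : x ∈ C.L) (a2 : C.B a a = 2)
    (x2 : C.B x x = 2) (hw : C.B a C.w = C.B x C.w) : ∃ i : Fin 23, a = C.r (C.σ ^ i.val) x := by
  by_contra! hne
  obtain ⟨j, hj⟩ := C.dec x hx
  have j0 : j ≠ 0 := fun e => h0 x hx (by rw [hj, e]; simp) x2
  have hs := rb_sum C a hj
  have hle : ∑ i ∈ Finset.range 23, C.B a (C.r (C.σ ^ i) x) ≤ 0 :=
    Finset.sum_nonpos fun i hi => rb_key C h0 ha (C.Linv _ _ hx) a2 (by rw [C.inv, x2])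
      (by rw [C.B_σ, hw]) (hne ⟨i, Finset.mem_range.1 hi⟩)
  rw [hs, hw, hj, ← mul_assoc] at hle
  have h1 : (0 : ℚ) < (j : ℚ) * j := mul_self_pos.2 (by exact_mod_cast j0)
  have h2 : (0 : ℚ) < C.d := by exact_mod_cast C.dpos
  exact absurd (mul_pos h1 h2) (not_lt.2 hle)

theorem rb [Finite G] (C : Core G) (h0 : C.NoRoot0) : C.NoRoot := by
  intro x hx x2
  have x0 : x ≠ 0 := fun e => by rw [e] at x2; simp at x2
  refine orb C x0 (ι := Fin 23) (by simp) (fun i => C.r (C.σ ^ i.val) x) fun g => ?_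
  have gx := C.Linv g _ hx
  have g2 : C.B (C.r g x) (C.r g x) = 2 := by rw [C.inv, x2]
  have : C.B (C.r g x) C.w = C.B x C.w ∨ C.B (-C.r g x) C.w = C.B x C.w := by
    rw [map_neg, LinearMap.neg_apply]
    rcases rb_j C h0 hx x2 with e | e <;> rcases rb_j C h0 gx g2 with e' | e' <;> simp [e, e']
  rcases this with e | e
  · obtain ⟨i, hi⟩ := rb_orb C h0 gx hx g2 x2 e
    exact ⟨i, .inl hi⟩
  · obtain ⟨i, hi⟩ := rb_orb C h0 (C.L.neg_mem gx) hx (by simpa using g2) x2 e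
    exact ⟨i, .inr (by rw [← hi, neg_neg])⟩

end Cfsg.Agent.R23
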