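import Cfsg.Agent.R23.Defs

set_option autoImplicit false

namespace Cfsg.Agent.R23

open Matrix

variable {G : Type*} [Group G]

namespace TAB

theorem tf2 (s s' : Fin 2 → ℚ) :
    tf T2 s s' = 4 * s 0 * s' 0 + s 0 * s' 1 + s 1 * s' 0 + 6 * s 1 * s' 1 := by
  simp [tf, T2, dotProduct, mulVec, Fin.sum_univ_two]
  ring

theorem mv0 (s : Fin 2 → ℚ) : (T2.map (Int.cast : ℤ → ℚ) *ᵥ s) 0 = 4 * s 0 + s 1 := by
  simp [T2, dotProduct, mulVec, Fin.sum_univ_two]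

theorem mv1 (s : Fin 2 → ℚ) : (T2.map (Int.cast : ℤ → ℚ) *ᵥ s) 1 = s 0 + 6 * s 1 := by
  simp [T2, dotProduct, mulVec, Fin.sum_univ_two]

theorem sign {d : ℕ} (P : Pt 2 d) (hT : P.T = T2) {v0 v1 : ℤ}
    (hd : 4 * v0 ^ 2 + 2 * v0 * v1 + 6 * v1 ^ 2 = d) : ∃ η : ℤ, η ^ 2 = 1 ∧
      IsI (η * ((-6 * v1 - v0) / 23) - P.t 0) ∧ IsI (η * ((v1 + 4 * v0) / 23) - P.t 1) := by
  obtain ⟨α, hα⟩ := P.dualm 0
  obtain ⟨β, hβ⟩ := P.dualm 1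
  obtain ⟨m, hm⟩ := P.nrm
  rw [hT] at hα hβ hm
  rw [mv0] at hα
  rw [mv1] at hβ
  rw [tf2] at hm
  have t0 : P.t 0 = (6 * α - β) / 23 := by linarith
  have t1 : P.t 1 = (4 * β - α) / 23 := by linarith
  have hd' : (d : ℚ) = 4 * v0 ^ 2 + 2 * v0 * v1 + 6 * v1 ^ 2 := by exact_mod_cast hd.symm
  rw [t0, t1, hd'] at hm
  have e : (6 * α ^ 2 - 2 * α * β + 4 * β ^ 2 - (4 * v0 ^ 2 + 2 * v0 * v1 + 6 * v1 ^ 2) : ℚ) =
      46 * m := by linarith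
  have e' : 6 * α ^ 2 - 2 * α * β + 4 * β ^ 2 - (4 * v0 ^ 2 + 2 * v0 * v1 + 6 * v1 ^ 2) = 46 * m := by
    exact_mod_cast e
  have dv : (23 : ℤ) ∣ 4 * ((β - 6 * α - (v0 + 6 * v1)) * (β - 6 * α + (v0 + 6 * v1))) :=
    ⟨2 * m + (6 * α ^ 2 - 2 * α * β) - (6 * v1 ^ 2 + 2 * v0 * v1), by linear_combination e'⟩
  have p23 : Prime (23 : ℤ) := Int.prime_iff_natAbs_prime.mpr (by norm_num)
  rcases p23.dvd_or_dvd dv with h | h
  · exact absurd h (by decide)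
  rcases p23.dvd_or_dvd h with ⟨c, h⟩ | ⟨c, h⟩
  · have h' : (β - 6 * α - (v0 + 6 * v1) : ℚ) = 23 * c := by exact_mod_cast h
    refine ⟨1, by norm_num, ⟨c, ?_⟩, ⟨-4 * c - α - v1, ?_⟩⟩
    · rw [t0]; push_cast; linarith
    · rw [t1]; push_cast; linarith
  · have h' : (β - 6 * α + (v0 + 6 * v1) : ℚ) = 23 * c := by exact_mod_cast h
    refine ⟨-1, by norm_num, ⟨c, ?_⟩, ⟨-4 * c - α + v1, ?_⟩⟩
    · rw [t0]; push_cast; linarith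
    · rw [t1]; push_cast; linarith

theorem gen (C : Core G) (P : Pt 2 C.d) (hT : P.T = T2) (v0 v1 n0 n1 s0 s1 k0 ε : ℤ)
    (hε : ε ^ 2 = 1) (hdet : v0 * n1 - v1 * n0 = ε)
    (hd : 4 * v0 ^ 2 + 2 * v0 * v1 + 6 * v1 ^ 2 = C.d)
    (hk : 4 * n0 * v0 + n0 * v1 + n1 * v0 + 6 * n1 * v1 = k0)
    (cop : IsCoprime k0 (C.d : ℤ)) (d3 : 2 < C.d)
    (uniq : ∀ k : ℤ, 2 * |k| ≤ C.d → (2 * C.d : ℤ) ∣ 23 + k ^ 2 → (4 * C.d : ℤ) ≤ 23 + k ^ 2 →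
      k = k0 ∨ k = -k0)
    (ss : 4 * s0 ^ 2 + 2 * s0 * s1 + 6 * s1 ^ 2 = 4 ∨ 4 * s0 ^ 2 + 2 * s0 * s1 + 6 * s1 ^ 2 = 6 ∨
      4 * s0 ^ 2 + 2 * s0 * s1 + 6 * s1 ^ 2 = 8)
    (vs0 : 2 ∣ v0 - s0) (vs1 : 2 ∣ v1 - s1) : Nonempty (C.Tab P) := by
  obtain ⟨η, hη, h0, h1⟩ := sign P hT hd
  have hη' : (η : ℚ) ^ 2 = 1 := by exact_mod_cast hη
  have hε' : (ε : ℚ) ^ 2 = 1 := by exact_mod_cast hε
  have hdet' : (v0 * n1 - v1 * n0 : ℚ) = ε := by exact_mod_cast hdet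
  have hd' : (C.d : ℚ) = 4 * v0 ^ 2 + 2 * v0 * v1 + 6 * v1 ^ 2 := by exact_mod_cast hd.symm
  have hk' : (k0 : ℚ) = 4 * n0 * v0 + n0 * v1 + n1 * v0 + 6 * n1 * v1 := by exact_mod_cast hk.symm
  have dne := C.d_ne
  refine ⟨{ v := ![v0, v1], t₁ := ![η * ((-6 * v1 - v0) / 23), η * ((v1 + 4 * v0) / 23)]
            n₀ := ![n0, n1], s₀ := ![s0, s1], k₀ := k0
            vI := ?_, nI := ?_, sI := ?_, vv := ?_, tt := ?_, tv := ?_, tP := ?_, gen := ?_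
            dec := ?_, prim := ?_, nv := ?_, nn := ?_, cop := cop, d3 := d3, uniq := uniq
            ss := ?_, vs := ?_ }⟩
  · exact Fin.forall_fin_two.mpr ⟨isI_int _, isI_int _⟩
  · exact Fin.forall_fin_two.mpr ⟨isI_int _, isI_int _⟩
  · exact Fin.forall_fin_two.mpr ⟨isI_int _, isI_int _⟩
  · rw [tf2, hd']; simp only [cons_val_zero, cons_val_one]; ring
  · rw [tf2, hd']; simp only [cons_val_zero, cons_val_one]
    linear_combination ((4 * v0 ^ 2 + 2 * v0 * v1 + 6 * v1 ^ 2 : ℚ) / 23) * hη'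
  · rw [tf2]; simp only [cons_val_zero, cons_val_one]; ring
  · exact Fin.forall_fin_two.mpr ⟨h0, h1⟩
  · intro s hs e
    obtain ⟨α, hα⟩ := hs 0
    obtain ⟨β, hβ⟩ := hs 1
    rw [mv0] at hα
    rw [mv1] at hβ
    rw [tf2] at e
    simp only [cons_val_zero, cons_val_one] at e
    have t0 : s 0 = (6 * α - β) / 23 := by linarith
    have t1 : s 1 = (4 * β - α) / 23 := by linarith
    have e' : (α * v0 + β * v1 : ℚ) = 0 := by rw [← hα, ← hβ]; linear_combination e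
    have a1 : (α : ℚ) = -(ε * (α * n0 + β * n1)) * v1 := by
      linear_combination (-α : ℚ) * hε' - ε * α * hdet' + ε * n1 * e'
    have a2 : (β : ℚ) = (ε * (α * n0 + β * n1)) * v0 := by
      linear_combination (-β : ℚ) * hε' - ε * β * hdet' - ε * n0 * e'
    refine ⟨ε * (α * n0 + β * n1) * η, ?_⟩
    generalize hj : (ε * (α * n0 + β * n1) : ℚ) = j at a1 a2
    ext i
    fin_cases i
    · simp only [Fin.zero_eta, Pi.smul_apply, cons_val_zero, smul_eq_mul]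
      push_cast
      rw [hj, t0, a1, a2]
      linear_combination (-j * ((-6 * v1 - v0) / 23) : ℚ) * hη'
    · simp only [Fin.mk_one, Pi.smul_apply, cons_val_one, cons_val_zero, smul_eq_mul]
      push_cast
      rw [hj, t1, a1, a2]
      linear_combination (-j * ((v1 + 4 * v0) / 23) : ℚ) * hη'
  · intro s
    ext i
    rw [tf2, tf2]
    fin_cases i
    · simp only [Fin.zero_eta, Pi.add_apply, Pi.smul_apply, cons_val_zero, cons_val_one, smul_eq_mul]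
      field_simp
      rw [hd']
      linear_combination (-(23 : ℚ) * (-(s 0) * v1 + s 1 * v0) * (-6 * v1 - v0)) * hη'
    · simp only [Fin.mk_one, Pi.add_apply, Pi.smul_apply, cons_val_zero, cons_val_one, smul_eq_mul]
      field_simp
      rw [hd']
      linear_combination (-(23 : ℚ) * (-(s 0) * v1 + s 1 * v0) * (v1 + 4 * v0)) * hη'
  · intro c hc
    have c0 := hc 0
    have c1 := hc 1
    simp only [cons_val_zero, cons_val_one] at c0 c1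
    have := ((c0.mul (isI_int n1)).sub (c1.mul (isI_int n0))).mul (isI_int ε)
    convert this using 1
    linear_combination (-c) * hε' - c * ε * hdet'
  · rw [tf2, hk']; simp only [cons_val_zero, cons_val_one]
  · rw [tf2, hk', hd']; simp only [cons_val_zero, cons_val_one]
    linear_combination 23 * hε' + 23 * (v0 * n1 - v1 * n0 + ε : ℚ) * hdet'
  · have e : tf T2 ![(s0 : ℚ), s1] ![(s0 : ℚ), s1] =
        ((4 * s0 ^ 2 + 2 * s0 * s1 + 6 * s1 ^ 2 : ℤ) : ℚ) := by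
      rw [tf2]; simp only [cons_val_zero, cons_val_one]; push_cast; ring
    rw [e]
    rcases ss with h | h | h <;> rw [h] <;> norm_num
  · obtain ⟨a, ha⟩ := vs0
    obtain ⟨b, hb⟩ := vs1
    refine Fin.forall_fin_two.mpr ⟨⟨a, ?_⟩, ⟨b, ?_⟩⟩
    · simp only [cons_val_zero]; exact_mod_cast ha
    · simp only [cons_val_zero, cons_val_one]; exact_mod_cast hb

theorem uq (d : ℕ) (k0 : ℤ)
    (h : ∀ k ∈ Finset.Icc (-18 : ℤ) 18, 2 * |k| ≤ d → (2 * d : ℤ) ∣ 23 + k ^ 2 →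
      (4 * d : ℤ) ≤ 23 + k ^ 2 → k = k0 ∨ k = -k0) (hd : d ≤ 36) :
    ∀ k : ℤ, 2 * |k| ≤ d → (2 * d : ℤ) ∣ 23 + k ^ 2 → (4 * d : ℤ) ≤ 23 + k ^ 2 →
      k = k0 ∨ k = -k0 := by
  intro k h1
  refine h k (Finset.mem_Icc.mpr (abs_le.mp ?_)) h1
  omega

end TAB

open TAB in
theorem tab (C : Core G) (P : Pt 2 C.d) (hd : C.d ∈ ({4, 6, 8, 12, 18, 24, 26, 36} : Finset ℕ)) (hT : P.T = T2) :
    Nonempty (C.Tab P) := by
  simp only [Finset.mem_insert, Finset.mem_singleton] at hd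
  rcases hd with h | h | h | h | h | h | h | h
  · refine gen C P hT 1 0 0 1 1 0 1 1 ?_ ?_ ?_ ?_ ?_ ?_ (uq _ _ ?_ ?_) ?_ ?_ ?_ <;>
      (try simp only [h, Int.isCoprime_iff_gcd_eq_one]) <;> decide
  · refine gen C P hT 0 1 (-1) 0 0 1 (-1) 1 ?_ ?_ ?_ ?_ ?_ ?_ (uq _ _ ?_ ?_) ?_ ?_ ?_ <;>
      (try simp only [h, Int.isCoprime_iff_gcd_eq_one]) <;> decide
  · refine gen C P hT (-1) 1 (-1) 0 (-1) 1 3 1 ?_ ?_ ?_ ?_ ?_ ?_ (uq _ _ ?_ ?_) ?_ ?_ ?_ <;>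
      (try simp only [h, Int.isCoprime_iff_gcd_eq_one]) <;> decide
  · refine gen C P hT 1 1 (-1) 0 (-1) 1 (-5) 1 ?_ ?_ ?_ ?_ ?_ ?_ (uq _ _ ?_ ?_) ?_ ?_ ?_ <;>
      (try simp only [h, Int.isCoprime_iff_gcd_eq_one]) <;> decide
  · refine gen C P hT 2 (-1) 1 0 0 1 7 1 ?_ ?_ ?_ ?_ ?_ ?_ (uq _ _ ?_ ?_) ?_ ?_ ?_ <;>
      (try simp only [h, Int.isCoprime_iff_gcd_eq_one]) <;> decide
  · refine gen C P hT 1 (-2) 0 1 1 0 (-11) 1 ?_ ?_ ?_ ?_ ?_ ?_ (uq _ _ ?_ ?_) ?_ ?_ ?_ <;>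
      (try simp only [h, Int.isCoprime_iff_gcd_eq_one]) <;> decide
  · refine gen C P hT 2 1 (-1) 0 0 1 (-9) 1 ?_ ?_ ?_ ?_ ?_ ?_ (uq _ _ ?_ ?_) ?_ ?_ ?_ <;>
      (try simp only [h, Int.isCoprime_iff_gcd_eq_one]) <;> decide
  · refine gen C P hT 3 (-1) 1 0 (-1) 1 11 1 ?_ ?_ ?_ ?_ ?_ ?_ (uq _ _ ?_ ?_) ?_ ?_ ?_ <;>
      (try simp only [h, Int.isCoprime_iff_gcd_eq_one]) <;> decide

end Cfsg.Agent.R23
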