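import Cfsg.Agent.R23.Form
import Cfsg.Agent.R23.Min2
import Cfsg.Agent.R23.Even
import Cfsg.Agent.R23.Cor
import Cfsg.Agent.R23.RB
import Cfsg.Agent.R23.RA1
import Cfsg.Agent.R23.RA3
import Cfsg.Agent.R23.RA4
import Cfsg.Agent.R23.SD
import Cfsg.Agent.R23.Glue
import Cfsg.Agent.R23.No28
import Cfsg.Agent.R23.PT
import Cfsg.Agent.R23.QR
import Cfsg.Agent.R23.BND
import Cfsg.Agent.R23.TAB
import Cfsg.Agent.R23.EXT1
import Cfsg.Agent.R23.EXT2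
import Cfsg.Agent.R23.FIN
import Cfsg.Agent.S1632
import Cfsg.Agent.S0406

set_option autoImplicit false

namespace Cfsg.Agent.R23

open Matrix

variable {G : Type*} [Group G]

theorem glue' (C : Core G) {k : ℕ} (P : Pt k C.d) {n : ℕ} (hn : n = 22 + k) :
    ∃ (A : Matrix (Fin n) (Fin n) ℤ) (e : (Fin n → ℤ) ≃+ C.N P), A.IsSymm ∧ A.det = 1 ∧
      (∀ x, ((x ⬝ᵥ (A *ᵥ x) : ℤ) : ℚ) = C.β P (e x) (e x)) ∧
      (∀ x : Fin n → ℤ, x ≠ 0 → 0 < x ⬝ᵥ (A *ᵥ x)) ∧ ∀ x : Fin n → ℤ, (2 : ℤ) ∣ x ⬝ᵥ (A *ᵥ x) := by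
  obtain ⟨A, e, h1, h2, h3⟩ := glue C P hn
  refine ⟨A, e, h1, h2, h3, fun x hx => ?_, fun x => ?_⟩
  · have h4 : ((e x : C.N P) : V × (Fin k → ℚ)) ≠ 0 := fun h =>
      hx (e.injective (by rw [map_zero]; exact Subtype.ext h))
    have := β_pos C P h4
    rw [← h3] at this
    exact_mod_cast this
  · obtain ⟨c, hc⟩ := N_even C P (e x).2
    rw [← h3] at hc
    exact ⟨c, by exact_mod_cast hc⟩

theorem iso (C : Core G) (h0 : C.NoRoot0) (P : Pt 2 C.d) (hT : P.T = T2) : Nonempty (C.Iso P) := by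
  obtain ⟨A, e, h1, h2, h3, h4, h5⟩ := glue' C P (n := 24) rfl
  have h6 : ∀ x : Fin 24 → ℤ, x ⬝ᵥ (A *ᵥ x) ≠ 2 := fun x h =>
    qr C h0 P hT _ (e x).2 (by rw [← h3, h]; norm_num)
  obtain ⟨c4, c6, c8⟩ := Cfsg.Agent.S1632.result A h1 h4 h5 h2 h6
  obtain ⟨f, hf⟩ := Cfsg.Agent.S0406.result A h1 h4 h5 h6 c4 c6 c8
  refine ⟨⟨hT, e.symm.trans f, fun u => ?_⟩⟩
  obtain ⟨x, rfl⟩ := e.surjective u
  rw [AddEquiv.trans_apply, e.symm_apply_apply, hf, ← h3]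
  push_cast
  rfl

theorem main [Finite G] (R : Rp G) : Concl G := by
  obtain ⟨Λ⟩ := exists_lat R
  obtain ⟨R'⟩ := exists_red Λ
  obtain ⟨E⟩ := exists_ev R'
  obtain ⟨C⟩ := exists_core E
  have h0 : C.NoRoot0 := by
    by_contra h
    obtain ⟨F⟩ := ra1 C h
    by_cases hd : C.d = 4
    · exact ra4 F hd
    · exact ra3 F hd
  rcases exists_pt C.d2 C.d23 with ⟨P, hT⟩ | ⟨⟨P⟩⟩
  · obtain ⟨I⟩ := iso C h0 P hT
    obtain ⟨T⟩ := tab C P (bnd C I (rb C h0)) hT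
    obtain ⟨ψ, t, h1, h2, h3⟩ := ext2 C I T (ext1 C I T)
    exact fin ψ h1 C.ord C.idx t h2 h3
  · obtain ⟨A, -, h1, h2, -, h4, h5⟩ := glue' C P (n := 28) rfl
    exact (no28 A h1 h4 h5 h2).elim

end Cfsg.Agent.R23
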