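import Cfsg.Agent.R23.Defs

/-! Project R23: expansion in a frame and the types of roots. -/

set_option autoImplicit false

namespace Cfsg.Agent.R23

open Matrix

variable {G : Type*} [Group G]

namespace RA2

variable {C : Core G} (F : C.Fr)

theorem pair (a : Fin 23 → ℚ) (k : Fin 23) : C.B (∑ i, a i • F.z i) (F.z k) = a k - (∑ i, a i) / 23 := by
  simp only [map_sum, map_smul, LinearMap.sum_apply, LinearMap.smul_apply, F.zz, smul_eq_mul, mul_sub,
    Finset.sum_sub_distrib, mul_ite, mul_one, mul_zero, Finset.sum_ite_eq', Finset.mem_univ, if_true,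
    ← Finset.sum_mul]
  ring

theorem pairw (a : Fin 23 → ℚ) : C.B (∑ i, a i • F.z i) C.w = 0 := by
  simp only [map_sum, map_smul, LinearMap.sum_apply, LinearMap.smul_apply, F.zw, smul_zero, Finset.sum_const_zero]

theorem sum_z : ∑ i, F.z i = 0 := by
  refine C.toFm.eq_zero ?_
  have h : ∀ k, C.B (∑ i, F.z i) (F.z k) = 0 := fun k => by simpa using pair F (fun _ => 1) k
  rw [map_sum]
  exact Finset.sum_eq_zero fun k _ => h k

theorem sum_a (x : V) : ∑ i, C.B x (F.z i) = 0 := by rw [← map_sum, sum_z, map_zero]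

theorem eq_zero {y : V} (h1 : C.B y C.w = 0) (h2 : ∀ k, C.B y (F.z k) = 0) : y = 0 := by
  have li : LinearIndependent ℚ fun i => F.z i + C.w := by
    refine Fintype.linearIndependent_iff.2 fun a ha k => ?_
    simp only [smul_add, Finset.sum_add_distrib, ← Finset.sum_smul] at ha
    have e1 := congrArg (fun v => C.B v C.w) ha
    have e2 := congrArg (fun v => C.B v (F.z k)) ha
    simp only [map_add, LinearMap.add_apply, pairw, pair, map_smul, LinearMap.smul_apply, C.Bww, C.symm C.w (F.z k),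
      F.zw, smul_eq_mul, map_zero, LinearMap.zero_apply, zero_add, mul_zero, add_zero] at e1 e2
    have e3 : ∑ i, a i = 0 := (mul_eq_zero.1 e1).resolve_right (mul_ne_zero (by norm_num) C.d_ne)
    simpa [e3] using e2
  have sp := li.span_eq_top_of_card_eq_finrank' (by simp)
  refine C.toFm.eq_zero ?_
  have : Submodule.span ℚ (Set.range fun i => F.z i + C.w) ≤ LinearMap.ker (C.B y) := by
    rw [Submodule.span_le]
    rintro _ ⟨i, rfl⟩
    simp [h1, h2]
  exact this (sp ▸ Submodule.mem_top)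

/-- split off a coordinate `±1` -/
theorem ext (n : Fin 23 → ℤ) {t : ℤ} (h : ∑ i, n i ^ 2 = t + 1) (h0 : 0 ≤ t) (h2 : t ≤ 2) :
    ∃ (i : Fin 23) (η : ℤ) (n' : Fin 23 → ℤ), (η = 1 ∨ η = -1) ∧ n' i = 0 ∧ ∑ k, n' k ^ 2 = t ∧
      ∀ k, n k = n' k + η * if k = i then 1 else 0 := by
  obtain ⟨i, hi⟩ : ∃ i, n i ≠ 0 := by
    by_contra c
    push Not at c
    simp [c] at h
    omega
  have h1 : n i ^ 2 ≤ t + 1 := h ▸ Finset.single_le_sum (fun k _ => sq_nonneg (n k)) (Finset.mem_univ i)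
  have h3 : n i = 1 ∨ n i = -1 := by
    have : -2 < n i ∧ n i < 2 := by constructor <;> nlinarith
    omega
  refine ⟨i, n i, Function.update n i 0, h3, by simp, ?_, fun k => ?_⟩
  · rw [← Finset.add_sum_erase _ _ (Finset.mem_univ i)] at h ⊢
    rw [Finset.sum_congr rfl fun k hk => by rw [Function.update_of_ne (Finset.ne_of_mem_erase hk)]]
    rcases h3 with e | e <;> simp [e] at h ⊢ <;> linarith
  · by_cases e : k = i <;> simp [e]

theorem zero (n : Fin 23 → ℤ) (h : ∑ i, n i ^ 2 = 0) (k : Fin 23) : n k = 0 :=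
  pow_eq_zero_iff two_ne_zero |>.1
    ((Finset.sum_eq_zero_iff_of_nonneg fun k _ => sq_nonneg (n k)).1 h k (Finset.mem_univ k))

end RA2

open RA2

theorem fr_expand {C : Core G} (F : C.Fr) (x : V) :
    x = ∑ i, C.B x (F.z i) • F.z i + (C.B x C.w / (23 * C.d)) • C.w := by
  have := C.d_ne
  refine sub_eq_zero.1 (eq_zero F ?_ fun k => ?_)
  · rw [map_sub, map_add, LinearMap.sub_apply, LinearMap.add_apply, pairw, map_smul, LinearMap.smul_apply, C.Bww,
      smul_eq_mul]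
    field_simp
    ring
  · rw [map_sub, map_add, LinearMap.sub_apply, LinearMap.add_apply, pair, map_smul, LinearMap.smul_apply,
      C.symm C.w, F.zw, sum_a]
    simp

theorem fr_norm {C : Core G} (F : C.Fr) (x y : V) :
    C.B x y = ∑ i, C.B x (F.z i) * C.B y (F.z i) + C.B x C.w * C.B y C.w / (23 * C.d) := by
  conv_lhs => rw [fr_expand F y]
  simp only [map_add, map_sum, map_smul, smul_eq_mul]
  rw [Finset.sum_congr rfl fun i _ => mul_comm (C.B y (F.z i)) _]
  ring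

theorem fr_types {C : Core G} (F : C.Fr) {ρ : V} (hρ : ρ ∈ C.L) (h2 : C.B ρ ρ = 2) :
    (C.B ρ C.w = 0 ∧ ∀ i, IsI (C.B ρ (F.z i))) ∨
    (∃ (j : ℤ) (η : ℚ) (i : Fin 23), (η = 1 ∨ η = -1) ∧ j ^ 2 * C.d = 24 ∧ C.B ρ C.w = j * C.d ∧
      ∀ k, C.B ρ (F.z k) = η * ((if k = i then 1 else 0) - 1 / 23)) ∨
    (∃ (j : ℤ) (η : ℚ) (p q : Fin 23), p ≠ q ∧ (η = 1 ∨ η = -1) ∧ j ^ 2 * C.d = 4 ∧
      C.B ρ C.w = j * C.d ∧
      ∀ k, C.B ρ (F.z k) = η * ((if k = p then 1 else 0) + (if k = q then 1 else 0) - 2 / 23)) := by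
  obtain ⟨j, hj⟩ := C.dec ρ hρ
  have hd := C.d_ne
  choose m hm using fun i => C.int ρ hρ _ (F.zL i 0)
  simp only [map_sub] at hm
  obtain ⟨n, hs, hn⟩ : ∃ n : Fin 23 → ℤ, |∑ i, n i| ≤ 11 ∧ ∀ i, C.B ρ (F.z i) = n i - (∑ i, n i : ℤ) / 23 := by
    have e1 : ((∑ i, m i : ℤ) : ℚ) = -23 * C.B ρ (F.z 0) := by
      push_cast
      simp only [← hm, Finset.sum_sub_distrib, sum_a]
      simp
    have e2 : ∑ i, (m i - (∑ i, m i + 11) / 23) = ∑ i, m i - 23 * ((∑ i, m i + 11) / 23) := by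
      simp [Finset.sum_sub_distrib]
    refine ⟨fun i => m i - (∑ i, m i + 11) / 23, ?_, fun i => ?_⟩
    · rw [e2, abs_le]; omega
    · rw [e2, Int.cast_sub, Int.cast_sub, Int.cast_mul, e1, ← hm]
      push_cast
      ring
  have key : 23 * ∑ i, n i ^ 2 - (∑ i, n i) ^ 2 + j ^ 2 * C.d = 46 := by
    have e := fr_norm F ρ ρ
    simp only [h2, hn, hj] at e
    have e1 : ∑ i, ((n i : ℚ) - (∑ i, n i : ℤ) / 23) * (n i - (∑ i, n i : ℤ) / 23) =
        (∑ i, n i ^ 2 : ℤ) - (∑ i, n i : ℤ) ^ 2 / 23 := by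
      have : ∀ a b : ℚ, (a - b) * (a - b) = a ^ 2 - 2 * b * a + b ^ 2 := fun a b => by ring
      simp only [this, Finset.sum_add_distrib, Finset.sum_sub_distrib, ← Finset.mul_sum]
      push_cast
      simp
      ring
    rw [e1] at e
    field_simp at e
    have : ((23 * ∑ i, n i ^ 2 - (∑ i, n i) ^ 2 + j ^ 2 * C.d : ℤ) : ℚ) = 46 := by
      rw [Int.cast_add, Int.cast_sub, Int.cast_mul, Int.cast_mul, Int.cast_pow, Int.cast_pow]
      push_cast at e ⊢
      linarith
    exact_mod_cast this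
  have hD : 0 ≤ j ^ 2 * C.d := by positivity
  have b1 : ∑ i, n i ≤ ∑ i, n i ^ 2 := Finset.sum_le_sum fun i _ => by nlinarith [Int.le_self_sq (n i)]
  have b2 : -∑ i, n i ≤ ∑ i, n i ^ 2 := by
    rw [← Finset.sum_neg_distrib]
    exact Finset.sum_le_sum fun i _ => by nlinarith [Int.le_self_sq (-n i)]
  rw [abs_le] at hs
  have b3 : ∑ i, n i ^ 2 ≤ 2 := by
    by_contra c
    rcases le_total (∑ i, n i ^ 2) 11 with k | k <;> nlinarith
  rcases (by omega : ∑ i, n i ^ 2 = 0 ∨ ∑ i, n i ^ 2 = 0 + 1 ∨ ∑ i, n i ^ 2 = 0 + 1 + 1) with t | t | t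
  · exfalso
    have s0 : ∑ i, n i = 0 := by omega
    rw [t, s0] at key
    have k1 : (23 : ℤ) ∣ j ^ 2 * C.d := ⟨2, by linarith⟩
    have p : Prime (23 : ℤ) := Int.prime_iff_natAbs_prime.2 (by norm_num)
    obtain ⟨c, rfl⟩ := p.dvd_of_dvd_pow ((p.dvd_or_dvd k1).resolve_right fun k => C.d23 (by exact_mod_cast k))
    have : 23 * (c ^ 2 * C.d) = 2 := by linarith
    omega
  · obtain ⟨i, η, n', h1, -, h3, h4⟩ := RA2.ext n t le_rfl (by norm_num)
    simp only [zero n' h3, zero_add] at h4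
    have s0 : ∑ i, n i = η := by simp [h4]
    refine Or.inr (Or.inl ⟨j, η, i, by exact_mod_cast h1, ?_, hj, fun k => ?_⟩)
    · rw [t, s0] at key
      rcases h1 with rfl | rfl <;> linarith
    · rw [hn, s0, h4]
      push_cast
      ring
  · obtain ⟨p, η, n', h1, h2, h3, h4⟩ := RA2.ext n t (by norm_num) (by norm_num)
    obtain ⟨q, η', n'', h5, -, h6, h7⟩ := RA2.ext n' h3 le_rfl (by norm_num)
    simp only [zero n'' h6, zero_add] at h7
    have pq : p ≠ q := fun e => by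
      rw [h7, if_pos e] at h2
      omega
    simp only [h7] at h4
    have s0 : ∑ i, n i = η' + η := by simp [h4, Finset.sum_add_distrib]
    rw [t, s0] at key
    by_cases e : η' = η
    · subst e
      refine Or.inr (Or.inr ⟨j, η', p, q, pq, by exact_mod_cast h1, ?_, hj, fun k => ?_⟩)
      · rcases h1 with rfl | rfl <;> linarith
      · rw [hn, s0, h4]
        push_cast
        ring
    · have e1 : η' + η = 0 := by omega
      rw [e1] at key s0
      have j0 : j = 0 := by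
        have : j ^ 2 * C.d = 0 := by linarith
        exact pow_eq_zero_iff two_ne_zero |>.1
          ((mul_eq_zero.1 this).resolve_right (Nat.cast_ne_zero.2 C.dpos.ne'))
      exact Or.inl ⟨by simp [hj, j0], fun i => ⟨n i, by simp [hn, s0]⟩⟩

end Cfsg.Agent.R23
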