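import Cfsg.Agent.R23.RA2
import Cfsg.Agent.R23.Orb

/-! Common lemmas for the cases `A₂₃` and `D₂₃`. -/

set_option autoImplicit false

namespace Cfsg.Agent.R23.RA34

open Matrix Finset

variable {G : Type*} [Group G]

theorem sq_one {ι : Type} [Fintype ι] [DecidableEq ι] (n : ι → ℤ) (h : ∑ i, n i ^ 2 = 1) :
    ∃ i, (n i = 1 ∨ n i = -1) ∧ ∀ k, k ≠ i → n k = 0 := by
  obtain ⟨i, hi⟩ : ∃ i, n i ≠ 0 := by
    by_contra h0
    push Not at h0
    simp [h0] at h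
  have h1 := add_sum_erase univ (fun i => n i ^ 2) (mem_univ i)
  have h2 : 0 ≤ ∑ k ∈ univ.erase i, n k ^ 2 := sum_nonneg fun k _ => sq_nonneg _
  have h3 : 0 < n i ^ 2 := by positivity
  have h4 : n i ^ 2 = 1 := by omega
  have h5 : ∑ k ∈ univ.erase i, n k ^ 2 = 0 := by omega
  refine ⟨i, sq_eq_one_iff.1 h4, fun k hk => ?_⟩
  have := (sum_eq_zero_iff_of_nonneg fun k _ => sq_nonneg (n k)).1 h5 k (by simp [hk])
  exact pow_eq_zero_iff (two_ne_zero) |>.1 this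

theorem sum_z {C : Core G} (F : C.Fr) : ∑ i, F.z i = 0 := by
  apply C.toFm.eq_zero
  simp only [map_sum, LinearMap.sum_apply, F.zz]
  simp [sum_sub_distrib]

theorem sum_B {C : Core G} (F : C.Fr) (x : V) : ∑ i, C.B x (F.z i) = 0 := by
  rw [← map_sum, sum_z, map_zero]

theorem root_inv {C : Core G} (g : G) {ρ : V} (h2 : C.B ρ ρ = 2) :
    C.B (C.r g ρ) (C.r g ρ) = 2 := by rw [C.inv, h2]

/-- a root not orthogonal to `w` -/
theorem exists_root [Finite G] {C : Core G} (F : C.Fr) :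
    ∃ ρ ∈ C.L, C.B ρ ρ = 2 ∧ C.B ρ C.w ≠ 0 := by
  have h2 : C.B (F.z 0 - F.z 1) (F.z 0 - F.z 1) = 2 := by
    simp only [map_sub, LinearMap.sub_apply, F.zz]
    norm_num [Fin.ext_iff]
  have h0 : F.z 0 - F.z 1 ≠ 0 := fun h => by simp [h] at h2
  obtain ⟨g, hg⟩ := exists_ne C h0
  exact ⟨_, C.Linv g _ (F.zL 0 1), root_inv g h2, hg⟩

theorem eta_mem {C : Core G} {η : ℚ} (hη : η = 1 ∨ η = -1) {ρ : V} (hρ : ρ ∈ C.L) :
    η • ρ ∈ C.L := by
  rcases hη with rfl | rfl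
  · simpa using hρ
  · simpa using hρ

end Cfsg.Agent.R23.RA34
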