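import Cfsg.Agent.R23.Defs

/-! The endomorphism ring of the module is `ℚ`; the averaging formula. -/

set_option autoImplicit false

namespace Cfsg.Agent.R23

open Matrix

variable {G : Type*} [Group G]

namespace Schur

/-- The endomorphisms commuting with the group. -/
abbrev D (F : Fm G) : Subalgebra ℚ (Module.End ℚ V) := Subalgebra.centralizer ℚ (Set.range F.r)

theorem app {F : Fm G} (A : D F) (g : G) (x : V) : F.r g (A.1 x) = A.1 (F.r g x) :=
  LinearMap.congr_fun (A.2 _ ⟨g, rfl⟩) x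

theorem unit (F : Fm G) (A : D F) : IsUnit A ∨ A = 0 := by
  rcases F.irr (LinearMap.ker A.1) (fun g x hx => by
    rw [LinearMap.mem_ker, ← app, LinearMap.mem_ker.1 hx, map_zero]) with h | h
  · obtain ⟨u, hu⟩ := (LinearMap.isUnit_iff_ker_eq_bot _).2 h
    refine .inl ⟨⟨A, ⟨u.inv, ?_⟩, Subtype.ext (hu ▸ u.val_inv), Subtype.ext (hu ▸ u.inv_val)⟩, rfl⟩
    rintro _ ⟨g, rfl⟩
    exact (Commute.units_inv_right (show Commute (F.r g) u from hu ▸ A.2 _ ⟨g, rfl⟩)).eq
  · exact .inr (Subtype.ext (LinearMap.ker_eq_top.1 h))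

theorem alt (C : LinearMap.BilinForm ℚ V) (h : ∀ x y, C x y = -C y x) : ∃ v ≠ 0, ∀ x, C x v = 0 := by
  have h1 : (LinearMap.BilinForm.toMatrix' C)ᵀ = -LinearMap.BilinForm.toMatrix' C := by
    ext i j
    simp only [transpose_apply, neg_apply, LinearMap.BilinForm.toMatrix'_apply]
    exact h _ _
  have h2 := congrArg det h1
  rw [det_transpose, det_neg, Fintype.card_fin] at h2
  obtain ⟨v, hv, k⟩ := (exists_mulVec_eq_zero_iff (M := LinearMap.BilinForm.toMatrix' C)).2 (by linarith)
  refine ⟨v, hv, fun x => ?_⟩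
  rw [← Matrix.toBilin'_toMatrix' C, Matrix.toBilin'_apply', k, dotProduct_zero]

theorem sym {F : Fm G} (A : D F) (x y : V) : F.B (A.1 x) y = F.B x (A.1 y) := by
  let C : LinearMap.BilinForm ℚ V := F.B.compLeft A.1 - F.B.compRight A.1
  have hC : ∀ x y, C x y = F.B (A.1 x) y - F.B x (A.1 y) := fun _ _ => rfl
  obtain ⟨v, hv, k⟩ := alt C fun x y => by rw [hC, hC, F.symm (A.1 y), F.symm y]; ring
  rcases F.irr (LinearMap.ker C.flip) (fun g v hv => LinearMap.ext fun x => by
    have := LinearMap.congr_fun hv (F.r g⁻¹ x)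
    rw [LinearMap.BilinForm.flip_apply, hC] at this ⊢
    rw [← app] at this
    rwa [← app, F.symm _ (F.r g v), F.symm x, F.inv', F.inv', F.symm v, F.symm (A.1 v)]) with h | h
  · exact absurd (h.le (LinearMap.ext k : v ∈ LinearMap.ker C.flip)) hv
  · exact sub_eq_zero.1 (LinearMap.congr_fun (h.ge (Submodule.mem_top (x := y))) x)

theorem ext {F : Fm G} {y z : V} (h : ∀ x, F.B x y = F.B x z) : y = z :=
  sub_eq_zero.1 (F.eq_zero (by rw [map_sub, h, sub_self]))

theorem comm {F : Fm G} (A A' : D F) (y : V) : A.1 (A'.1 y) = A'.1 (A.1 y) :=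
  ext fun x => ((sym (A * A') x y).symm.trans (sym A (A'.1 x) y)).trans (sym A' x _)

theorem bot (F : Fm G) : D F = ⊥ := by
  have : Nontrivial (D F) := inferInstance
  let _ : DivisionRing (D F) := DivisionRing.ofIsUnitOrEqZero (unit F)
  have h := Module.finrank_mul_finrank ℚ (D F) V
  rw [Module.finrank_fin_fun] at h
  rcases (Nat.prime_mul_iff.1 (h ▸ (by norm_num : Nat.Prime 23))) with ⟨-, k⟩ | ⟨-, k⟩
  swap
  · exact Subalgebra.eq_bot_of_finrank_one k
  obtain ⟨v, hv, k⟩ := finrank_eq_one_iff'.1 k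
  rcases F.irr (Submodule.span ℚ {v}) (fun g x hx => by
    obtain ⟨c, rfl⟩ := Submodule.mem_span_singleton.1 hx
    obtain ⟨A, hA⟩ := k (F.r g v)
    have e : ∀ w, F.r g w = A.1 w := fun w => by
      obtain ⟨A', rfl⟩ := k w
      exact (app A' g v).trans ((congrArg A'.1 hA).symm.trans (comm A' A v))
    have e2 : A * A = 1 := Subtype.ext (LinearMap.ext fun y => ext (F := F) fun x =>
      (sym A x (A.1 y)).symm.trans (by rw [← e, ← e, F.inv]; rfl))
    rw [e]
    rcases mul_self_eq_one_iff.1 e2 with rfl | rfl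
    exacts [hx, neg_mem hx]) with h | h
  · exact absurd (Submodule.span_singleton_eq_bot.1 h) hv
  · have := (finrank_eq_one_iff_of_nonzero v hv).2 h
    rw [Module.finrank_fin_fun] at this
    omega

end Schur

theorem schur [Fintype G] (F : Fm G) (x y m : V) :
    ∑ g : G, F.B (F.r g y) x • F.r g m = ((Fintype.card G : ℚ) / 23 * F.B y m) • x := by
  let A : Module.End ℚ V := ∑ g : G, (F.B (F.r g y)).smulRight (F.r g m)
  have hA : ∀ x, A x = ∑ g : G, F.B (F.r g y) x • F.r g m := fun x => by simp [A]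
  have h : A ∈ Schur.D F := by
    rintro _ ⟨h, rfl⟩
    refine LinearMap.ext fun x => ?_
    rw [Module.End.mul_apply, Module.End.mul_apply, hA, hA, map_sum, eq_comm, ← Equiv.sum_comp (Equiv.mulLeft h)]
    simp only [Equiv.coe_mulLeft, map_mul, Module.End.mul_apply, F.inv, map_smul]
  rw [Schur.bot] at h
  obtain ⟨c, hc⟩ := Algebra.mem_bot.1 h
  have t := congrArg (LinearMap.trace ℚ V) hc
  rw [Algebra.algebraMap_eq_smul_one, map_smul, LinearMap.trace_one, Module.finrank_fin_fun, map_sum] at t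
  simp only [LinearMap.trace_smulRight, F.inv, Finset.sum_const, Finset.card_univ, nsmul_eq_mul, smul_eq_mul] at t
  rw [← hA, ← hc, Module.algebraMap_end_apply]
  congr 1
  push_cast at t
  linarith

end Cfsg.Agent.R23
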